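import Cfsg.Agent.Chev.BN

/-!
Matrices of Weyl words on coefficient vectors, and the triviality of a Weyl word fixing a regular vector.
-/

set_option autoImplicit false

universe u

namespace Cfsg.Agent.Chars2.SingerTorus

open Cfsg.Lie Cfsg.Agent.Chev Matrix

variable {D : ChevalleyDatum} (C : Cert.{u} D)

/-- The coefficient vector of a root. -/
def coefVec (s : ℕ) : Fin D.rank → ℤ := fun k => C.coef s k

/-- The matrix of a word on coefficient row vectors. -/
def actMat (L : List ℕ) : Matrix (Fin D.rank) (Fin D.rank) ℤ :=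
  fun j k => C.coef (act D L (D.simple j)) k

/-- The repetition of a word. -/
def wordPow (L : List ℕ) (k : ℕ) : List ℕ := (List.replicate k L).flatten

include C

omit C in
theorem wordPow_lt {L : List ℕ} (hL : ∀ i ∈ L, i < D.rank) (k : ℕ) : ∀ i ∈ wordPow L k, i < D.rank := by
  intro i hi
  obtain ⟨L', h1, h2⟩ := List.mem_flatten.mp hi
  exact hL i (List.eq_of_mem_replicate h1 ▸ h2)

theorem coefVec_act {L : List ℕ} (hL : ∀ i ∈ L, i < D.rank) {s : ℕ} (hs : s < D.nroots) :
    coefVec C (act D L s) = coefVec C s ᵥ* actMat C L := by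
  funext k
  show C.coef (act D L s) k = _
  rw [C.act_coef hL hs k k.isLt, Finset.sum_range]
  rfl

theorem actMat_nil : actMat C [] = 1 := by
  ext j k
  show C.coef (D.simple j) k = _
  rw [C.coef_simple j j.isLt k k.isLt, Matrix.one_apply]
  simp [Fin.ext_iff, eq_comm]

theorem actMat_append {L L' : List ℕ} (hL : ∀ i ∈ L, i < D.rank) (hL' : ∀ i ∈ L', i < D.rank) :
    actMat C (L ++ L') = actMat C L' * actMat C L := by
  ext j k
  show C.coef (act D (L ++ L') (D.simple j)) k = _
  rw [act_append]
  exact congrFun (coefVec_act C hL (C.act_lt hL' (C.simple_lt j j.isLt))) k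

theorem actMat_wordPow {L : List ℕ} (hL : ∀ i ∈ L, i < D.rank) (k : ℕ) :
    actMat C (wordPow L k) = actMat C L ^ k := by
  induction k with
  | zero => exact actMat_nil C
  | succ k ih =>
    rw [show wordPow L (k + 1) = L ++ wordPow L k from by simp [wordPow, List.replicate_succ],
      actMat_append C hL (wordPow_lt hL k), ih, pow_succ]

theorem nWordElt_wordPow {F : Type u} [Field F] (L : List ℕ) (k : ℕ) :
    C.nWordElt F (wordPow L k) = C.nWordElt F L ^ k := by
  induction k with
  | zero => rfl
  | succ k ih =>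
    rw [show wordPow L (k + 1) = L ++ wordPow L k from by simp [wordPow, List.replicate_succ], pow_succ', ← ih]
    simp [Cert.nWordElt]

/-- A power of a word lying in the torus gives the order of its matrix. -/
theorem actMat_pow_eq_one {F : Type u} [Field F] {L : List ℕ} (hL : ∀ i ∈ L, i < D.rank) {N : ℕ}
    (h : C.nWordElt F L ^ N ∈ D.diagonalSubgroup F) : actMat C L ^ N = 1 := by
  rw [← actMat_wordPow C hL, ← actMat_nil C]
  ext j k
  show C.coef (act D (wordPow L N) (D.simple j)) k = C.coef (act D [] (D.simple j)) k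
  rw [C.act_eq_of_mem_diagonal (F := F) (wordPow_lt hL N) (by rw [nWordElt_wordPow C]; exact h)
    (C.simple_lt j j.isLt)]
  rfl

/-- The invariant form bounds the lengths of the roots. -/
theorem norm_le (δ : Fin D.rank → ℤ)
    (hδ : ∀ i j : Fin D.rank, δ i * D.cartan i (D.simple j) = δ j * D.cartan j (D.simple i))
    {c : ℤ} (hc : ∀ i, 2 * δ i ≤ c) {r : ℕ} (hr : r < D.nroots) :
    ∑ i : Fin D.rank, δ i * (C.coef r i * D.cartan i r) ≤ c := by
  refine C.induction_simple (fun r => ∑ i : Fin D.rank, δ i * (C.coef r i * D.cartan i r) ≤ c) ?_ ?_ r hr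
  · intro a ha
    rw [Finset.sum_eq_single ⟨a, ha⟩]
    · rw [C.coef_simple a ha a ha, if_pos rfl, C.cartan_diag a ha, one_mul, mul_comm]
      exact hc _
    · intro i _ hi
      rw [C.coef_simple a ha i i.isLt, if_neg fun e : (i : ℕ) = a => hi (Fin.ext e), zero_mul, mul_zero]
    · simp
  · intro a ha s hs ih
    refine le_trans (le_of_eq ?_) ih
    have hsym : ∀ i : Fin D.rank, δ i * D.cartan i (D.simple a) = δ ⟨a, ha⟩ * D.cartan a (D.simple i) :=
      fun i => hδ i ⟨a, ha⟩
    have e : ∀ i : Fin D.rank,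
        δ i * (C.coef (D.reflectRoot a s) i * D.cartan i (D.reflectRoot a s)) =
          δ i * (C.coef s i * D.cartan i s)
            - D.cartan a s * δ ⟨a, ha⟩ * (C.coef s i * D.cartan a (D.simple i))
            - (if i = ⟨a, ha⟩ then δ ⟨a, ha⟩ * (D.cartan a s * (D.cartan a s - D.cartan a s * 2)) else 0) := by
      intro i
      rw [C.coef_refl a ha s hs i i.isLt, C.cartan_refl i i.isLt ha hs]
      by_cases h : i = ⟨a, ha⟩
      · subst h
        rw [if_pos rfl, if_pos rfl, C.cartan_diag a ha]
        ring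
      · rw [if_neg (fun e : (i : ℕ) = a => h (Fin.ext e)), if_neg h, ← sub_eq_zero]
        have := hsym i
        linear_combination (-(C.coef s i) * D.cartan a s) * this
    rw [Finset.sum_congr rfl fun i _ => e i, Finset.sum_sub_distrib, Finset.sum_sub_distrib,
      Finset.sum_ite_eq', if_pos (Finset.mem_univ _), ← Finset.mul_sum,
      ← Finset.sum_range (fun i => C.coef s i * D.cartan a (D.simple i)), ← C.cartan_linear a ha s hs]
    ring

/-- A word fixing a regular vector modulo `r` acts trivially on the roots. -/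
theorem act_eq_self {M : CoxeterMatrix (Fin D.rank)} (hM : CoxOK D M) (L : List (Fin D.rank)) {r N : ℕ}
    [Fact r.Prime] (hN : actMat C (L.map Fin.val) ^ N = 1) (hrN : ¬ r ∣ N) {v : Fin D.rank → ZMod r}
    (hreg : ∀ s < D.nroots, ∑ i, (coefVec C s i : ZMod r) * v i ≠ 0)
    (hfix : (actMat C (L.map Fin.val)).map (Int.castRingHom (ZMod r)) *ᵥ v = v) :
    ∀ s < D.nroots, act D (L.map Fin.val) s = s := by
  classical
  have hLlt : ∀ (L : List (Fin D.rank)), ∀ a ∈ L.map Fin.val, a < D.rank := by
    intro L a ha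
    obtain ⟨b, -, rfl⟩ := List.mem_map.mp ha
    exact b.isLt
  set A := actMat C (L.map Fin.val) with hA
  let ũ : Fin D.rank → ℤ := fun k => (v k).cast
  have hu : (fun i => (ũ i : ZMod r)) = v := funext fun i => ZMod.intCast_zmod_cast (v i)
  set f : Fin D.rank → ℤ := ∑ i ∈ Finset.range N, A ^ i *ᵥ ũ with hf
  have hAf : A *ᵥ f = f := by
    rw [hf, Matrix.mulVec_sum]
    have h1 := Finset.sum_range_succ (fun i => A ^ i *ᵥ ũ) N
    have h2 := Finset.sum_range_succ' (fun i => A ^ i *ᵥ ũ) N
    rw [h1, hN, pow_zero, add_left_inj] at h2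
    conv_rhs => rw [h2]
    exact Finset.sum_congr rfl fun i _ => by rw [Matrix.mulVec_mulVec, ← pow_succ']
  let φ : ℕ → ℤ := fun s => coefVec C s ⬝ᵥ f
  have hφA : ∀ s < D.nroots, φ (act D (L.map Fin.val) s) = φ s := fun s hs => by
    show coefVec C _ ⬝ᵥ f = _
    rw [coefVec_act C (hLlt L) hs, ← Matrix.dotProduct_mulVec, hAf]
  have hfr : ∀ i, (f i : ZMod r) = (N : ZMod r) * v i := by
    intro i
    have hk : ∀ k : ℕ, (fun i => ((A ^ k *ᵥ ũ) i : ZMod r)) = v := by
      intro k
      induction k with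
      | zero => simpa using hu
      | succ k ih =>
        have h1 : (A.map (Int.castRingHom (ZMod r)) *ᵥ fun i => ((A ^ k *ᵥ ũ) i : ZMod r)) = v := by
          rw [ih]; exact hfix
        rw [pow_succ', ← Matrix.mulVec_mulVec]
        conv_rhs => rw [← h1]
        funext i
        simp [Matrix.mulVec, dotProduct]
    rw [hf, Finset.sum_apply, Int.cast_sum, Finset.sum_congr rfl fun k _ => congrFun (hk k) i,
      Finset.sum_const, Finset.card_range, nsmul_eq_mul]
  have hφ0 : ∀ s < D.nroots, φ s ≠ 0 := by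
    intro s hs h0
    have h1 : ((φ s : ℤ) : ZMod r) = 0 := by rw [h0, Int.cast_zero]
    simp only [φ, dotProduct, Int.cast_sum, Int.cast_mul, hfr, mul_left_comm _ (N : ZMod r),
      ← Finset.mul_sum] at h1
    rcases mul_eq_zero.mp h1 with h | h
    · exact hrN ((ZMod.natCast_eq_zero_iff _ _).mp h)
    · exact hreg s hs h
  set cs := M.toCoxeterSystem with hcs
  let ψ : M.Group → ℕ → ℤ := fun w s => φ (C.rootImage hM w s)
  have hψlin : ∀ w, ∀ s < D.nroots, ψ w s = ∑ j : Fin D.rank, C.coef s j * ψ w (D.simple j) := by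
    intro w s hs
    obtain ⟨Lw, -, hw⟩ := cs.exists_reduced_word w
    have hj : ∀ j : Fin D.rank, ψ w (D.simple j) = (actMat C (Lw.map Fin.val) *ᵥ f) j := fun j => by
      show φ (C.rootImage hM w _) = _
      rw [hw, C.rootImage_wordProd hM Lw (C.simple_lt j j.isLt)]
      rfl
    rw [Finset.sum_congr rfl fun j _ => by rw [hj j]]
    show φ (C.rootImage hM w s) = _
    rw [hw, C.rootImage_wordProd hM Lw hs]
    show coefVec C _ ⬝ᵥ f = _
    rw [coefVec_act C (hLlt Lw) hs, ← Matrix.dotProduct_mulVec]
    rfl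
  have hψneg : ∀ w, ∀ s < D.nroots, ψ w (D.neg s) = - ψ w s := by
    intro w s hs
    rw [hψlin w _ (C.neg_lt s hs), hψlin w s hs, ← Finset.sum_neg_distrib]
    exact Finset.sum_congr rfl fun j _ => by rw [C.coef_neg s hs j j.isLt]; ring
  let bad : M.Group → Finset ℕ := fun w => (Finset.range D.nroots).filter fun s => D.IsPosRoot s ∧ ψ w s < 0
  have hex : ∀ n w, (bad w).card ≤ n → ∃ w', ∀ s, D.IsPosRoot s → 0 < ψ w' s := by
    intro n
    induction n with
    | zero =>
      intro w hw
      refine ⟨w, fun s hs => ?_⟩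
      rcases lt_trichotomy (ψ w s) 0 with h | h | h
      · have : s ∈ bad w := Finset.mem_filter.mpr ⟨Finset.mem_range.mpr hs.1, hs, h⟩
        rw [Finset.card_eq_zero.mp (Nat.le_zero.mp hw)] at this
        simp at this
      · exact absurd h (hφ0 _ (C.rootImage_lt hM w hs.1))
      · exact h
    | succ n ih =>
      intro w hw
      by_cases hall : ∀ s, D.IsPosRoot s → 0 < ψ w s
      · exact ⟨w, hall⟩
      push Not at hall
      obtain ⟨s, hs, hs'⟩ := hall
      obtain ⟨i, hi⟩ : ∃ i : Fin D.rank, ψ w (D.simple i) < 0 := by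
        by_contra hno
        push Not at hno
        have h0 : 0 ≤ ψ w s := by
          rw [hψlin w s hs.1]
          exact Finset.sum_nonneg fun j _ => mul_nonneg ((C.pos_iff s hs.1).mp hs j j.isLt) (hno j)
        exact hφ0 _ (C.rootImage_lt hM w hs.1) (le_antisymm hs' h0)
      have hp := C.simple_lt i i.isLt
      have hstep : ∀ t < D.nroots, ψ (w * M.simple i) t = ψ w (D.reflectRoot i t) := fun t ht => by
        show φ _ = φ _
        rw [C.rootImage_mul hM _ _ ht, C.rootImage_simple hM i ht]
      refine ih (w * M.simple i) ?_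
      have hmap : ∀ t ∈ bad (w * M.simple i), D.reflectRoot i t ∈ (bad w).erase (D.simple i) := by
        intro t ht
        obtain ⟨htr, htp, htn⟩ := Finset.mem_filter.mp ht
        rw [hstep t htp.1] at htn
        have hne : t ≠ D.simple i := by
          rintro rfl
          rw [C.refl_simple i.isLt, hψneg w _ hp] at htn
          omega
        have hpos := C.pos_refl i.isLt htp hne
        refine Finset.mem_erase.mpr ⟨fun e => ?_, Finset.mem_filter.mpr ⟨Finset.mem_range.mpr hpos.1, hpos, htn⟩⟩
        have e2 := congrArg (D.reflectRoot i) e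
        rw [C.refl_refl i.isLt htp.1, C.refl_simple i.isLt] at e2
        exact C.not_pos_and_neg htp (e2 ▸ C.negRoot_neg (C.pos_simple i.isLt))
      have h1 := Finset.card_le_card_of_injOn (fun t => D.reflectRoot i t) hmap fun t ht t' ht' e =>
        C.refl_inj i.isLt (Finset.mem_filter.mp ht).2.1.1 (Finset.mem_filter.mp ht').2.1.1 e
      have hbi : D.simple i ∈ bad w :=
        Finset.mem_filter.mpr ⟨Finset.mem_range.mpr hp, C.pos_simple i.isLt, hi⟩
      rw [Finset.card_erase_of_mem hbi] at h1
      have := Finset.card_pos.mpr ⟨_, hbi⟩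
      omega
  obtain ⟨w, hw⟩ := hex _ 1 le_rfl
  set z := cs.wordProd L with hz
  set g := w⁻¹ * z * w with hg
  have hg1 : g = 1 := by
    by_contra hne
    obtain ⟨i, hi⟩ := cs.exists_rightDescent_of_ne_one hne
    have hp := C.simple_lt i i.isLt
    have hneg := C.neg_of_descent hM g i hi
    have hlt := C.rootImage_lt hM g hp
    have h1 : ψ w (C.rootImage hM g (D.simple i)) = ψ w (D.simple i) := by
      show φ (C.rootImage hM w _) = φ (C.rootImage hM w _)
      rw [← C.rootImage_mul hM w g hp, hg, mul_assoc, mul_inv_cancel_left, C.rootImage_mul hM z w hp, hz,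
        C.rootImage_wordProd hM L (C.rootImage_lt hM w hp), hφA _ (C.rootImage_lt hM w hp)]
    have h2 := hw _ (C.posRoot_neg hneg)
    rw [hψneg w _ hlt, h1] at h2
    have := hw _ (C.pos_simple i.isLt)
    omega
  have hz1 : z = 1 := by
    have : z = w * g * w⁻¹ := by rw [hg]; group
    rw [this, hg1, mul_one, mul_inv_cancel]
  intro s hs
  rw [← C.rootImage_wordProd hM L hs, ← hcs, ← hz, hz1, C.rootImage_one hM]

end Cfsg.Agent.Chars2.SingerTorus
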