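import Cfsg.Agent.Chars2.Homocyclic.Fixed
import Cfsg.Agent.Chars2.SingerTorus.Weyl

/-!
Coordinates on a split torus over a finite field, conjugation by Weyl words, and centralisers of regular
elements.
-/

set_option autoImplicit false
set_option linter.unusedSectionVars false

universe u v

namespace Cfsg.Agent.Chars2.SingerTorus

open Cfsg.Lie Cfsg.Agent.Chev Cfsg.Agent.Chars2.Homocyclic Matrix
open scoped MatrixGroups

variable {D : ChevalleyDatum} {K : Type u} [Field K] (C : Cert.{u} D)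
include C

theorem char_eq {g : GL D.Idx K} (hg : g ∈ D.diagonalSubgroup K) {χ : ℕ → K}
    (hχ : (g : Matrix D.Idx D.Idx K) = dMat D χ) {s : ℕ} (hs : s < D.nroots) :
    χ s = ∏ j : Fin D.rank, χ (D.simple j) ^ C.coef s j := by
  obtain ⟨c, hc, eg⟩ := C.mem_diagonal_iff.mp hg
  have hg' : (g : Matrix D.Idx D.Idx K) = dMat D fun s => ∏ k ∈ Finset.range D.rank, cartChar D k (c k) s := by
    rw [eg, C.coe_torusElt hc]
  have key : ∀ t < D.nroots, χ t = ∏ k ∈ Finset.range D.rank, cartChar D k (c k) t := fun t ht => by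
    rw [← dMat_entry hχ ht, dMat_entry hg' ht]
  rw [key s hs, C.char_eq_prod hc hs]
  exact Finset.prod_congr rfl fun j _ => by rw [key _ (C.simple_lt j j.isLt)]

/-- Conjugating a diagonal element by a word. -/
theorem word_conj_char {L : List ℕ} (hL : ∀ i ∈ L, i < D.rank) {g : GL D.Idx K} {χ : ℕ → K}
    (hg : (g : Matrix D.Idx D.Idx K) = dMat D χ) :
    ((C.nWordElt K L * g * (C.nWordElt K L)⁻¹ : GL D.Idx K) : Matrix D.Idx D.Idx K) =
      dMat D fun s => χ (act D L.reverse s) := by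
  induction L with
  | nil => simpa [Cert.nWordElt, act_nil] using hg
  | cons a L ih =>
    have ha := hL a List.mem_cons_self
    have ih' := ih fun i hi => hL i (List.mem_cons_of_mem _ hi)
    set P := C.nWordElt K L * g * (C.nWordElt K L)⁻¹ with hP
    set n := C.nu (D.simple a) (1 : K) with hn
    have e : C.nWordElt K (a :: L) * g * (C.nWordElt K (a :: L))⁻¹ = n * P * n⁻¹ := by
      rw [C.nWordElt_cons, hP, hn]; group
    rw [e, Units.val_mul, Units.val_mul, ih', hn, C.coe_nu, C.nMat_dMat ha, mul_assoc, ← C.coe_nu,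
      Units.mul_inv, mul_one]
    refine dMat_congr fun s _ => ?_
    rw [List.reverse_cons, act_append, act_cons, act_nil]

variable [Fintype K]

/-- Logarithmic coordinates on the torus. -/
structure LogCoord where
  /-- the coordinates -/
  lg : ↥(D.diagonalSubgroup K) →* Multiplicative (Fin D.rank → ZMod (Fintype.card K - 1))
  inj : Function.Injective lg
  /-- the exponential -/
  ex : Multiplicative (ZMod (Fintype.card K - 1)) ≃* Kˣ
  spec : ∀ (t : ↥(D.diagonalSubgroup K)) (χ : ℕ → K), ((t : GL D.Idx K) : Matrix D.Idx D.Idx K) = dMat D χ →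
    ∀ s < D.nroots, χ s = (ex (Multiplicative.ofAdd
      (∑ i, (coefVec C s i : ZMod (Fintype.card K - 1)) * (lg t).toAdd i)) : K)

/-- A split torus has coordinates. -/
theorem nonempty_logCoord : Nonempty (LogCoord (K := K) C) := by
  classical
  have hn : Nat.card Kˣ = Fintype.card K - 1 := by rw [Nat.card_eq_fintype_card, Fintype.card_units]
  let ex : Multiplicative (ZMod (Fintype.card K - 1)) ≃* Kˣ := hn ▸ zmodCyclicMulEquiv inferInstance
  have hent : ∀ (t : ↥(D.diagonalSubgroup K)) (j : Fin D.rank),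
      ((t : GL D.Idx K) : Matrix D.Idx D.Idx K) (Sum.inr ⟨D.simple j, C.simple_lt j j.isLt⟩)
        (Sum.inr ⟨D.simple j, C.simple_lt j j.isLt⟩) ≠ 0 := by
    intro t j
    obtain ⟨χ, -, h0, e⟩ := C.diagonal_char t.2
    rw [dMat_entry e]; exact h0 _
  let θ : ↥(D.diagonalSubgroup K) →* Multiplicative (Fin D.rank → ZMod (Fintype.card K - 1)) :=
    MonoidHom.mk' (fun t => Multiplicative.ofAdd fun j => (ex.symm (Units.mk0 _ (hent t j))).toAdd) fun a b => by
      rw [← ofAdd_add]
      congr 1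
      funext j
      rw [Pi.add_apply, ← toAdd_mul, ← map_mul]
      congr 2
      refine Units.ext ?_
      obtain ⟨χ, -, -, e⟩ := C.diagonal_char a.2
      obtain ⟨χ', -, -, e'⟩ := C.diagonal_char b.2
      rw [Units.val_mul, Units.val_mk0, Units.val_mk0, Units.val_mk0, dMat_entry e (C.simple_lt j j.isLt),
        dMat_entry e' (C.simple_lt j j.isLt)]
      refine dMat_entry (χ := χ * χ') ?_ (C.simple_lt j j.isLt)
      rw [Subgroup.coe_mul, Units.val_mul, e, e', dMat_mul]
  have hspec : ∀ (t : ↥(D.diagonalSubgroup K)) (χ : ℕ → K),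
      ((t : GL D.Idx K) : Matrix D.Idx D.Idx K) = dMat D χ → ∀ s < D.nroots,
      χ s = (ex (Multiplicative.ofAdd
        (∑ i, (coefVec C s i : ZMod (Fintype.card K - 1)) * (θ t).toAdd i)) : K) := by
    intro t χ hχ s hs
    rw [char_eq C t.2 hχ hs, ofAdd_sum, map_prod, Units.coe_prod]
    refine Finset.prod_congr rfl fun j _ => ?_
    rw [show ((θ t).toAdd j) = (ex.symm (Units.mk0 _ (hent t j))).toAdd from rfl,
      ← zsmul_eq_mul, ofAdd_zsmul, ofAdd_toAdd, map_zpow, MulEquiv.apply_symm_apply,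
      Units.val_zpow_eq_zpow_val, Units.val_mk0, dMat_entry hχ (C.simple_lt j j.isLt)]
    rfl
  have hinj : Function.Injective θ := by
    rw [injective_iff_map_eq_one]
    intro t ht
    obtain ⟨χ, -, -, e⟩ := C.diagonal_char t.2
    refine Subtype.ext (Units.ext ?_)
    rw [e, OneMemClass.coe_one, Units.val_one, ← dMat_one]
    refine dMat_congr fun s hs => ?_
    rw [hspec t χ e s hs, ht]
    simp
  exact ⟨⟨θ, hinj, ex, hspec⟩⟩

variable {C}

/-- With connected centre the coordinates are onto. -/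
theorem LogCoord.surjective (P : LogCoord (K := K) C)
    (hT : Nat.card (D.diagonalSubgroup K) = (Fintype.card K - 1) ^ D.rank) : Function.Surjective P.lg := by
  have hne : 0 < Fintype.card K - 1 := by have := Fintype.one_lt_card (α := K); omega
  haveI : NeZero (Fintype.card K - 1) := ⟨hne.ne'⟩
  exact ((Nat.bijective_iff_injective_and_card _).mpr ⟨P.inj, by
    rw [hT, Nat.card_congr Multiplicative.toAdd, Nat.card_fun, Nat.card_zmod, Nat.card_fin]⟩).2


theorem LogCoord.char_ne_one (P : LogCoord (K := K) C) {t : ↥(D.diagonalSubgroup K)} {χ : ℕ → K}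
    (hχ : ((t : GL D.Idx K) : Matrix D.Idx D.Idx K) = dMat D χ) {s : ℕ} (hs : s < D.nroots)
    (h : ∑ i, (coefVec C s i : ZMod (Fintype.card K - 1)) * (P.lg t).toAdd i ≠ 0) : χ s ≠ 1 := by
  rw [P.spec t χ hχ s hs]
  intro h1
  have h2 : P.ex _ = 1 := Units.ext h1
  rw [map_eq_one_iff _ P.ex.injective] at h2
  exact h (congrArg Multiplicative.toAdd h2)

/-- The coordinates of a conjugate by a monomial element. -/
theorem LogCoord.lg_conj (P : LogCoord (K := K) C) {L : List ℕ} (hL : ∀ i ∈ L, i < D.rank)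
    {h : GL D.Idx K} (hh : h ∈ D.diagonalSubgroup K) (t : ↥(D.diagonalSubgroup K))
    (hm : C.nWordElt K L * h * t * (C.nWordElt K L * h)⁻¹ ∈ D.diagonalSubgroup K) :
    (P.lg ⟨_, hm⟩).toAdd =
      (actMat C L.reverse).map (Int.castRingHom (ZMod (Fintype.card K - 1))) *ᵥ (P.lg t).toAdd := by
  obtain ⟨χ, -, -, e⟩ := C.diagonal_char t.2
  have e1 : C.nWordElt K L * h * t * (C.nWordElt K L * h)⁻¹ =
      C.nWordElt K L * t * (C.nWordElt K L)⁻¹ := by
    rw [mul_assoc (C.nWordElt K L) h, C.diagonal_comm hh t.2]; group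
  have hLr : ∀ i ∈ L.reverse, i < D.rank := fun i hi => hL i (List.mem_reverse.mp hi)
  have e2 := word_conj_char C hL e
  rw [← e1] at e2
  funext j
  have hp := C.simple_lt j j.isLt
  have h1 := P.spec ⟨_, hm⟩ _ e2 (D.simple j) hp
  beta_reduce at h1
  rw [P.spec t χ e _ (C.act_lt hLr hp)] at h1
  have h2 := congrArg Multiplicative.toAdd (P.ex.injective (Units.ext h1))
  simp only [toAdd_ofAdd] at h2
  have h3 : ∑ i, (coefVec C (D.simple j) i : ZMod (Fintype.card K - 1)) * (P.lg ⟨_, hm⟩).toAdd i =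
      (P.lg ⟨_, hm⟩).toAdd j := by
    rw [Finset.sum_eq_single j]
    · rw [coefVec, C.coef_simple j j.isLt j j.isLt, if_pos rfl, Int.cast_one, one_mul]
    · intro b _ hb
      rw [coefVec, C.coef_simple j j.isLt b b.isLt, if_neg fun e => hb (Fin.ext e), Int.cast_zero, zero_mul]
    · simp
  rw [← h3, ← h2]
  rfl

variable (C)

/-- An element of `U` centralised by a regular element is trivial. -/
theorem eq_one_of_regular {t : GL D.Idx K} {χ : ℕ → K} (hch : IsChar D χ)
    (hχ : (t : Matrix D.Idx D.Idx K) = dMat D χ) (hreg : ∀ s < D.nroots, χ s ≠ 1)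
    {w : GL D.Idx K} (hw : w ∈ D.posUnipotent K) (hc : t * w * t⁻¹ = w) : w = 1 := by
  rw [← Cert.span_pos] at hw
  obtain ⟨f, -, rfl⟩ := C.exists_prodU C.closedSet_pos hw
  rw [diag_conj_prodU C hch hχ] at hc
  have key : ∀ s, D.IsPosRoot s → f s = 0 := by
    intro s hs
    by_contra h0
    exact hreg s hs.1 ((mul_eq_right₀ h0).mp (C.prodU_inj hc s hs))
  rw [← C.prodU_zero, Cert.prodU, Cert.prodU]
  congr 1
  exact List.map_congr_left fun s hs => by rw [key s (Cert.mem_posRoots.mp hs)]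

variable {C}

/-- The centraliser of a regular element of prime order is the torus. -/
theorem mem_diagonal_of_commute (P : LogCoord (K := K) C) {M : CoxeterMatrix (Fin D.rank)} (hM : CoxOK D M)
    {r N : ℕ} [Fact r.Prime] (hrN : ¬ r ∣ N)
    (hN : ∀ n ∈ D.monomialSubgroup K, n ^ N ∈ D.diagonalSubgroup K)
    (j : ZMod r →+ ZMod (Fintype.card K - 1)) (hj : Function.Injective j)
    {y : ↥(D.diagonalSubgroup K)} {v : Fin D.rank → ZMod r} (hv : (P.lg y).toAdd = fun i => j (v i))
    (hreg : ∀ s < D.nroots, ∑ i, (coefVec C s i : ZMod r) * v i ≠ 0)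
    {z : GL D.Idx K} (hz : z ∈ D.group K) (hc : (y : GL D.Idx K) * z = z * y) : z ∈ D.diagonalSubgroup K := by
  obtain ⟨χ, hch, -, e⟩ := C.diagonal_char y.2
  have hjlin : ∀ (c : Fin D.rank → ℤ), ∑ i, (c i : ZMod (Fintype.card K - 1)) * j (v i) =
      j (∑ i, (c i : ZMod r) * v i) := fun c => by
    rw [map_sum]
    exact Finset.sum_congr rfl fun i _ => by rw [← zsmul_eq_mul, ← zsmul_eq_mul, map_zsmul]
  have hregχ : ∀ s < D.nroots, χ s ≠ 1 := fun s hs => P.char_ne_one e hs (by
    rw [hv]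
    simp only []
    rw [hjlin]
    exact fun h => hreg s hs ((map_eq_zero_iff j hj).mp h))
  obtain ⟨L, a, ha, h, hh, u, hu, eg⟩ := exists_canon C hM hz
  set n := C.nWordElt K (L.map Fin.val) with hn
  have hnN : n ∈ D.monomialSubgroup K := C.nWordElt_mem (C.fin_word_lt L)
  have hy := y.2
  have huU : u ∈ D.posUnipotent K := C.span_mono (fun x hx => hx.1) hu
  have h1 : (y : GL D.Idx K) * a * (y : GL D.Idx K)⁻¹ ∈ D.posUnipotent K :=
    (Subgroup.mem_normalizer_iff.mp (C.posUnipotent_normalised hy) a).mp ha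
  have h2 : (y : GL D.Idx K) * u * (y : GL D.Idx K)⁻¹ ∈ spanGroup D K (Inverts D K n) :=
    (Subgroup.mem_normalizer_iff.mp (C.diag_normalises (Inverts D K n) (fun x hx => hx.1.1) hy) u).mp hu
  have hnc : n * (y : GL D.Idx K)⁻¹ * n⁻¹ ∈ D.diagonalSubgroup K := C.monomial_conj_diagonal hnN (inv_mem hy)
  have e1 : (y : GL D.Idx K) * a * (y : GL D.Idx K)⁻¹ * (y * h * (n * (y : GL D.Idx K)⁻¹ * n⁻¹)) * n *
      (y * u * (y : GL D.Idx K)⁻¹) = a * h * n * u := by
    calc _ = (y : GL D.Idx K) * (a * h * n * u) * (y : GL D.Idx K)⁻¹ := by group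
      _ = (y : GL D.Idx K) * z * (y : GL D.Idx K)⁻¹ := by rw [← eg]
      _ = z := by rw [hc, mul_inv_cancel_right]
      _ = _ := eg
  obtain ⟨r1, r2, r3⟩ := canon_unique C h1 ha (mul_mem (mul_mem hy hh) hnc) hh h2 hu e1
  have ha1 := eq_one_of_regular C hch e hregχ ha r1
  have hu1 := eq_one_of_regular C hch e hregχ huU r3
  have hny : n * (y : GL D.Idx K) * n⁻¹ = y := by
    rw [C.diagonal_comm hy hh, mul_assoc, ← mul_assoc (y : GL D.Idx K)] at r2
    have h3 : (y : GL D.Idx K) * (n * (y : GL D.Idx K)⁻¹ * n⁻¹) = 1 := mul_eq_left.mp (by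
      rw [← mul_assoc, ← mul_assoc, ← mul_assoc] at r2 ⊢
      exact r2)
    have h4 := eq_inv_of_mul_eq_one_right h3
    have := congrArg Inv.inv h4
    rw [inv_inv, ← conj_inv, inv_inv] at this
    exact this
  have hrev : ∀ a ∈ (L.map Fin.val).reverse, a < D.rank :=
    fun a ha => C.fin_word_lt L a (List.mem_reverse.mp ha)
  have hfix : (actMat C ((L.reverse).map Fin.val)).map (Int.castRingHom (ZMod r)) *ᵥ v = v := by
    have hm : n * 1 * (y : GL D.Idx K) * (n * 1)⁻¹ ∈ D.diagonalSubgroup K := by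
      rw [mul_one, hny]; exact hy
    have h5 := P.lg_conj (C.fin_word_lt L) (one_mem (D.diagonalSubgroup K)) y hm
    have h6 : (⟨_, hm⟩ : ↥(D.diagonalSubgroup K)) = y :=
      Subtype.ext (show n * 1 * (y : GL D.Idx K) * (n * 1)⁻¹ = y by rw [mul_one]; exact hny)
    rw [h6, hv] at h5
    funext i
    refine hj ?_
    rw [List.map_reverse]
    have := congrFun h5 i
    rw [this]
    simp only [Matrix.mulVec, dotProduct, Matrix.map_apply, eq_intCast]
    rw [hjlin]
  have hA1 : actMat C ((L.reverse).map Fin.val) ^ N = 1 :=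
    actMat_pow_eq_one C (F := K) (C.fin_word_lt L.reverse) (hN _ (C.nWordElt_mem (C.fin_word_lt L.reverse)))
  have hid := act_eq_self C hM L.reverse hA1 hrN hreg hfix
  have hid' : ∀ s < D.nroots, act D (L.map Fin.val) s = s := fun s hs => by
    have h7 := act_reverse_right C (C.fin_word_lt L) hs
    rw [← List.map_reverse, hid s hs] at h7
    exact h7
  rw [eg, ha1, hu1, one_mul, mul_one]
  exact mul_mem hh (C.nWordElt_mem_diagonal hM hid')

end Cfsg.Agent.Chars2.SingerTorus
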