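import Cfsg.Agent.Chars2.SingerTorus.Weyl

/-!
Weyl words modulo the Cartan matrix, and conjugation of a Weyl word into the parabolic subgroup on whose root
space it has no fixed vector.
-/

set_option autoImplicit false
set_option linter.unusedSectionVars false
set_option maxHeartbeats 400000

universe u

namespace Cfsg.Agent.Chars2.SingerTorus

open Cfsg.Lie Cfsg.Agent.Chev Matrix

variable {D : ChevalleyDatum} (C : Cert.{u} D)

/-- The transposed Cartan matrix on the fundamental roots. -/
def cartT (D : ChevalleyDatum) : Matrix (Fin D.rank) (Fin D.rank) ℤ := fun j k => D.cartan k (D.simple j)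

include C

theorem valMap_lt (L : List (Fin D.rank)) : ∀ a ∈ L.map Fin.val, a < D.rank := C.fin_word_lt L

theorem actMat_mul_reverse {L : List ℕ} (hL : ∀ i ∈ L, i < D.rank) :
    actMat C L * actMat C L.reverse = 1 ∧ actMat C L.reverse * actMat C L = 1 := by
  have hLr : ∀ i ∈ L.reverse, i < D.rank := fun i hi => hL i (List.mem_reverse.mp hi)
  constructor
  · rw [← actMat_append C hLr hL, ← actMat_nil C]
    ext j k
    show C.coef (act D (L.reverse ++ L) (D.simple j)) k = C.coef (act D [] (D.simple j)) k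
    rw [act_append, act_reverse_left C hL (C.simple_lt j j.isLt)]
    rfl
  · rw [← actMat_append C hL hLr, ← actMat_nil C]
    ext j k
    show C.coef (act D (L ++ L.reverse) (D.simple j)) k = C.coef (act D [] (D.simple j)) k
    rw [act_append, act_reverse_right C hL (C.simple_lt j j.isLt)]
    rfl

/-- A word with letters in `J` is the identity modulo the columns `J` of the Cartan matrix. -/
theorem exists_actMat_sub_one (J : Finset (Fin D.rank)) {L : List (Fin D.rank)} (hL : ∀ a ∈ L, a ∈ J) :
    ∃ Z : Matrix (Fin D.rank) (Fin D.rank) ℤ, (∀ i ∉ J, ∀ k, Z i k = 0) ∧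
      actMat C (L.map Fin.val) - 1 = cartT D * Z := by
  induction L with
  | nil => exact ⟨0, fun _ _ _ => rfl, by rw [List.map_nil, actMat_nil, sub_self, Matrix.mul_zero]⟩
  | cons a L ih =>
    obtain ⟨Z, hZ, e⟩ := ih fun x hx => hL x (List.mem_cons_of_mem _ hx)
    let E : Matrix (Fin D.rank) (Fin D.rank) ℤ := fun i k => if i = a ∧ k = a then -1 else 0
    have hE : ∀ i ∉ J, ∀ k, E i k = 0 := fun i hi k =>
      if_neg fun (h : i = a ∧ k = a) => hi (h.1 ▸ hL a List.mem_cons_self)
    have ea : actMat C [(a : ℕ)] - 1 = cartT D * E := by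
      ext j k
      rw [Matrix.sub_apply, Matrix.mul_apply, Finset.sum_eq_single a (fun b _ hb => by simp [E, hb]) (by simp)]
      show C.coef (act D [(a : ℕ)] (D.simple j)) k - _ = D.cartan a (D.simple j) * E a k
      rw [act_cons, act_nil, C.coef_refl a a.isLt _ (C.simple_lt j j.isLt) k k.isLt,
        C.coef_simple j j.isLt k k.isLt, Matrix.one_apply]
      simp only [E, true_and, Fin.ext_iff, eq_comm (a := (j : ℕ))]
      by_cases h : (k : ℕ) = a <;> simp [h]
    have eL : actMat C ((a :: L).map Fin.val) = actMat C (L.map Fin.val) * actMat C [(a : ℕ)] := by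
      rw [List.map_cons, ← List.singleton_append, actMat_append C (by simp) (valMap_lt C L)]
    refine ⟨Z * actMat C [(a : ℕ)] + E, fun i hi k => ?_, ?_⟩
    · rw [Matrix.add_apply, hE i hi k, add_zero, Matrix.mul_apply]
      exact Finset.sum_eq_zero fun x _ => by rw [hZ i hi x, zero_mul]
    · rw [eL, Matrix.mul_add, ← Matrix.mul_assoc, ← e, ← ea, Matrix.sub_mul, Matrix.one_mul]
      abel

omit C in
/-- A vector killed by the Cartan matrix on `J` modulo `n`. -/
theorem dvd_sum_mul (J : Finset (Fin D.rank)) {A Z : Matrix (Fin D.rank) (Fin D.rank) ℤ}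
    (hZ : ∀ i ∉ J, ∀ k, Z i k = 0) (e : A - 1 = cartT D * Z) {n : ℤ} {w : Fin D.rank → ℤ}
    (hw : ∀ a ∈ J, n ∣ ∑ k, w k * cartT D k a) (i : Fin D.rank) :
    n ∣ ∑ k, w k * (A - 1) k i := by
  rw [e]
  simp only [Matrix.mul_apply, Finset.mul_sum]
  rw [Finset.sum_comm]
  refine Finset.dvd_sum fun a _ => ?_
  rw [Finset.sum_congr rfl fun k _ => (mul_assoc (w k) (cartT D k a) (Z a i)).symm, ← Finset.sum_mul]
  by_cases ha : a ∈ J
  · exact dvd_mul_of_dvd_left (hw a ha) _
  · rw [hZ a ha i, mul_zero]; exact dvd_zero n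

variable {M : CoxeterMatrix (Fin D.rank)} (hM : CoxOK D M)
include hM

/-- A word moves the functional into the closed fundamental chamber. -/
theorem exists_nonneg (f : Fin D.rank → ℤ) :
    ∃ Lw : List (Fin D.rank), ∀ i, 0 ≤ (actMat C (Lw.map Fin.val) *ᵥ f) i := by
  classical
  let ψ : List (Fin D.rank) → ℕ → ℤ := fun Lw s => coefVec C (act D (Lw.map Fin.val) s) ⬝ᵥ f
  have hψ : ∀ Lw (j : Fin D.rank), ψ Lw (D.simple j) = (actMat C (Lw.map Fin.val) *ᵥ f) j := fun _ _ => rfl
  have hlin : ∀ Lw, ∀ s < D.nroots,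
      ψ Lw s = coefVec C s ⬝ᵥ (actMat C (Lw.map Fin.val) *ᵥ f) := fun Lw s hs => by
    show coefVec C _ ⬝ᵥ f = _
    rw [coefVec_act C (valMap_lt C Lw) hs, Matrix.dotProduct_mulVec]
  let bad : List (Fin D.rank) → Finset ℕ := fun Lw =>
    (Finset.range D.nroots).filter fun s => D.IsPosRoot s ∧ ψ Lw s < 0
  suffices h : ∀ n Lw, (bad Lw).card ≤ n → ∃ Lw' : List (Fin D.rank), ∀ i, 0 ≤ (actMat C (Lw'.map Fin.val) *ᵥ f) i
    from h _ [] le_rfl
  intro n
  induction n with
  | zero =>
    intro Lw hn
    refine ⟨Lw, fun i => not_lt.mp fun h => ?_⟩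
    have hm : D.simple i ∈ bad Lw := Finset.mem_filter.mpr
      ⟨Finset.mem_range.mpr (C.simple_lt i i.isLt), C.pos_simple i.isLt, by rw [hψ]; exact h⟩
    rw [Finset.card_eq_zero.mp (Nat.le_zero.mp hn)] at hm
    simp at hm
  | succ n ih =>
    intro Lw hn
    by_cases hall : ∀ i, 0 ≤ (actMat C (Lw.map Fin.val) *ᵥ f) i
    · exact ⟨Lw, hall⟩
    push Not at hall
    obtain ⟨i, hi⟩ := hall
    rw [← hψ] at hi
    have hp := C.simple_lt i i.isLt
    refine ih (Lw ++ [i]) ?_
    have hstep : ∀ t, ψ (Lw ++ [i]) t = ψ Lw (D.reflectRoot i t) := fun t => by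
      simp only [ψ, List.map_append, act_append]
      rfl
    have hmap : ∀ t ∈ bad (Lw ++ [i]), D.reflectRoot i t ∈ (bad Lw).erase (D.simple i) := by
      intro t ht
      obtain ⟨-, htp, htn⟩ := Finset.mem_filter.mp ht
      rw [hstep] at htn
      have hne : t ≠ D.simple i := by
        rintro rfl
        rw [C.refl_simple i.isLt] at htn
        have : ψ Lw (D.neg (D.simple i)) = - ψ Lw (D.simple i) := by
          rw [hlin Lw _ (C.neg_lt _ hp), hlin Lw _ hp, ← neg_dotProduct]
          congr 1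
          funext k
          exact C.coef_neg _ hp k k.isLt
        omega
      have hpos := C.pos_refl i.isLt htp hne
      refine Finset.mem_erase.mpr ⟨fun e => ?_, Finset.mem_filter.mpr ⟨Finset.mem_range.mpr hpos.1, hpos, htn⟩⟩
      have e2 := congrArg (D.reflectRoot i) e
      rw [C.refl_refl i.isLt htp.1, C.refl_simple i.isLt] at e2
      exact C.not_pos_and_neg htp (e2 ▸ C.negRoot_neg (C.pos_simple i.isLt))
    have h1 := Finset.card_le_card_of_injOn (fun t => D.reflectRoot i t) hmap fun t ht t' ht' e =>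
      C.refl_inj i.isLt (Finset.mem_filter.mp ht).2.1.1 (Finset.mem_filter.mp ht').2.1.1 e
    have hbi : D.simple i ∈ bad Lw := Finset.mem_filter.mpr ⟨Finset.mem_range.mpr hp, C.pos_simple i.isLt, hi⟩
    rw [Finset.card_erase_of_mem hbi] at h1
    have := Finset.card_pos.mpr ⟨_, hbi⟩
    omega

/-- The stabiliser of a vector of the closed chamber is generated by the reflections fixing it. -/
theorem exists_word_fixing (f : Fin D.rank → ℤ) (hf : ∀ i, 0 ≤ f i) (L : List (Fin D.rank))
    (hfix : actMat C (L.map Fin.val) *ᵥ f = f) :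
    ∃ L' : List (Fin D.rank), (∀ i ∈ L', f i = 0) ∧ actMat C (L'.map Fin.val) = actMat C (L.map Fin.val) := by
  set cs := M.toCoxeterSystem with hcs
  have hact : ∀ L₁ L₂ : List (Fin D.rank), cs.wordProd L₁ = cs.wordProd L₂ →
      actMat C (L₁.map Fin.val) = actMat C (L₂.map Fin.val) := by
    intro L₁ L₂ h
    ext j k
    show C.coef (act D _ (D.simple j)) k = C.coef (act D _ (D.simple j)) k
    rw [← C.rootImage_wordProd hM L₁ (C.simple_lt j j.isLt), ← C.rootImage_wordProd hM L₂ (C.simple_lt j j.isLt),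
      ← hcs, h]
  suffices h : ∀ n, ∀ L : List (Fin D.rank), cs.length (cs.wordProd L) ≤ n →
      actMat C (L.map Fin.val) *ᵥ f = f → ∃ L' : List (Fin D.rank), (∀ i ∈ L', f i = 0) ∧
        cs.wordProd L' = cs.wordProd L by
    obtain ⟨L', h1, h2⟩ := h _ L le_rfl hfix
    exact ⟨L', h1, hact _ _ h2⟩
  intro n
  induction n with
  | zero =>
    intro L hn _
    exact ⟨[], by simp, by rw [cs.length_eq_zero_iff.mp (Nat.le_zero.mp hn), CoxeterSystem.wordProd_nil]⟩
  | succ n ih =>
    intro L hn hfix
    by_cases h1 : cs.wordProd L = 1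
    · exact ⟨[], by simp, by rw [h1, CoxeterSystem.wordProd_nil]⟩
    obtain ⟨i, hi⟩ := cs.exists_rightDescent_of_ne_one h1
    have hp := C.simple_lt i i.isLt
    have hneg := C.neg_of_descent hM _ i hi
    rw [C.rootImage_wordProd hM L hp] at hneg
    have hfi : f i = 0 := by
      refine le_antisymm ?_ (hf i)
      rw [← hfix]
      show ∑ k : Fin D.rank, C.coef (act D (L.map Fin.val) (D.simple i)) k * f k ≤ 0
      refine Finset.sum_nonpos fun k _ => mul_nonpos_of_nonpos_of_nonneg ?_ (hf k)
      exact (C.negRoot_iff _ hneg.1).mp hneg k k.isLt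
    have hwp : cs.wordProd (L ++ [i]) = cs.wordProd L * cs.simple i := by
      rw [CoxeterSystem.wordProd_append, CoxeterSystem.wordProd_singleton]
    have hlen : cs.length (cs.wordProd (L ++ [i])) ≤ n := by
      have := (cs.isRightDescent_iff).mp hi
      rw [hwp]; omega
    have hfix' : actMat C ((L ++ [i]).map Fin.val) *ᵥ f = f := by
      rw [List.map_append, actMat_append C (valMap_lt C L) (valMap_lt C [i]), ← Matrix.mulVec_mulVec, hfix]
      funext j
      show ∑ k : Fin D.rank, C.coef (D.reflectRoot i (D.simple j)) k * f k = f j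
      rw [Finset.sum_eq_single j]
      · rw [C.coef_refl i i.isLt _ (C.simple_lt j j.isLt) j j.isLt, C.coef_simple j j.isLt j j.isLt, if_pos rfl]
        by_cases hji : (j : ℕ) = i
        · have : f j = 0 := by rw [Fin.ext hji]; exact hfi
          rw [this, mul_zero]
        · rw [if_neg hji, sub_zero, one_mul]
      · intro k _ hk
        rw [C.coef_refl i i.isLt _ (C.simple_lt j j.isLt) k k.isLt, C.coef_simple j j.isLt k k.isLt,
          if_neg fun e => hk (Fin.ext e)]
        by_cases hki : (k : ℕ) = i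
        · have : f k = 0 := by rw [Fin.ext hki]; exact hfi
          rw [this, mul_zero]
        · rw [if_neg hki, sub_zero, zero_mul]
      · simp
    obtain ⟨L', h2, h3⟩ := ih _ hlen hfix'
    refine ⟨L' ++ [i], fun x hx => ?_, ?_⟩
    · rcases List.mem_append.mp hx with h | h
      · exact h2 x h
      · rw [List.mem_singleton.mp h]; exact hfi
    · rw [CoxeterSystem.wordProd_append, CoxeterSystem.wordProd_singleton, h3, hwp,
        CoxeterSystem.simple_mul_simple_cancel_right]

/-- Conjugation into the parabolic subgroup on whose root space the word has no fixed vector. -/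
theorem exists_parabolic (L : List (Fin D.rank)) {N : ℕ} (hN0 : N ≠ 0)
    (hN : actMat C (L.map Fin.val) ^ N = 1) :
    ∃ (Lw L' : List (Fin D.rank)) (J : Finset (Fin D.rank)), (∀ i ∈ L', i ∈ J) ∧
      actMat C (L'.map Fin.val) =
        actMat C (Lw.map Fin.val) * actMat C (L.map Fin.val) * actMat C (Lw.map Fin.val).reverse ∧
      ∀ c : Fin D.rank → ℤ, (∀ i ∉ J, c i = 0) → c ᵥ* actMat C (L'.map Fin.val) = c → c = 0 := by
  classical
  set A := actMat C (L.map Fin.val) with hA
  set P := ∑ k ∈ Finset.range N, A ^ k with hP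
  have hAP : A * P = P := by
    have h1 := Finset.sum_range_succ (fun k => A ^ k) N
    have h2 := Finset.sum_range_succ' (fun k => A ^ k) N
    rw [h1, hN, pow_zero, add_left_inj] at h2
    rw [hP, Finset.mul_sum]
    conv_rhs => rw [h2]
    exact Finset.sum_congr rfl fun k _ => (pow_succ' A k).symm
  let pol : ℕ → Polynomial ℤ := fun s =>
    ∑ j : Fin D.rank, Polynomial.C ((coefVec C s ᵥ* P) j) * Polynomial.X ^ (j : ℕ)
  obtain ⟨K, hK⟩ :=
    Infinite.exists_notMem_finset ((Finset.range D.nroots).biUnion fun s => (pol s).roots.toFinset)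
  set f₀ : Fin D.rank → ℤ := P *ᵥ fun j => K ^ (j : ℕ) with hf₀
  have hfix₀ : A *ᵥ f₀ = f₀ := by rw [hf₀, Matrix.mulVec_mulVec, hAP]
  have hzero : ∀ s < D.nroots, coefVec C s ⬝ᵥ f₀ = 0 → coefVec C s ᵥ* P = 0 := by
    intro s hs h
    by_contra hne
    refine hK (Finset.mem_biUnion.mpr ⟨s, Finset.mem_range.mpr hs, ?_⟩)
    rw [Multiset.mem_toFinset, Polynomial.mem_roots (fun h0 => hne (funext fun j => ?_))]
    · rw [hf₀, Matrix.dotProduct_mulVec] at h
      show (pol s).eval K = 0
      simp only [pol, Polynomial.eval_finsetSum, Polynomial.eval_mul, Polynomial.eval_C, Polynomial.eval_pow,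
        Polynomial.eval_X]
      exact h
    · have := congrArg (fun p => p.coeff (j : ℕ)) h0
      simpa [pol, Polynomial.finsetSum_coeff, Polynomial.coeff_C_mul, Polynomial.coeff_X_pow, Fin.val_inj] using this
  obtain ⟨Lw, hLw⟩ := exists_nonneg C hM f₀
  obtain ⟨hU1, hU2⟩ := actMat_mul_reverse C (valMap_lt C Lw)
  set U := actMat C (Lw.map Fin.val) with hU
  set f := U *ᵥ f₀ with hf
  set L₁ := Lw.reverse ++ L ++ Lw with hL₁
  have hA₁ : actMat C (L₁.map Fin.val) = U * A * actMat C (Lw.map Fin.val).reverse := by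
    have hr : ∀ a ∈ (Lw.map Fin.val).reverse, a < D.rank := fun a ha => valMap_lt C Lw a (List.mem_reverse.mp ha)
    rw [hL₁, List.map_append, List.map_append, List.map_reverse, List.append_assoc,
      actMat_append C hr (fun a ha => (List.mem_append.mp ha).elim (valMap_lt C L a) (valMap_lt C Lw a)),
      actMat_append C (valMap_lt C L) (valMap_lt C Lw)]
  have hfix : actMat C (L₁.map Fin.val) *ᵥ f = f := by
    rw [hA₁, hf, Matrix.mulVec_mulVec, Matrix.mul_assoc, hU2, Matrix.mul_one, ← Matrix.mulVec_mulVec, hfix₀]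
  obtain ⟨L', hL', eL'⟩ := exists_word_fixing C hM f hLw L₁ hfix
  refine ⟨Lw, L', Finset.univ.filter fun i => f i = 0,
    fun i hi => Finset.mem_filter.mpr ⟨Finset.mem_univ i, hL' i hi⟩, eL'.trans hA₁, fun c hc hcA => ?_⟩
  rw [eL', hA₁] at hcA
  have h1 : c ᵥ* U ᵥ* A = c ᵥ* U := by
    have h2 := congrArg (fun v => v ᵥ* U) hcA
    simp only [Matrix.vecMul_vecMul, Matrix.mul_assoc, hU2, Matrix.mul_one] at h2
    rw [Matrix.vecMul_vecMul]
    exact h2
  have h3 : c ᵥ* U ᵥ* P = 0 := by
    rw [Matrix.vecMul_vecMul]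
    funext k
    show ∑ i, c i * (U * P) i k = 0
    refine Finset.sum_eq_zero fun i _ => ?_
    by_cases hi : f i = 0
    · have h4 := hzero _ (C.act_lt (valMap_lt C Lw) (C.simple_lt i i.isLt)) (by
        rw [hf] at hi; exact hi)
      have h5 : (U * P) i k = 0 := congrFun h4 k
      rw [h5, mul_zero]
    · rw [hc i (by simp [hi]), zero_mul]
  have h6 : c ᵥ* U ᵥ* P = (N : ℤ) • (c ᵥ* U) := by
    rw [hP, Matrix.vecMul_sum]
    have hk : ∀ k : ℕ, c ᵥ* U ᵥ* A ^ k = c ᵥ* U := by
      intro k
      induction k with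
      | zero => rw [pow_zero, Matrix.vecMul_one]
      | succ k ih => rw [pow_succ, ← Matrix.vecMul_vecMul (c ᵥ* U), ih, h1]
    rw [Finset.sum_congr rfl fun k _ => hk k, Finset.sum_const, Finset.card_range, ← natCast_zsmul]
  rw [h6] at h3
  have h7 : c ᵥ* U = 0 := (smul_eq_zero.mp h3).resolve_left (Int.natCast_ne_zero.mpr hN0)
  have h8 := congrArg (fun v => v ᵥ* actMat C (Lw.map Fin.val).reverse) h7
  simpa only [Matrix.vecMul_vecMul, hU1, Matrix.vecMul_one, Matrix.zero_vecMul] using h8

omit hM in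
/-- A word with letters in `J` changes only the coordinates in `J`. -/
theorem coef_act_of_notMem (J : Finset (Fin D.rank)) {L : List (Fin D.rank)} (hL : ∀ a ∈ L, a ∈ J)
    {s : ℕ} (hs : s < D.nroots) {k : Fin D.rank} (hk : k ∉ J) :
    C.coef (act D (L.map Fin.val) s) k = C.coef s k := by
  induction L with
  | nil => rfl
  | cons a L ih =>
    rw [List.map_cons, act_cons, C.coef_refl a a.isLt _ (C.act_lt (valMap_lt C L) hs) k k.isLt,
      if_neg fun e : (k : ℕ) = a => hk (by rw [show k = a from Fin.ext e]; exact hL a List.mem_cons_self), sub_zero,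
      ih fun x hx => hL x (List.mem_cons_of_mem _ hx)]

omit hM in
/-- The block of a word with letters in `J` carries the rest of the characteristic polynomial. -/
theorem charpoly_block (J : Finset (Fin D.rank)) {L : List (Fin D.rank)} (hL : ∀ a ∈ L, a ∈ J) :
    (actMat C (L.map Fin.val)).charpoly =
      ((actMat C (L.map Fin.val)).toSquareBlockProp (fun i => i ∈ J)).charpoly *
        (Polynomial.X - 1) ^ (D.rank - J.card) := by
  classical
  have hcol : ∀ i k : Fin D.rank, k ∉ J →
      actMat C (L.map Fin.val) i k = (1 : Matrix (Fin D.rank) (Fin D.rank) ℤ) i k := by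
    intro i k hk
    show C.coef (act D (L.map Fin.val) (D.simple i)) k = _
    rw [coef_act_of_notMem C J hL (C.simple_lt i i.isLt) hk, C.coef_simple i i.isLt k k.isLt, Matrix.one_apply]
    simp [Fin.ext_iff, eq_comm]
  set A := actMat C (L.map Fin.val)
  have hT : ∀ i, i ∈ J → ∀ j, j ∉ J → A.charmatrix i j = 0 := by
    intro i hi j hj
    have hij : i ≠ j := fun e => hj (e ▸ hi)
    rw [Matrix.charmatrix_apply_ne _ _ _ hij, hcol i j hj, Matrix.one_apply_ne hij, map_zero, neg_zero]
  rw [Matrix.charpoly, Matrix.twoBlockTriangular_det' _ (fun i => i ∈ J) hT]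
  have h1 : A.charmatrix.toSquareBlockProp (fun i => i ∈ J) =
      (A.toSquareBlockProp fun i => i ∈ J).charmatrix := by
    ext i j
    by_cases h : i = j
    · subst h
      simp only [Matrix.toSquareBlockProp_def, Matrix.of_apply, Matrix.charmatrix_apply_eq]
    · rw [Matrix.charmatrix_apply_ne _ _ _ h]
      simp only [Matrix.toSquareBlockProp_def, Matrix.of_apply]
      rw [Matrix.charmatrix_apply_ne _ _ _ (fun e => h (Subtype.ext e))]
  have h2 : A.charmatrix.toSquareBlockProp (fun i => ¬ i ∈ J) = Matrix.diagonal fun _ => Polynomial.X - 1 := by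
    ext i j
    by_cases h : i = j
    · subst h
      simp only [Matrix.toSquareBlockProp_def, Matrix.of_apply, Matrix.charmatrix_apply_eq,
        Matrix.diagonal_apply_eq, hcol _ _ i.2, Matrix.one_apply_eq, map_one]
    · have h' : (i : Fin D.rank) ≠ j := fun e => h (Subtype.ext e)
      simp only [Matrix.toSquareBlockProp_def, Matrix.of_apply, Matrix.diagonal_apply_ne _ h]
      rw [Matrix.charmatrix_apply_ne _ _ _ h', hcol _ _ j.2, Matrix.one_apply_ne h', map_zero, neg_zero]
  have h3 : (A.charmatrix.toSquareBlockProp fun i => ¬ i ∈ J).det =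
      (Polynomial.X - 1 : Polynomial ℤ) ^ (D.rank - J.card) := by
    rw [h2, Matrix.det_diagonal, Finset.prod_const]
    refine congrArg (fun n : ℕ => (Polynomial.X - 1 : Polynomial ℤ) ^ n) ?_
    rw [Finset.card_univ, Fintype.card_subtype, Finset.filter_not, Finset.card_sdiff_of_subset (Finset.filter_subset _ _),
      Finset.card_univ, Fintype.card_fin]
    congr 2
    ext x
    simp
  simp only [h1, h3, Matrix.charpoly]
  congr 1
  convert rfl


end Cfsg.Agent.Chars2.SingerTorus
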