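import Cfsg.Agent.KnownA.Cover.TorusSt
import Cfsg.Agent.Chars2.SingerTorus.Torus
import Cfsg.Agent.Chars2.SingerTorus.Congruence

/-!
Steinberg's group as a functor of the field, descent of its fixed points under Frobenius, and the action of Weyl
words on its torus.
-/

set_option autoImplicit false
set_option linter.unusedSectionVars false

universe u v

namespace Cfsg.Agent.Chars2.SingerTorus

open Cfsg.Lie Cfsg.Agent.Chev Cfsg.Agent.Chars2.Homocyclic Cfsg.Agent.KnownA.Cover Matrix
open scoped MatrixGroups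

variable {D : ChevalleyDatum} {E : Type u} [Field E] {K : Type v} [Field K]

theorem freeMap_stX (f : E →+* K) (r : ℕ) (t : E) :
    FreeGroup.map (Prod.map id f) (D.stX r t) = D.stX r (f t) := by
  by_cases h : r < D.nroots
  · simp [ChevalleyDatum.stX, h]
  · simp [ChevalleyDatum.stX, h]

theorem freeMap_stWord (f : E →+* K) (L : List (ℕ × E)) :
    FreeGroup.map (Prod.map id f) (D.stWord L) = D.stWord (L.map fun p => (p.1, f p.2)) := by
  simp only [ChevalleyDatum.stWord, map_list_prod, List.map_map]
  exact congrArg List.prod (List.map_congr_left fun p _ => freeMap_stX f p.1 p.2)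

theorem freeMap_stH (f : E →+* K) (r : ℕ) (t : E) :
    FreeGroup.map (Prod.map id f) (D.stH r t) = D.stH r (f t) := by
  rw [ChevalleyDatum.stH, freeMap_stWord]
  simp [ChevalleyDatum.stH, ChevalleyDatum.hWord, ChevalleyDatum.nWord]

theorem freeMap_rels (f : E →+* K) {g : FreeGroup (Fin D.nroots × E)} (hg : g ∈ D.steinbergRels E) :
    FreeGroup.map (Prod.map id f) g ∈ D.steinbergRels K := by
  rcases hg with (⟨r, t, v, hr, rfl⟩ | ⟨r, s, t, v, hr, hs, h1, h2, rfl⟩) | ⟨r, t, v, hr, ht, hv, rfl⟩
  · refine Or.inl (Or.inl ⟨r, f t, f v, hr, ?_⟩)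
    simp only [map_mul, map_inv, freeMap_stX, map_add]
  · refine Or.inl (Or.inr ⟨r, s, f t, f v, hr, hs, h1, h2, ?_⟩)
    simp only [map_mul, map_inv, freeMap_stX, freeMap_stWord]
    congr 3
    simp only [ChevalleyDatum.commWord, List.map_map]
    exact List.map_congr_left fun c _ => by simp
  · refine Or.inr ⟨r, f t, f v, hr, (map_ne_zero f).mpr ht, (map_ne_zero f).mpr hv, ?_⟩
    simp only [map_mul, map_inv, freeMap_stH]

/-- Steinberg's group as a functor. -/
noncomputable def stMap (D : ChevalleyDatum) {E : Type u} [Field E] {K : Type v} [Field K] (f : E →+* K) :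
    D.SteinbergGroup E →* D.SteinbergGroup K :=
  PresentedGroup.toGroup (f := fun p => (PresentedGroup.of (p.1, f p.2) : D.SteinbergGroup K)) fun g hg => by
    have e : (FreeGroup.lift fun p : Fin D.nroots × E => (PresentedGroup.of (p.1, f p.2) : D.SteinbergGroup K)) =
        (PresentedGroup.mk (D.steinbergRels K)).comp (FreeGroup.map (Prod.map id f)) :=
      FreeGroup.ext_hom _ _ fun p => by simp [PresentedGroup.of]; rfl
    rw [e]
    exact PresentedGroup.one_of_mem (freeMap_rels f hg)

theorem stMap_mk (f : E →+* K) (g : FreeGroup (Fin D.nroots × E)) :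
    stMap D f (PresentedGroup.mk (D.steinbergRels E) g) =
      PresentedGroup.mk (D.steinbergRels K) (FreeGroup.map (Prod.map id f) g) := by
  have e : (stMap D f).comp (PresentedGroup.mk (D.steinbergRels E)) =
      (PresentedGroup.mk (D.steinbergRels K)).comp (FreeGroup.map (Prod.map id f)) :=
    FreeGroup.ext_hom _ _ fun p => by
      show stMap D f (PresentedGroup.of p) = _
      rw [stMap, PresentedGroup.toGroup.of]
      simp [PresentedGroup.of]; rfl
  exact DFunLike.congr_fun e g

theorem stMap_hSt (f : E →+* K) (i : ℕ) (t : E) : stMap D f (hSt D i t) = hSt D i (f t) := by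
  rw [hSt, hSt, stMap_mk, freeMap_stH]

theorem stMap_stMap {L : Type*} [Field L] (f : E →+* K) (g : K →+* L) (x : D.SteinbergGroup E) :
    stMap D g (stMap D f x) = stMap D (g.comp f) x := by
  induction x using PresentedGroup.induction_on with
  | H z =>
    rw [stMap_mk, stMap_mk, stMap_mk, FreeGroup.map.comp]
    rfl

theorem theta_stMap (CE : Cert.{u} D) (C : Cert.{v} D) (f : E →+* K) (x : D.SteinbergGroup E) :
    (thetaSt C (stMap D f x) : GL D.Idx K) = gmap D f (thetaSt CE x : GL D.Idx E) := by
  have e : ((D.group K).subtype.comp ((thetaSt C).comp (stMap D f))) =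
      (gmap D f).comp ((D.group E).subtype.comp (thetaSt CE)) :=
    PresentedGroup.ext fun p => by
      simp only [MonoidHom.comp_apply, Subgroup.coe_subtype]
      rw [stMap, PresentedGroup.toGroup.of, thetaSt, PresentedGroup.toGroup.of, thetaSt, PresentedGroup.toGroup.of,
        gmap_xu CE C]
  exact DFunLike.congr_fun e x

theorem stMap_torusHom (CE : Cert.{u} D) (C : Cert.{v} D) (hc : cornerCheck D = true) (f : E →+* K)
    (c : Fin D.rank → Eˣ) :
    stMap D f (torusHom CE hc c) = torusHom C hc fun i => Units.map (f : E →* K) (c i) := by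
  classical
  have e : (stMap D f).comp (torusHom CE hc) =
      (torusHom C hc).comp (MonoidHom.compLeft (Units.map (f : E →* K)) (Fin D.rank)) := by
    refine MonoidHom.pi_ext fun i t => ?_
    simp only [MonoidHom.comp_apply]
    rw [show torusHom CE hc (Pi.mulSingle i t) = hStHom CE i t from MonoidHom.noncommPiCoprod_mulSingle _ _ _]
    have e2 : MonoidHom.compLeft (Units.map (f : E →* K)) (Fin D.rank) (Pi.mulSingle i t) =
        Pi.mulSingle i (Units.map (f : E →* K) t) := by
      funext k
      by_cases h : k = i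
      · subst h; simp
      · simp [h]
    rw [e2, show torusHom C hc (Pi.mulSingle i (Units.map (f : E →* K) t)) = hStHom C i _ from
      MonoidHom.noncommPiCoprod_mulSingle _ _ _]
    exact stMap_hSt f i t
  exact DFunLike.congr_fun e c

variable (C : Cert.{v} D) (hc : cornerCheck D = true)
include C hc

theorem theta_torus_mem (c : Fin D.rank → Kˣ) :
    (thetaSt C (torusHom C hc c) : GL D.Idx K) ∈ D.diagonalSubgroup K := by
  have h : torusHom C hc c ∈ torSt D K := (range_torusHom (K := K) C hc).le ⟨c, rfl⟩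
  generalize torusHom C hc c = x at h ⊢
  induction h using Subgroup.closure_induction with
  | mem x hx =>
    obtain ⟨i, t, hi, ht, rfl⟩ := hx
    rw [← toSt_hEl, ← MonoidHom.comp_apply, thetaSt_comp, theta_hEl]
    exact C.hu_simple_mem_diagonal (C.simple_lt i hi) ht
  | one => rw [map_one]; exact one_mem _
  | mul x y _ _ hx hy => rw [map_mul]; exact mul_mem hx hy
  | inv x _ hx => rw [map_inv]; exact inv_mem hx

/-- The preimage of the diagonal subgroup is the torus of Steinberg's group. -/
theorem exists_torus_of_diag {M : CoxeterMatrix (Fin D.rank)} (hM : CoxOK D M) {z : D.SteinbergGroup K}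
    (hz : (thetaSt C z : GL D.Idx K) ∈ D.diagonalSubgroup K) : ∃ c, torusHom C hc c = z := by
  obtain ⟨d, hd, e⟩ := C.mem_diagonal_iff.mp hz
  have key : ∀ ks : List ℕ, (∀ k ∈ ks, k < D.rank) →
      ∃ x ∈ torSt D K, (thetaSt C x : GL D.Idx K) = C.wu (ks.flatMap fun k => D.hWord (D.simple k) (d k)) := by
    intro ks
    induction ks with
    | nil => exact fun _ => ⟨1, one_mem _, by simp [Cert.wu]⟩
    | cons k ks ih =>
      intro hks
      obtain ⟨x, hx, ex⟩ := ih fun a ha => hks a (List.mem_cons_of_mem _ ha)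
      have hk := hks k List.mem_cons_self
      refine ⟨_ * x, mul_mem (Subgroup.subset_closure ⟨k, d k, hk, hd k hk, rfl⟩) hx, ?_⟩
      rw [map_mul, Subgroup.coe_mul, ex, ← toSt_hEl, ← MonoidHom.comp_apply, thetaSt_comp, theta_hEl]
      simp [Cert.wu, Cert.hu]
  obtain ⟨x, hx, ex⟩ := key (List.range D.rank) fun k hk => List.mem_range.mp hk
  have h1 : x⁻¹ * z ∈ (thetaSt C (K := K)).ker := by
    rw [MonoidHom.mem_ker, map_mul, map_inv, inv_mul_eq_one]
    exact Subtype.ext (ex.trans e.symm)
  have h2 := mul_mem hx ((ker_thetaSt (K := K) C hc hM).2 h1)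
  rw [mul_inv_cancel_left, ← range_torusHom C hc] at h2
  exact h2

/-- The element `w_{p_i}(1)` conjugates the torus by the reflection. -/
theorem conj_simple (i : Fin D.rank) (c : Fin D.rank → Kˣ) :
    toSt D K (wEl D i 1) * torusHom C hc c * (toSt D K (wEl D i 1))⁻¹ =
      torusHom C hc (torusMap Kˣ (1 - cartMat D * Matrix.single i i 1) c) := by
  classical
  set w := toSt D K (wEl D i (1 : K)) with hw
  have e : (MulAut.conj w).toMonoidHom.comp (torusHom C hc) =
      (torusHom C hc).comp (torusMap Kˣ (1 - cartMat D * Matrix.single i i 1)) := by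
    refine MonoidHom.pi_ext fun j t => ?_
    simp only [MonoidHom.comp_apply, MulEquiv.toMonoidHom_eq_coe, MonoidHom.coe_coe, MulAut.conj_apply]
    have hv : torusMap Kˣ (1 - cartMat D * Matrix.single i i 1) (Pi.mulSingle j t) =
        (Pi.mulSingle i (t ^ D.cartan j (D.simple i)))⁻¹ * Pi.mulSingle j t := by
      funext m
      rw [torusMap_apply, Finset.prod_eq_single j (fun k _ hk => by rw [Pi.mulSingle_eq_of_ne hk, _root_.one_zpow])
        (fun h => absurd (Finset.mem_univ _) h), Pi.mulSingle_eq_same, Pi.mul_apply, Pi.inv_apply, Matrix.sub_apply,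
        _root_.zpow_sub]
      have h1 : t ^ (1 : Matrix (Fin D.rank) (Fin D.rank) ℤ) j m = (Pi.mulSingle j t : Fin D.rank → Kˣ) m := by
        by_cases h : m = j
        · subst h; simp
        · simp [h, Matrix.one_apply_ne (Ne.symm h)]
      have h2 : t ^ (cartMat D * Matrix.single i i (1 : ℤ)) j m =
          (Pi.mulSingle i (t ^ D.cartan j (D.simple i)) : Fin D.rank → Kˣ) m := by
        by_cases h : m = i
        · subst h; simp [cartMat]
        · simp [h]
      rw [h1, h2, mul_comm]
    rw [hv, map_mul, map_inv,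
      show ∀ a s, torusHom C hc (Pi.mulSingle a s) = hStHom C a s from
        fun a s => MonoidHom.noncommPiCoprod_mulSingle _ _ _,
      show ∀ a s, torusHom C hc (Pi.mulSingle a s) = hStHom C a s from
        fun a s => MonoidHom.noncommPiCoprod_mulSingle _ _ _]
    have h := congrArg (toSt D K) (wEl_conj_hEl C hc i.isLt j.isLt t.ne_zero)
    simp only [map_mul, map_inv, toSt_hEl] at h
    refine h.trans ?_
    show (hSt D i ((t : K) ^ D.cartan j (D.simple i)))⁻¹ * hSt D j (t : K) = _
    simp [hStHom]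
  exact DFunLike.congr_fun e c

omit hc in
theorem cartMat_transpose_one_sub (i : Fin D.rank) :
    (1 - cartMat D * Matrix.single i i 1) * cartMat D = cartMat D * (actMat C [(i : ℕ)])ᵀ := by
  have h : actMat C [(i : ℕ)] = 1 - cartT D * Matrix.single i i 1 := by
    ext j k
    show C.coef (D.reflectRoot i (D.simple j)) k = _
    rw [C.coef_refl i i.isLt _ (C.simple_lt j j.isLt) k k.isLt, C.coef_simple j j.isLt k k.isLt, Matrix.sub_apply,
      Matrix.one_apply]
    by_cases hk : k = i
    · subst hk; simp [cartT, Fin.ext_iff, eq_comm]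
    · rw [if_neg (fun h : (k : ℕ) = i => hk (Fin.ext h)), Matrix.mul_single_apply_of_ne _ _ _ _ _ hk]
      simp [Fin.ext_iff, eq_comm]
  have hT : (cartT D)ᵀ = cartMat D := by ext a b; rfl
  rw [h, Matrix.transpose_sub, Matrix.transpose_one, Matrix.transpose_mul, Matrix.transpose_single, hT,
    Matrix.sub_mul, Matrix.one_mul, Matrix.mul_sub, Matrix.mul_one, Matrix.mul_assoc]

/-- A word acts on the torus by an integral matrix compatible with its action on the roots. -/
theorem exists_conj_mat (L : List (Fin D.rank)) :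
    ∃ R Z : Matrix (Fin D.rank) (Fin D.rank) ℤ,
      (∀ c : Fin D.rank → Kˣ, toSt D K (wordW (K := K) L : D.SteinbergCover K) * torusHom C hc c *
        (toSt D K (wordW (K := K) L : D.SteinbergCover K))⁻¹ = torusHom C hc (torusMap Kˣ R c)) ∧
      R * cartMat D = cartMat D * (actMat C (L.map Fin.val).reverse)ᵀ ∧ R - 1 = cartMat D * Z := by
  induction L with
  | nil =>
    refine ⟨1, 0, fun c => by simp [wordW, torusMap_one], ?_, by simp⟩
    simp [actMat_nil]
  | cons a L ih =>
    obtain ⟨R, Z, h1, h2, h3⟩ := ih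
    refine ⟨R * (1 - cartMat D * Matrix.single a a 1), Z * (1 - cartMat D * Matrix.single a a 1) -
      Matrix.single a a 1, fun c => ?_, ?_, ?_⟩
    · have e : toSt D K (wordW (K := K) (a :: L) : D.SteinbergCover K) =
          toSt D K (wEl D (a : ℕ) 1) * toSt D K (wordW (K := K) L : D.SteinbergCover K) := by
        rw [← map_mul]; simp [wordW]
      rw [e, torusMap_mul, MonoidHom.comp_apply, ← conj_simple C hc, ← h1]
      group
    · rw [Matrix.mul_assoc, cartMat_transpose_one_sub C, ← Matrix.mul_assoc, h2, Matrix.mul_assoc,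
        ← Matrix.transpose_mul]
      congr 2
      rw [List.map_cons, List.reverse_cons,
        actMat_append C (fun x hx => C.fin_word_lt L x (List.mem_reverse.mp hx)) (by simp)]
    · rw [Matrix.mul_sub (cartMat D), ← Matrix.mul_assoc, ← h3, Matrix.sub_mul, Matrix.one_mul]
      abel

theorem theta_wordW (L : List (Fin D.rank)) :
    (thetaSt C (toSt D K (wordW (K := K) L : D.SteinbergCover K)) : GL D.Idx K) =
      C.nWordElt K (L.map Fin.val) := by
  rw [← MonoidHom.comp_apply, thetaSt_comp]
  induction L with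
  | nil => simp [wordW, Cert.nWordElt]
  | cons a L ih =>
    rw [List.map_cons, C.nWordElt_cons, ← ih, ← theta_wEl C (a : ℕ) (1 : K), ← Subgroup.coe_mul, ← map_mul]
    simp [wordW]

/-- A fixed element of Steinberg's group comes from the small field. -/
theorem exists_preimage_of_fixed [Fintype E] [Fintype K] (C₀ : Cert.{u} D) {M : CoxeterMatrix (Fin D.rank)}
    (hM : CoxOK D M) (hinj : Function.Injective (torusHom (K := K) C hc)) (ι : E →+* K) (φ : K →+* K)
    (hφ : ∀ t, φ t = t ^ Fintype.card E) {z : D.SteinbergGroup K} (hz : stMap D φ z = z) :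
    ∃ y, stMap D ι y = z := by
  classical
  have hφι : φ.comp ι = ι := RingHom.ext fun t => by
    show φ (ι t) = ι t
    rw [hφ, ← map_pow, FiniteField.pow_card]
  have hfixι : ∀ y, stMap D φ (stMap D ι y) = stMap D ι y := fun y => by rw [stMap_stMap, hφι]
  have hlift : ∀ g ∈ (D.group E).map (gmap D ι), ∃ y, (thetaSt C (stMap D ι y) : GL D.Idx K) = g := by
    rintro _ ⟨g, hg, rfl⟩
    obtain ⟨y, hy⟩ := thetaSt_surjective C₀ ⟨g, hg⟩
    exact ⟨y, by rw [theta_stMap C₀ C, hy]⟩
  obtain ⟨L, a, ha, h, hh, u, hu, eg⟩ := exists_canon C hM (thetaSt C z).2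
  set n := C.nWordElt K (L.map Fin.val) with hn
  have hnf : gmap D φ n = n := gmap_nWordElt C C φ _
  have hn0 : n ∈ (D.group E).map (gmap D ι) := ⟨C₀.nWordElt E (L.map Fin.val),
    C₀.monomial_le_group (C₀.nWordElt_mem (C₀.fin_word_lt L)), gmap_nWordElt C₀ C ι _⟩
  have hgfix : gmap D φ (thetaSt C z : GL D.Idx K) = thetaSt C z := by rw [← theta_stMap C C, hz]
  have e1 : gmap D φ a * gmap D φ h * n * gmap D φ u = a * h * n * u := by
    have := congrArg (gmap D φ) eg
    rw [map_mul, map_mul, map_mul, hgfix, hnf, eg] at this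
    exact this.symm
  obtain ⟨fa, -, fu⟩ := canon_unique C (map_pos_le φ ⟨a, ha, rfl⟩) ha (map_diagonal_le φ ⟨h, hh, rfl⟩) hh
    (map_span_le _ φ ⟨u, hu, rfl⟩) hu e1
  obtain ⟨ya, hya⟩ := hlift a (pos_mem_small C₀ C ι φ hφ ha fa)
  obtain ⟨yu, hyu⟩ := hlift (n * u)
    (mul_mem hn0 (pos_mem_small C₀ C ι φ hφ (C.span_mono (fun x hx => hx.1) hu) fu))
  set τ := (stMap D ι ya)⁻¹ * z * (stMap D ι yu)⁻¹ with hτ
  have hτh : (thetaSt C τ : GL D.Idx K) = h := by
    rw [hτ, map_mul, map_mul, map_inv, map_inv, Subgroup.coe_mul, Subgroup.coe_mul, Subgroup.coe_inv,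
      Subgroup.coe_inv, hya, hyu, eg]
    group
  obtain ⟨c, hcτ⟩ := exists_torus_of_diag C hc hM (hτh.symm ▸ hh)
  have hτf : stMap D φ τ = τ := by
    rw [hτ, map_mul, map_mul, map_inv, map_inv, hfixι, hfixι, hz]
  have hcfix : ∀ i, φ (c i : K) = (c i : K) := fun i => by
    rw [← hcτ, stMap_torusHom C C hc] at hτf
    exact congrArg Units.val (congrFun (hinj hτf) i)
  choose c₀ hc₀ using fun i => exists_preimage ι ((hφ (c i : K)).symm.trans (hcfix i))
  let c' : Fin D.rank → Eˣ := fun i => Units.mk0 (c₀ i) fun h0 => (c i).ne_zero (by rw [← hc₀, h0, map_zero])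
  refine ⟨ya * torusHom C₀ hc c' * yu, ?_⟩
  have e2 : stMap D ι (torusHom C₀ hc c') = τ := by
    rw [stMap_torusHom C₀ C hc, ← hcτ]
    congr 1
    funext i
    exact Units.ext (hc₀ i)
  rw [map_mul, map_mul, e2, hτ]
  group

end Cfsg.Agent.Chars2.SingerTorus
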