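import Cfsg.Agent.Chars2.SingerTorus.E6Weyl

/-!
Regularity of eigenvectors of order twelve for Weyl words of type `E₆`, and a root whose orbit spans.
-/

set_option autoImplicit false
set_option linter.unusedSectionVars false

universe u

namespace Cfsg.Agent.Chars2.SingerTorus

open Cfsg.Lie Cfsg.Agent.Chev Matrix Polynomial

/-- The inclusion of the nodes of type `D₄`. -/
def e6e4 (i : Fin 4) : Fin chevE6.rank := ⟨(i : ℕ) + 1, Nat.lt_trans (Nat.succ_lt_succ i.isLt) (by decide)⟩

/-- Twice the inverse Cartan matrix of `D₄` on those nodes. -/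
def d4Inv (i j : Fin 4) : ℤ := ([[2, 1, 2, 1], [1, 2, 2, 1], [2, 2, 4, 2], [1, 1, 2, 2]].getD i []).getD j 0

theorem d4Inv_spec : ∀ i j : Fin 4, (∑ k, cartT chevE6 (e6e4 i) (e6e4 k) * d4Inv k j) = if i = j then 2 else 0 := by
  decide +kernel

theorem d4Inv_spec' : ∀ i j : Fin 4, (∑ k, d4Inv i k * cartT chevE6 (e6e4 k) (e6e4 j)) = if i = j then 2 else 0 := by
  decide +kernel

/-- The pairings of a root with the nodes of type `D₄`. -/
def e6X (s : ℕ) (i : Fin 4) : ℤ := chevE6.cartan (e6e4 i) s

theorem e6X_ne : ∀ s : Fin chevE6.nroots, ∃ i, e6X s i ≠ 0 := by decide +kernel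

theorem e6X_norm : ∀ s : Fin chevE6.nroots, ∑ i, ∑ j, e6X s i * d4Inv i j * e6X s j ≤ 4 := by decide +kernel

theorem e6Cartan_symm : ∀ i j : Fin chevE6.rank,
    chevE6.cartan i (chevE6.simple j) = chevE6.cartan j (chevE6.simple i) := by decide +kernel

theorem e6_cartan_det :
    3 ≤ (Matrix.of fun i j : Fin 6 => chevE6.cartan i (chevE6.simple j)).det := by
  have h : (Matrix.of fun i j : Fin 6 => chevE6.cartan i (chevE6.simple j)).det = 3 := by decide +kernel
  rw [h]

theorem natAbs_le_four {d : ℤ} (h : d ^ 2 * 3 ≤ 64) : d.natAbs ≤ 4 := by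
  by_contra hd
  have h1 : (5 : ℤ) ≤ (d.natAbs : ℤ) := by omega
  have h2 : (d.natAbs : ℤ) ^ 2 = d ^ 2 := Int.natAbs_sq d
  nlinarith

section

variable (C : Cert.{u} chevE6)
include C

/-- The nonsingular block of the sixth power. -/
theorem exists_D4 (L : List (Fin chevE6.rank)) {N : ℕ} (hN0 : N ≠ 0)
    (hN : actMat C (L.map Fin.val) ^ N = 1)
    (hc : (actMat C (L.map Fin.val)).charpoly = cyclotomic 12 ℤ * (X ^ 2 + X + 1)) :
    ∃ (Lw L₁ L₆ : List (Fin chevE6.rank)),
      actMat C (L₁.map Fin.val) =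
        actMat C (Lw.map Fin.val) * actMat C (L.map Fin.val) * actMat C (Lw.map Fin.val).reverse ∧
      actMat C (L₁.map Fin.val) ^ 6 = actMat C (L₆.map Fin.val) ∧
      (∀ i ∈ L₆, i ∈ e6D4) ∧ ∀ i ∈ e6D4, ∀ k, actMat C (L₆.map Fin.val) i k = if i = k then -1 else 0 := by
  classical
  set L6 := (List.replicate 6 L).flatten with hL6
  have hL6m : L6.map Fin.val = wordPow (L.map Fin.val) 6 := by
    rw [hL6, List.map_flatten, List.map_replicate]; rfl
  have hA6 : actMat C (L6.map Fin.val) = actMat C (L.map Fin.val) ^ 6 := by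
    rw [hL6m, actMat_wordPow C (valMap_lt C L)]
  obtain ⟨Lw, L₆, J, hL₆, e, hfix⟩ := exists_parabolic C coxE6 L6 hN0 (by
    rw [hA6, ← pow_mul, mul_comm, pow_mul, hN, one_pow])
  obtain ⟨hU1, hU2⟩ := actMat_mul_reverse C (valMap_lt C Lw)
  set U := actMat C (Lw.map Fin.val) with hU
  set Ui := actMat C (Lw.map Fin.val).reverse with hUi
  set L₁ := Lw.reverse ++ L ++ Lw with hL₁
  have hA₁ : actMat C (L₁.map Fin.val) = U * actMat C (L.map Fin.val) * Ui := by
    have hr : ∀ a ∈ (Lw.map Fin.val).reverse, a < chevE6.rank :=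
      fun a ha => valMap_lt C Lw a (List.mem_reverse.mp ha)
    rw [hL₁, List.map_append, List.map_append, List.map_reverse, List.append_assoc,
      actMat_append C hr (fun a ha => (List.mem_append.mp ha).elim (valMap_lt C L a) (valMap_lt C Lw a)),
      actMat_append C (valMap_lt C L) (valMap_lt C Lw)]
  set A := actMat C (L₁.map Fin.val) with hA
  have hpow : A ^ 6 = actMat C (L₆.map Fin.val) := by
    rw [e, hA6, hA₁]
    have : ∀ k : ℕ, (U * actMat C (L.map Fin.val) * Ui) ^ k = U * actMat C (L.map Fin.val) ^ k * Ui := by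
      intro k
      induction k with
      | zero => rw [pow_zero, pow_zero, Matrix.mul_one, hU1]
      | succ k ih =>
        rw [pow_succ, ih, pow_succ]
        calc U * actMat C (L.map Fin.val) ^ k * Ui * (U * actMat C (L.map Fin.val) * Ui) =
            U * actMat C (L.map Fin.val) ^ k * (Ui * U) * actMat C (L.map Fin.val) * Ui := by
              simp only [Matrix.mul_assoc]
          _ = _ := by rw [hU2, Matrix.mul_one]; simp only [Matrix.mul_assoc]
    exact this 6
  have hcA : A.charpoly = cyclotomic 12 ℤ * (X ^ 2 + X + 1) := by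
    rw [hA₁, Matrix.mul_assoc, Matrix.charpoly_mul_comm, Matrix.mul_assoc, hU2, Matrix.mul_one, hc]
  have hCH : Polynomial.aeval A (cyclotomic 12 ℤ * (X ^ 2 + X + 1)) = 0 := hcA ▸ Matrix.aeval_self_charpoly A
  have h12 : A ^ 12 = 1 := by
    have h1 : Polynomial.aeval A ((X : ℤ[X]) ^ 12 - 1) = 0 := by
      rw [show (X : ℤ[X]) ^ 12 - 1 = cyclotomic 12 ℤ * (X ^ 2 + X + 1) * ((X ^ 2 - X + 1) * (X ^ 4 - 1)) by
        rw [cyclotomic_twelve]; ring, map_mul, hCH, zero_mul]
    rw [map_sub, map_pow, aeval_X, map_one, sub_eq_zero] at h1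
    exact h1
  -- a vector of the eigenspace for `-1`
  obtain ⟨i₀, hi₀⟩ : ∃ i, (Pi.single i (1 : ℤ)) ᵥ* Polynomial.aeval A ((X : ℤ[X]) ^ 2 + X + 1) ≠ 0 := by
    by_contra hno
    push Not at hno
    have h0 : Polynomial.aeval A ((X : ℤ[X]) ^ 2 + X + 1) = 0 := by
      ext i k
      have := congrFun (hno i) k
      rwa [Matrix.single_one_vecMul] at this
    have h3 : A ^ 3 = 1 := by
      have h1 : Polynomial.aeval A ((X : ℤ[X]) ^ 3 - 1) = 0 := by
        rw [show (X : ℤ[X]) ^ 3 - 1 = (X ^ 2 + X + 1) * (X - 1) by ring, map_mul, h0, zero_mul]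
      rw [map_sub, map_pow, aeval_X, map_one, sub_eq_zero] at h1
      exact h1
    have hd := ((cyclotomic.irreducible (show 0 < 12 by norm_num)).prime).dvd_of_dvd_pow
      ((Dvd.intro _ hcA.symm).trans (charpoly_dvd_pow A (show 3 ≠ 0 by norm_num) h3))
    have hd' := natDegree_le_of_dvd hd (monic_X_pow_sub_C (1 : ℤ) (show 3 ≠ 0 by norm_num)).ne_zero
    rw [natDegree_cyclotomic, show ((X : ℤ[X]) ^ 3 - 1) = X ^ 3 - Polynomial.C 1 by rw [map_one],
      natDegree_X_pow_sub_C, show Nat.totient 12 = 4 by decide] at hd'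
    omega
  set u := (Pi.single i₀ (1 : ℤ)) ᵥ* Polynomial.aeval A ((X : ℤ[X]) ^ 2 + X + 1) with hu
  have huP : u ᵥ* Polynomial.aeval A (cyclotomic 12 ℤ) = 0 := by
    rw [hu, Matrix.vecMul_vecMul, ← map_mul, mul_comm, hCH, Matrix.vecMul_zero]
  have hu6 : u ᵥ* A ^ 6 = -u := by
    have h1 : u ᵥ* Polynomial.aeval A ((X : ℤ[X]) ^ 6 + 1) = 0 := by
      rw [show (X : ℤ[X]) ^ 6 + 1 = cyclotomic 12 ℤ * (X ^ 2 + 1) by rw [cyclotomic_twelve]; ring, map_mul,
        ← Matrix.vecMul_vecMul, huP, Matrix.zero_vecMul]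
    rw [map_add, map_pow, aeval_X, map_one, Matrix.vecMul_add, Matrix.vecMul_one] at h1
    exact eq_neg_of_add_eq_zero_left h1
  -- hence at least four nodes
  have hsupp : ∀ v : Fin chevE6.rank → ℤ, v ᵥ* A ^ 6 = -v → ∀ k ∉ J, v k = 0 := by
    intro v hv k hk
    have h1 := congrFun hv k
    rw [hpow] at h1
    have h2 : (v ᵥ* actMat C (L₆.map Fin.val)) k = v k := by
      show ∑ i : Fin chevE6.rank, v i * C.coef (act chevE6 (L₆.map Fin.val) (chevE6.simple i)) k = v k
      rw [Finset.sum_eq_single k]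
      · rw [coef_act_of_notMem C J hL₆ (C.simple_lt k k.isLt) hk, C.coef_simple k k.isLt k k.isLt, if_pos rfl, mul_one]
      · intro i _ hi
        rw [coef_act_of_notMem C J hL₆ (C.simple_lt i i.isLt) hk, C.coef_simple i i.isLt k k.isLt,
          if_neg (fun e : (k : ℕ) = i => hi (Fin.ext e.symm)), mul_zero]
      · simp
    rw [h2, Pi.neg_apply] at h1
    omega
  have hcard : 4 ≤ J.card := by
    let F : Fin 4 → ({x // x ∈ J} → ℤ) := fun j a => (u ᵥ* A ^ (j : ℕ)) a.1
    have hF : LinearIndependent ℤ F := by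
      rw [Fintype.linearIndependent_iff]
      intro g hg
      by_contra hne
      push Not at hne
      let p : ℤ[X] := ∑ j : Fin 4, Polynomial.C (g j) * X ^ (j : ℕ)
      have hp0 : p ≠ 0 := by
        obtain ⟨i, hi⟩ := hne
        intro h
        have := congrArg (fun x => x.coeff (i : ℕ)) h
        simp [p, coeff_X_pow, Fin.val_inj] at this
        exact hi this
      have hup : u ᵥ* Polynomial.aeval A p = 0 := by
        have hsum : u ᵥ* Polynomial.aeval A p = ∑ j : Fin 4, g j • (u ᵥ* A ^ (j : ℕ)) := by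
          simp only [p, map_sum, map_mul, aeval_C, aeval_X_pow, Matrix.vecMul_sum, ← Algebra.smul_def,
            Matrix.vecMul_smul]
        rw [hsum]
        funext k
        rw [Finset.sum_apply, Pi.zero_apply]
        by_cases hk : k ∈ J
        · have := congrFun hg ⟨k, hk⟩
          simpa [F, Finset.sum_apply] using this
        · refine Finset.sum_eq_zero fun j _ => ?_
          rw [Pi.smul_apply, hsupp (u ᵥ* A ^ (j : ℕ)) ?_ k hk, smul_zero]
          rw [Matrix.vecMul_vecMul, ← pow_add, Nat.add_comm, pow_add, ← Matrix.vecMul_vecMul, hu6, Matrix.neg_vecMul]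
      let f : ℤ →+* ℚ := Int.castRingHom ℚ
      have hirr : Irreducible ((cyclotomic 12 ℤ).map f) :=
        (IsPrimitive.Int.irreducible_iff_irreducible_map_cast (cyclotomic.monic 12 ℤ).isPrimitive).mp
          (cyclotomic.irreducible (by norm_num))
      have hcop : IsCoprime ((cyclotomic 12 ℤ).map f) (p.map f) := hirr.coprime_iff_not_dvd.mpr fun hd => by
        have h1 := natDegree_le_of_dvd hd ((Polynomial.map_ne_zero_iff f.injective_int).mpr hp0)
        rw [(cyclotomic.monic 12 ℤ).natDegree_map f, natDegree_cyclotomic, show Nat.totient 12 = 4 by decide,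
          natDegree_map_eq_of_injective f.injective_int] at h1
        have h2 : p.natDegree < 4 := (natDegree_lt_iff_degree_lt hp0).mpr (degree_sum_fin_lt _)
        omega
      obtain ⟨a, b, hab⟩ := hcop
      let B := A.map f
      let u' : Fin chevE6.rank → ℚ := fun i => (u i : ℚ)
      have hmapP : ∀ R : ℤ[X], u ᵥ* Polynomial.aeval A R = 0 → u' ᵥ* Polynomial.aeval B (R.map f) = 0 := by
        intro R hR
        have e : Polynomial.aeval B (R.map f) = (Polynomial.aeval A R).map f := by
          induction R using Polynomial.induction_on' with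
          | add a b ha hb =>
            clear hR
            rw [Polynomial.map_add, map_add, map_add, Matrix.map_add _ (map_add f)]
            congr 1
            · clear ha hb
              induction a using Polynomial.induction_on' with
              | add x y hx hy => rw [Polynomial.map_add, map_add, map_add, Matrix.map_add _ (map_add f), hx, hy]
              | monomial n c =>
                rw [Polynomial.map_monomial, aeval_monomial, aeval_monomial, Matrix.map_mul, Matrix.map_pow,
                  Matrix.algebraMap_eq_diagonal, Matrix.algebraMap_eq_diagonal, Matrix.diagonal_map (map_zero f)]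
                congr 1
            · clear ha hb
              induction b using Polynomial.induction_on' with
              | add x y hx hy => rw [Polynomial.map_add, map_add, map_add, Matrix.map_add _ (map_add f), hx, hy]
              | monomial n c =>
                rw [Polynomial.map_monomial, aeval_monomial, aeval_monomial, Matrix.map_mul, Matrix.map_pow,
                  Matrix.algebraMap_eq_diagonal, Matrix.algebraMap_eq_diagonal, Matrix.diagonal_map (map_zero f)]
                congr 1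
          | monomial n c =>
            rw [Polynomial.map_monomial, aeval_monomial, aeval_monomial, Matrix.map_mul, Matrix.map_pow,
              Matrix.algebraMap_eq_diagonal, Matrix.algebraMap_eq_diagonal, Matrix.diagonal_map (map_zero f)]
            congr 1
        rw [e]
        funext i
        have h2 := congrFun hR i
        simp only [Matrix.vecMul, dotProduct, Pi.zero_apply] at h2
        simp only [Matrix.vecMul, dotProduct, u', f, Matrix.map_apply, eq_intCast, Pi.zero_apply]
        exact_mod_cast h2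
      have h3 : (1 : ℚ[X]) = (cyclotomic 12 ℤ).map f * a + p.map f * b := by linear_combination -hab
      have h4 := congrArg (fun x => u' ᵥ* Polynomial.aeval B x) h3
      simp only [map_one, Matrix.vecMul_one, map_add, Matrix.vecMul_add, map_mul, ← Matrix.vecMul_vecMul,
        hmapP _ huP, hmapP _ hup, Matrix.zero_vecMul, add_zero] at h4
      exact hi₀ (funext fun i => by simpa [u'] using congrFun h4 i)
    have := hF.fintype_card_le_finrank
    simpa [Module.finrank_fintype_fun_eq_card] using this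
  -- the block is minus the identity
  have hblock : ∀ i ∈ J, ∀ k, actMat C (L₆.map Fin.val) i k = if i = k then -1 else 0 := by
    intro i hi k
    set B6 := actMat C (L₆.map Fin.val)
    let c : Fin chevE6.rank → ℤ := Pi.single i (1 : ℤ) + B6 i
    have hsuppc : ∀ k ∉ J, c k = 0 := by
      intro k hk
      have hik : i ≠ k := fun h => hk (h ▸ hi)
      show (Pi.single i (1 : ℤ) : Fin chevE6.rank → ℤ) k + C.coef _ k = 0
      rw [coef_act_of_notMem C J hL₆ (C.simple_lt i i.isLt) hk, C.coef_simple i i.isLt k k.isLt,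
        if_neg (fun e : (k : ℕ) = i => hik (Fin.ext e.symm)), Pi.single_eq_of_ne hik.symm, add_zero]
    have hcf : c ᵥ* B6 = c := by
      have hBB : B6 * B6 = 1 := by rw [← hpow, ← pow_add]; exact h12
      have h1 : (B6 i) = Pi.single i (1 : ℤ) ᵥ* B6 := by rw [Matrix.single_one_vecMul]; rfl
      show (Pi.single i (1 : ℤ) + B6 i) ᵥ* B6 = Pi.single i (1 : ℤ) + B6 i
      rw [Matrix.add_vecMul, ← h1]
      conv_lhs => arg 2; rw [h1, Matrix.vecMul_vecMul, hBB, Matrix.vecMul_one]
      exact add_comm _ _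
    have h0 := congrFun (hfix c hsuppc hcf) k
    rw [Pi.zero_apply] at h0
    have h1 : B6 i k = - (Pi.single i (1 : ℤ) : Fin chevE6.rank → ℤ) k := eq_neg_of_add_eq_zero_right h0
    rw [h1]
    by_cases h : i = k
    · subst h; simp
    · rw [Pi.single_eq_of_ne (Ne.symm h), neg_zero, if_neg h]
  have hJ : J = e6D4 := by
    obtain ⟨w, -, hwB, -, i, hi, -, hwi⟩ := e6_witness J hcard
    refine hwi.resolve_right fun hn => hn ?_
    obtain ⟨Z, hZ, eZ⟩ := exists_actMat_sub_one C J hL₆
    have h1 := dvd_sum_mul J hZ eZ (n := (w.1 : ℤ))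
      (w := fun k => if k ∈ J then ((w.2.getD k 0 : ℕ) : ℤ) else 0) hwB i
    rw [Finset.sum_eq_single i (fun k _ hk => by
      by_cases hkJ : k ∈ J
      · rw [Matrix.sub_apply, hblock k hkJ i, if_neg hk, Matrix.one_apply_ne hk, sub_zero, mul_zero]
      · rw [if_neg hkJ, zero_mul]) (by simp)] at h1
    rw [if_pos hi, Matrix.sub_apply, hblock i hi i, if_pos rfl, Matrix.one_apply_eq] at h1
    rw [show (2 : ℤ) * ((w.2.getD i 0 : ℕ) : ℤ) = -(((w.2.getD i 0 : ℕ) : ℤ) * (-1 - 1)) by ring]
    exact h1.neg_right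
  subst hJ
  exact ⟨Lw, L₁, L₆, hA₁, hpow, hL₆, hblock⟩

/-- Regularity and a spanning orbit. -/
theorem regular_E6 (L : List (Fin chevE6.rank)) {N : ℕ} (hN0 : N ≠ 0)
    (hN : actMat C (L.map Fin.val) ^ N = 1)
    (hc : (actMat C (L.map Fin.val)).charpoly = cyclotomic 12 ℤ * (X ^ 2 + X + 1))
    {r q : ℕ} [Fact r.Prime] (hr : 12 < r) (hd : orderOf (q : ZMod r) = 12)
    {v : Fin chevE6.rank → ZMod r} (hv : v ≠ 0)
    (he : (actMat C (L.map Fin.val)).map (Int.castRingHom (ZMod r)) *ᵥ v = (q : ZMod r) • v) :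
    (∀ s < chevE6.nroots, ∑ i, (coefVec C s i : ZMod r) * v i ≠ 0) ∧
      ∃ s < chevE6.nroots, (orbitMat (actMat C (L.map Fin.val)) (coefVec C s)).det ≠ 0 ∧
        (orbitMat (actMat C (L.map Fin.val)) (coefVec C s)).det.natAbs ≤ 4 := by
  classical
  obtain ⟨Lw, L₁, L₆, hA₁, hpow, hL₆, hblock⟩ := exists_D4 C L hN0 hN hc
  obtain ⟨hU1, hU2⟩ := actMat_mul_reverse C (valMap_lt C Lw)
  set U := actMat C (Lw.map Fin.val) with hU
  set Ui := actMat C (Lw.map Fin.val).reverse with hUi
  set A₀ := actMat C (L.map Fin.val) with hA₀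
  set A := actMat C (L₁.map Fin.val) with hA
  set B6 := actMat C (L₆.map Fin.val) with hB6
  let f := Int.castRingHom (ZMod r)
  set v' := U.map f *ᵥ v with hv'
  have he' : A.map f *ᵥ v' = (q : ZMod r) • v' := by
    rw [hA₁, hv', Matrix.map_mul, Matrix.map_mul, Matrix.mulVec_mulVec, Matrix.mul_assoc (U.map f * A₀.map f),
      ← Matrix.map_mul (L := Ui) (M := U), hU2, Matrix.map_one _ (map_zero f) (map_one f), Matrix.mul_one,
      ← Matrix.mulVec_mulVec, he, Matrix.mulVec_smul]
  have hv'0 : v' ≠ 0 := fun h => hv (by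
    have h1 := congrArg (fun x => Ui.map f *ᵥ x) h
    rw [hv', Matrix.mulVec_mulVec, ← Matrix.map_mul, hU2, Matrix.map_one _ (map_zero f) (map_one f),
      Matrix.one_mulVec, Matrix.mulVec_zero] at h1
    exact h1)
  have hcA : A.charpoly = cyclotomic 12 ℤ * (X ^ 2 + X + 1) := by
    rw [hA₁, Matrix.mul_assoc, Matrix.charpoly_mul_comm, Matrix.mul_assoc, hU2, Matrix.mul_one, hc]
  have hCH : Polynomial.aeval A (cyclotomic 12 ℤ * (X ^ 2 + X + 1)) = 0 := hcA ▸ Matrix.aeval_self_charpoly A
  have hq6 : (q : ZMod r) ^ 6 = -1 := by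
    have h12 : ((q : ZMod r) ^ 6) ^ 2 = 1 := by rw [← pow_mul]; show (q : ZMod r) ^ 12 = 1; rw [← hd]; exact pow_orderOf_eq_one _
    refine (sq_eq_one_iff.mp h12).resolve_left fun h => ?_
    have := orderOf_dvd_of_pow_eq_one h
    rw [hd] at this
    norm_num at this
  have hv6 : B6.map f *ᵥ v' = -v' := by
    have hk : ∀ k : ℕ, (A ^ k).map f *ᵥ v' = (q : ZMod r) ^ k • v' := by
      intro k
      induction k with
      | zero => simp [Matrix.map_one]
      | succ k ih =>
        rw [pow_succ' A, Matrix.map_mul, ← Matrix.mulVec_mulVec, ih, Matrix.mulVec_smul, he', smul_smul, pow_succ]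
    rw [← hpow, hk, hq6, neg_one_smul]
  have hneg : ∀ i ∈ e6D4, act chevE6 (L₆.map Fin.val) (chevE6.simple i) = chevE6.neg (chevE6.simple i) := by
    intro i hi
    refine C.coef_inj _ (C.act_lt (valMap_lt C L₆) (C.simple_lt i i.isLt)) _ (C.neg_lt _ (C.simple_lt i i.isLt))
      fun k hk => ?_
    have h1 := hblock i hi ⟨k, hk⟩
    show C.coef _ k = _
    rw [C.coef_neg _ (C.simple_lt i i.isLt) k hk, C.coef_simple i i.isLt k hk]
    refine h1.trans ?_
    by_cases h : k = i
    · subst h; rw [if_pos rfl, if_pos rfl]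
    · rw [if_neg (fun e => h (congrArg Fin.val e).symm), if_neg h, neg_zero]
  have he4 : ∀ i : Fin 4, e6e4 i ∈ e6D4 := by decide +kernel
  have he4' : ∀ k ∈ e6D4, ∃ i : Fin 4, e6e4 i = k := by decide +kernel
  -- the part of a root in the span of `D₄`
  let uu : ℕ → Fin chevE6.rank → ℤ := fun s => coefVec C s - coefVec C s ᵥ* B6
  have huu : ∀ s < chevE6.nroots, (∀ k ∉ e6D4, uu s k = 0) ∧
      ∀ i : Fin 4, uu s (e6e4 i) = ∑ j, e6X s j * d4Inv j i := by
    intro s hs
    have hsupp : ∀ k ∉ e6D4, uu s k = 0 := by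
      intro k hk
      show coefVec C s k - (coefVec C s ᵥ* B6) k = 0
      rw [← coefVec_act C (valMap_lt C L₆) hs]
      exact sub_eq_zero.mpr (coef_act_of_notMem C e6D4 hL₆ hs hk).symm
    refine ⟨hsupp, fun i => ?_⟩
    have hpair : ∀ j : Fin 4, (∑ k : Fin chevE6.rank, uu s k * cartT chevE6 k (e6e4 j)) = 2 * e6X s j := by
      intro j
      have hγ : chevE6.cartan (e6e4 j) (act chevE6 (L₆.map Fin.val) s) = - chevE6.cartan (e6e4 j) s := by
        have h1 := pairInt_act C (valMap_lt C L₆) (C.simple_lt (e6e4 j) (e6e4 j).isLt) hs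
        rw [hneg _ (he4 j), pairInt_neg C (C.simple_lt _ (e6e4 j).isLt), C.pairInt_simple (e6e4 j).isLt,
          C.pairInt_simple (e6e4 j).isLt] at h1
        omega
      have h2 : ∀ t < chevE6.nroots, (∑ k : Fin chevE6.rank, coefVec C t k * cartT chevE6 k (e6e4 j)) =
          chevE6.cartan (e6e4 j) t := fun t ht => by
        rw [C.cartan_linear _ (e6e4 j).isLt t ht, Finset.sum_range]; rfl
      simp only [uu, Pi.sub_apply, sub_mul, Finset.sum_sub_distrib]
      rw [← coefVec_act C (valMap_lt C L₆) hs, h2 s hs, h2 _ (C.act_lt (valMap_lt C L₆) hs), hγ]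
      show _ = 2 * chevE6.cartan (e6e4 j) s
      ring
    have hinj : Function.Injective e6e4 := by decide +kernel
    have hres : ∀ j : Fin 4, (∑ k : Fin 4, uu s (e6e4 k) * cartT chevE6 (e6e4 k) (e6e4 j)) = 2 * e6X s j := by
      intro j
      rw [← hpair j, ← Finset.sum_subset (Finset.subset_univ e6D4) (fun k _ hk => by rw [hsupp k hk, zero_mul])]
      refine Finset.sum_bij (fun k _ => e6e4 k) (fun k _ => he4 k) (fun a _ b _ h => hinj h)
        (fun k hk => ?_) (fun k _ => rfl)
      obtain ⟨i, hi⟩ := he4' k hk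
      exact ⟨i, Finset.mem_univ _, hi⟩
    have h1 : ∑ j : Fin 4, (2 * e6X s j) * d4Inv j i = 2 * uu s (e6e4 i) := by
      rw [Finset.sum_congr rfl fun j _ => by rw [← hres j, Finset.sum_mul], Finset.sum_comm]
      rw [Finset.sum_congr rfl fun k _ => by
        rw [Finset.sum_congr rfl fun j _ => mul_assoc _ _ _, ← Finset.mul_sum, d4Inv_spec k i]]
      rw [Finset.sum_eq_single i (fun b _ hb => by rw [if_neg hb, mul_zero]) (by simp), if_pos rfl, mul_comm]
    rw [Finset.sum_congr rfl fun j _ => mul_assoc (2 : ℤ) _ _, ← Finset.mul_sum] at h1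
    omega
  have hcomm : ∀ j : ℕ, ∀ w : Fin chevE6.rank → ℤ, w ᵥ* A ^ j ᵥ* B6 = w ᵥ* B6 ᵥ* A ^ j := fun j w => by
    rw [Matrix.vecMul_vecMul, Matrix.vecMul_vecMul, ← hpow, ← pow_add, ← pow_add, Nat.add_comm]
  have huA : ∀ s < chevE6.nroots, ∀ j : ℕ,
      uu s ᵥ* A ^ j = uu (act chevE6 (wordPow (L₁.map Fin.val) j) s) := by
    intro s hs j
    show (coefVec C s - coefVec C s ᵥ* B6) ᵥ* A ^ j = coefVec C _ - coefVec C _ ᵥ* B6
    rw [coefVec_act C (wordPow_lt (valMap_lt C L₁) j) hs, actMat_wordPow C (valMap_lt C L₁), hcomm,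
      Matrix.sub_vecMul]
  have hu0 : ∀ s < chevE6.nroots, uu s ≠ 0 := by
    intro s hs h
    obtain ⟨i, hi⟩ := e6X_ne ⟨s, hs⟩
    refine hi ?_
    have h2 : ∀ k : Fin 4, ∑ j, e6X s j * d4Inv j k = 0 := fun k => by
      rw [← (huu s hs).2 k, h]; rfl
    have h3 : ∑ k : Fin 4, (∑ j, e6X s j * d4Inv j k) * cartT chevE6 (e6e4 k) (e6e4 i) = 0 := by simp [h2]
    have h4 : ∀ j : Fin 4, (∑ k, d4Inv j k * cartT chevE6 (e6e4 k) (e6e4 i)) = if j = i then 2 else 0 :=
      fun j => d4Inv_spec' j i
    rw [Finset.sum_congr rfl fun k _ => Finset.sum_mul _ _ _, Finset.sum_comm,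
      Finset.sum_congr rfl fun j _ => by
        rw [Finset.sum_congr rfl fun k _ => mul_assoc _ _ _, ← Finset.mul_sum, h4 j],
      Finset.sum_eq_single i (fun b _ hb => by rw [if_neg hb, mul_zero]) (by simp), if_pos rfl] at h3
    show e6X s i = 0
    omega
  have huB : ∀ s < chevE6.nroots, uu s ᵥ* B6 = - uu s := by
    intro s _
    have hBB : B6 * B6 = 1 := by
      have h1 : Polynomial.aeval A ((X : ℤ[X]) ^ 12 - 1) = 0 := by
        rw [show (X : ℤ[X]) ^ 12 - 1 = cyclotomic 12 ℤ * (X ^ 2 + X + 1) * ((X ^ 2 - X + 1) * (X ^ 4 - 1)) by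
          rw [cyclotomic_twelve]; ring, map_mul, hCH, zero_mul]
      rw [map_sub, map_pow, aeval_X, map_one, sub_eq_zero] at h1
      rw [← hpow, ← pow_add]; exact h1
    show (coefVec C s - coefVec C s ᵥ* B6) ᵥ* B6 = _
    rw [Matrix.sub_vecMul, Matrix.vecMul_vecMul, hBB, Matrix.vecMul_one]
    simp [uu]
  have hreg' : ∀ s < chevE6.nroots, ∑ i, (coefVec C s i : ZMod r) * v' i ≠ 0 := by
    intro s hs h
    -- the orbit of `uu s` kills `v'`
    have horb : ∀ j : ℕ, ∑ k, ((uu s ᵥ* A ^ j) k : ZMod r) * v' k = 0 := by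
      intro j
      have hk : ∀ k : ℕ, (A ^ k).map f *ᵥ v' = (q : ZMod r) ^ k • v' := by
        intro k
        induction k with
        | zero => simp [Matrix.map_one]
        | succ k ih =>
          rw [pow_succ' A, Matrix.map_mul, ← Matrix.mulVec_mulVec, ih, Matrix.mulVec_smul, he', smul_smul, pow_succ]
      have h0 : (fun k => (uu s k : ZMod r)) ⬝ᵥ v' = 0 := by
        have h1 : (fun k => ((coefVec C s ᵥ* B6) k : ZMod r)) = (fun k => (coefVec C s k : ZMod r)) ᵥ* B6.map f := by
          funext k; simp [Matrix.vecMul, dotProduct, f]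
        have h2 : (fun k => (uu s k : ZMod r)) =
            (fun k => (coefVec C s k : ZMod r)) - (fun k => (coefVec C s k : ZMod r)) ᵥ* B6.map f := by
          rw [← h1]; funext k; simp [uu]
        have h3 : (fun k => (coefVec C s k : ZMod r)) ⬝ᵥ v' = 0 := h
        rw [h2, sub_dotProduct, ← Matrix.dotProduct_mulVec, hv6, dotProduct_neg, h3, neg_zero, sub_zero]
      have h1 : (fun k => ((uu s ᵥ* A ^ j) k : ZMod r)) = (fun k => (uu s k : ZMod r)) ᵥ* (A ^ j).map f := by
        funext k; simp [Matrix.vecMul, dotProduct, f]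
      show (fun k => ((uu s ᵥ* A ^ j) k : ZMod r)) ⬝ᵥ v' = 0
      rw [h1, ← Matrix.dotProduct_mulVec, hk, dotProduct_smul, h0, smul_zero]
    let Xm : Matrix (Fin 4) (Fin 4) ℤ :=
      fun j i => e6X (act chevE6 (wordPow (L₁.map Fin.val) j) s) i
    let Cm : Matrix (Fin 4) (Fin 4) ℤ := fun i j => d4Inv i j
    have hlt : ∀ j : ℕ, act chevE6 (wordPow (L₁.map Fin.val) j) s < chevE6.nroots :=
      fun j => C.act_lt (wordPow_lt (valMap_lt C L₁) j) hs
    have hrow : ∀ (j : Fin 4) (i : Fin 4), (Xm * Cm) j i = (uu s ᵥ* A ^ (j : ℕ)) (e6e4 i) := fun j i => by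
      rw [huA s hs, (huu _ (hlt j)).2 i]; rfl
    have hdC : Cm.det = 4 := by decide +kernel
    have hne : Xm.det ≠ 0 := by
      intro h0
      obtain ⟨c, hc0, hc1⟩ := Matrix.exists_vecMul_eq_zero_iff.mpr
        (show (Xm * Cm).det = 0 by rw [Matrix.det_mul, h0, zero_mul])
      let p : ℤ[X] := ∑ j : Fin 4, Polynomial.C (c j) * X ^ (j : ℕ)
      have hp0 : p ≠ 0 := by
        obtain ⟨i, hi⟩ := Function.ne_iff.mp hc0
        intro h
        have := congrArg (fun x => x.coeff (i : ℕ)) h
        simp [p, coeff_X_pow, Fin.val_inj] at this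
        exact hi this
      have hup : uu s ᵥ* Polynomial.aeval A p = 0 := by
        have hsum : uu s ᵥ* Polynomial.aeval A p = ∑ j : Fin 4, c j • (uu s ᵥ* A ^ (j : ℕ)) := by
          simp only [p, map_sum, map_mul, aeval_C, aeval_X_pow, Matrix.vecMul_sum, ← Algebra.smul_def,
            Matrix.vecMul_smul]
        rw [hsum]
        funext k
        rw [Finset.sum_apply, Pi.zero_apply]
        by_cases hk : k ∈ e6D4
        · obtain ⟨i, rfl⟩ := he4' k hk
          refine Eq.trans ?_ (congrFun hc1 i)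
          show _ = ∑ j : Fin 4, c j * (Xm * Cm) j i
          exact Finset.sum_congr (s₁ := (Finset.univ : Finset (Fin 4))) rfl fun j _ => by
            rw [Pi.smul_apply, smul_eq_mul, hrow]
        · refine Finset.sum_eq_zero fun j _ => ?_
          rw [Pi.smul_apply, huA s hs, (huu _ (hlt j)).1 k hk, smul_zero]
      let g : ℤ →+* ℚ := Int.castRingHom ℚ
      have hmap : ∀ R : ℤ[X], Polynomial.aeval (A.map g) (R.map g) = (Polynomial.aeval A R).map g := by
        intro R
        induction R using Polynomial.induction_on' with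
        | add x y hx hy => rw [Polynomial.map_add, map_add, map_add, Matrix.map_add _ (map_add g), hx, hy]
        | monomial n c =>
          rw [Polynomial.map_monomial, aeval_monomial, aeval_monomial, Matrix.map_mul, Matrix.map_pow,
            Matrix.algebraMap_eq_diagonal, Matrix.algebraMap_eq_diagonal, Matrix.diagonal_map (map_zero g)]
          congr 1
      let u' : Fin chevE6.rank → ℚ := fun i => (uu s i : ℚ)
      have hz : ∀ R : ℤ[X], uu s ᵥ* Polynomial.aeval A R = 0 → u' ᵥ* Polynomial.aeval (A.map g) (R.map g) = 0 := by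
        intro R hR
        rw [hmap]
        funext i
        have h2 := congrFun hR i
        simp only [Matrix.vecMul, dotProduct, Pi.zero_apply] at h2
        simp only [Matrix.vecMul, dotProduct, u', g, Matrix.map_apply, eq_intCast, Pi.zero_apply]
        exact_mod_cast h2
      have huP : uu s ᵥ* Polynomial.aeval A (cyclotomic 12 ℤ) = 0 := by
        have h6 : uu s ᵥ* Polynomial.aeval A (cyclotomic 12 ℤ * (X ^ 2 + 1)) = 0 := by
          rw [show cyclotomic 12 ℤ * (X ^ 2 + 1) = (X : ℤ[X]) ^ 6 + 1 by rw [cyclotomic_twelve]; ring, map_add,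
            map_pow, aeval_X, map_one, Matrix.vecMul_add, Matrix.vecMul_one, hpow, huB s hs, neg_add_cancel]
        have h7 : (cyclotomic 12 ℤ : ℤ[X]) = cyclotomic 12 ℤ * (X ^ 2 + 1) * (X + 1)
            + cyclotomic 12 ℤ * (X ^ 2 + X + 1) * (-X) := by ring
        rw [h7, map_add, Matrix.vecMul_add, map_mul _ (cyclotomic 12 ℤ * (X ^ 2 + 1)), ← Matrix.vecMul_vecMul, h6,
          Matrix.zero_vecMul, map_mul _ (cyclotomic 12 ℤ * (X ^ 2 + X + 1)), hCH, zero_mul, Matrix.vecMul_zero,
          add_zero]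
      have hirr : Irreducible ((cyclotomic 12 ℤ).map g) :=
        (IsPrimitive.Int.irreducible_iff_irreducible_map_cast (cyclotomic.monic 12 ℤ).isPrimitive).mp
          (cyclotomic.irreducible (by norm_num))
      have hcop : IsCoprime ((cyclotomic 12 ℤ).map g) (p.map g) := hirr.coprime_iff_not_dvd.mpr fun hd => by
        have h1 := natDegree_le_of_dvd hd ((Polynomial.map_ne_zero_iff g.injective_int).mpr hp0)
        rw [(cyclotomic.monic 12 ℤ).natDegree_map g, natDegree_cyclotomic, show Nat.totient 12 = 4 by decide,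
          natDegree_map_eq_of_injective g.injective_int] at h1
        have h2 : p.natDegree < 4 := (natDegree_lt_iff_degree_lt hp0).mpr (degree_sum_fin_lt _)
        omega
      obtain ⟨a, b, hab⟩ := hcop
      have h3 : (1 : ℚ[X]) = (cyclotomic 12 ℤ).map g * a + p.map g * b := by linear_combination -hab
      have h4 := congrArg (fun x => u' ᵥ* Polynomial.aeval (A.map g) x) h3
      simp only [map_one, Matrix.vecMul_one, map_add, Matrix.vecMul_add, map_mul, ← Matrix.vecMul_vecMul,
        hz _ huP, hz _ hup, Matrix.zero_vecMul, add_zero] at h4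
      exact hu0 s hs (funext fun i => by simpa [u'] using congrFun h4 i)
    let M₀ : Matrix (Fin 4) (Fin 4) ℤ := fun i j =>
      ([[2, 1, 2, 1], [0, 3, 2, 1], [0, 0, 2, 1], [0, 0, 0, 1]].getD i []).getD j 0
    let δ₀ : Fin 4 → ℤ := fun i => [3, 1, 2, 6].getD i 0
    have hle : Xm.det ^ 2 * Cm.det ≤ (4 : ℤ) ^ 4 :=
      det_sq_mul_det_le (l := 4) (by norm_num) Cm M₀ Xm (K := 6) (by norm_num) δ₀ (by decide +kernel)
        (by decide +kernel) fun j => by
          refine le_trans (le_of_eq ?_) (e6X_norm ⟨_, hlt j⟩)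
          simp only [Matrix.mul_apply, Matrix.transpose_apply, Finset.sum_mul]
          rw [Finset.sum_comm]
    rw [hdC] at hle
    have h8 : |Xm.det| ≤ 8 := abs_le_of_sq_le_sq (by linarith) (by norm_num)
    have hdet : ((Xm * Cm).det : ZMod r) ≠ 0 := by
      intro h0
      rw [ZMod.intCast_zmod_eq_zero_iff_dvd, Matrix.det_mul, hdC] at h0
      have hp : Prime (r : ℤ) := Nat.prime_iff_prime_int.mp Fact.out
      rcases hp.dvd_mul.mp h0 with h0 | h0
      · have := Int.le_of_dvd (abs_pos.mpr hne) ((dvd_abs _ _).mpr h0)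
        omega
      · have := Int.le_of_dvd (by norm_num) h0
        omega
    have hvJ : ∀ i : Fin 4, v' (e6e4 i) = 0 := by
      have h1 : (Xm * Cm).map (Int.castRingHom (ZMod r)) *ᵥ (fun i => v' (e6e4 i)) = 0 := by
        funext j
        show ∑ i, (((Xm * Cm) j i : ℤ) : ZMod r) * v' (e6e4 i) = 0
        have hinj : Function.Injective e6e4 := by decide +kernel
        rw [← horb j, ← Finset.sum_subset (Finset.subset_univ e6D4) (fun k _ hk => by
          rw [huA s hs, (huu _ (hlt j)).1 k hk, Int.cast_zero, zero_mul])]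
        refine Finset.sum_bij (fun k _ => e6e4 k) (fun k _ => he4 k) (fun a _ b _ h => hinj h)
          (fun k hk => ?_) (fun k _ => by rw [hrow])
        obtain ⟨i, hi⟩ := he4' k hk
        exact ⟨i, Finset.mem_univ _, hi⟩
      intro i
      have h2 := det_mul_eq_zero _ h1 i
      rw [← RingHom.mapMatrix_apply, ← RingHom.map_det, eq_intCast] at h2
      exact (mul_eq_zero.mp h2).resolve_left hdet
    refine hv'0 (funext fun k => ?_)
    by_cases hk : k ∈ e6D4
    · obtain ⟨i, rfl⟩ := he4' k hk; exact hvJ i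
    · have h1 := congrFun hv6 k
      rw [Pi.neg_apply] at h1
      have h2 : (B6.map f *ᵥ v') k = v' k := by
        show ∑ i, ((B6 k i : ℤ) : ZMod r) * v' i = v' k
        rw [Finset.sum_eq_single k]
        · rw [show B6 k k = 1 by
            show C.coef (act chevE6 (L₆.map Fin.val) (chevE6.simple k)) k = 1
            rw [coef_act_of_notMem C e6D4 hL₆ (C.simple_lt k k.isLt) hk, C.coef_simple k k.isLt k k.isLt, if_pos rfl],
            Int.cast_one, one_mul]
        · intro i _ hi
          by_cases hiD : i ∈ e6D4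
          · obtain ⟨i', rfl⟩ := he4' i hiD; rw [hvJ, mul_zero]
          · rw [show B6 k i = 0 by
              show C.coef (act chevE6 (L₆.map Fin.val) (chevE6.simple k)) i = 0
              rw [coef_act_of_notMem C e6D4 hL₆ (C.simple_lt k k.isLt) hiD, C.coef_simple k k.isLt i i.isLt,
                if_neg fun e : (i : ℕ) = k => hi (Fin.ext e)], Int.cast_zero, zero_mul]
        · simp
      rw [h2] at h1
      have h3 : (2 : ZMod r) * v' k = 0 := by linear_combination h1
      refine (mul_eq_zero.mp h3).resolve_left fun h => ?_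
      have h4 := (ZMod.natCast_eq_zero_iff 2 r).mp (by exact_mod_cast h)
      have := Nat.le_of_dvd (by norm_num) h4
      omega
  have hLw : ∀ i ∈ Lw.map Fin.val, i < chevE6.rank := valMap_lt C Lw
  constructor
  · intro s hs
    have hLr : ∀ i ∈ (Lw.map Fin.val).reverse, i < chevE6.rank := fun i hi => hLw i (List.mem_reverse.mp hi)
    have h1 := hreg' _ (C.act_lt hLr hs)
    intro h0
    refine h1 ?_
    show (fun k => ((coefVec C _ k : ℤ) : ZMod r)) ⬝ᵥ v' = 0
    have h2 : (fun k => ((coefVec C (act chevE6 (Lw.map Fin.val).reverse s) k : ℤ) : ZMod r)) =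
        (fun k => (coefVec C s k : ZMod r)) ᵥ* Ui.map f := by
      rw [coefVec_act C hLr hs, ← hUi]
      funext k; simp [Matrix.vecMul, dotProduct, f]
    rw [h2, hv', ← Matrix.dotProduct_mulVec, Matrix.mulVec_mulVec, ← Matrix.map_mul, hU2,
      Matrix.map_one _ (map_zero f) (map_one f), Matrix.one_mulVec]
    exact h0
  · have hp0 : chevE6.simple ((0 : Fin 6) : ℕ) < chevE6.nroots := C.simple_lt _ (show 0 < chevE6.rank by decide)
    set α := chevE6.simple ((0 : Fin 6) : ℕ) with hα
    set s := act chevE6 (Lw.map Fin.val) α with hs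
    have hslt : s < chevE6.nroots := C.act_lt hLw hp0
    have hwQ : coefVec C α ᵥ* Polynomial.aeval A ((X : ℤ[X]) ^ 2 + X + 1) ≠ 0 := by
      intro h
      refine hu0 α hp0 ?_
      have h6 : coefVec C α ᵥ* B6 = coefVec C α := by
        have h1 : coefVec C α ᵥ* Polynomial.aeval A ((X : ℤ[X]) ^ 6 - 1) = 0 := by
          rw [show (X : ℤ[X]) ^ 6 - 1 = (X ^ 2 + X + 1) * ((X - 1) * (X ^ 3 + 1)) by ring, map_mul,
            ← Matrix.vecMul_vecMul, h, Matrix.zero_vecMul]
        rw [map_sub, map_pow, aeval_X, map_one, Matrix.vecMul_sub, Matrix.vecMul_one, hpow, sub_eq_zero] at h1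
        exact h1
      show coefVec C α - coefVec C α ᵥ* B6 = 0
      rw [h6, sub_self]
    have hwP : coefVec C α ᵥ* Polynomial.aeval A (cyclotomic 12 ℤ) ≠ 0 := by
      intro h
      have h6 : coefVec C α ᵥ* B6 = - coefVec C α := by
        have h1 : coefVec C α ᵥ* Polynomial.aeval A ((X : ℤ[X]) ^ 6 + 1) = 0 := by
          rw [show (X : ℤ[X]) ^ 6 + 1 = cyclotomic 12 ℤ * (X ^ 2 + 1) by rw [cyclotomic_twelve]; ring, map_mul,
            ← Matrix.vecMul_vecMul, h, Matrix.zero_vecMul]
        rw [map_add, map_pow, aeval_X, map_one, Matrix.vecMul_add, Matrix.vecMul_one, hpow] at h1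
        exact eq_neg_of_add_eq_zero_left h1
      have h7 := congrFun h6 (⟨0, by decide⟩ : Fin chevE6.rank)
      rw [← coefVec_act C (valMap_lt C L₆) hp0] at h7
      have h8 : (⟨0, by decide⟩ : Fin chevE6.rank) ∉ e6D4 := by decide +kernel
      simp only [coefVec, Pi.neg_apply] at h7
      rw [coef_act_of_notMem C e6D4 hL₆ hp0 h8] at h7
      have h9 : C.coef (chevE6.simple 0) 0 = - C.coef (chevE6.simple 0) 0 := h7
      rw [C.coef_simple 0 (show 0 < chevE6.rank by decide) 0 (show 0 < chevE6.rank by decide)] at h9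
      simp at h9
    have hdeg : chevE6.rank = (cyclotomic 12 ℤ).natDegree + ((X : ℤ[X]) ^ 2 + X + 1).natDegree := by
      rw [← cyclotomic_three_Z, natDegree_cyclotomic, natDegree_cyclotomic]; decide
    have hV := det_orbitMat_ne_zero_of_two A (cyclotomic 12 ℤ) (X ^ 2 + X + 1) (cyclotomic.monic _ _)
      (cyclotomic_three_Z ▸ cyclotomic.monic 3 ℤ) (cyclotomic.irreducible (by norm_num))
      (cyclotomic_three_Z ▸ cyclotomic.irreducible (by norm_num)) hCH hdeg hwP hwQ
    have hAU : ∀ j : ℕ, A ^ j * U = U * A₀ ^ j := by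
      intro j
      induction j with
      | zero => rw [pow_zero, pow_zero, Matrix.one_mul, Matrix.mul_one]
      | succ j ih =>
        have h1 : A * U = U * A₀ := by rw [hA₁, Matrix.mul_assoc, hU2, Matrix.mul_one]
        rw [pow_succ, Matrix.mul_assoc, h1, ← Matrix.mul_assoc, ih, Matrix.mul_assoc, ← pow_succ]
    have hVeq : orbitMat A₀ (coefVec C s) = orbitMat A (coefVec C α) * U := by
      refine Matrix.ext fun j k => ?_
      show (coefVec C s ᵥ* A₀ ^ (j : ℕ)) k = ((coefVec C α ᵥ* A ^ (j : ℕ)) ᵥ* U) k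
      rw [hs, coefVec_act C hLw hp0, ← hU, Matrix.vecMul_vecMul, Matrix.vecMul_vecMul, hAU]
    refine ⟨s, hslt, ?_, ?_⟩
    · rw [hVeq, Matrix.det_mul]
      exact mul_ne_zero hV (actMat_det C _ hLw).ne_zero
    · let M₀ : Matrix (Fin chevE6.rank) (Fin chevE6.rank) ℤ := fun i j =>
        ([[2, 0, -1, 0, 0, 0], [0, 2, 0, -1, 0, 0], [0, 0, 3, -2, 0, 0], [0, 0, 0, 5, -6, 0], [0, 0, 0, 0, 4, -5],
          [0, 0, 0, 0, 0, 1]].getD i []).getD j 0
      let δ₀ : Fin chevE6.rank → ℤ := fun i => [30, 30, 10, 2, 3, 45].getD i 0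
      have hle := det_sq_mul_det_le (l := chevE6.rank) (by decide)
        (Matrix.of fun i j : Fin chevE6.rank => (1 : ℤ) * chevE6.cartan i (chevE6.simple j)) M₀
        (orbitMat A₀ (coefVec C s)) (K := 60) (by norm_num) δ₀ (by decide +kernel) (by decide +kernel)
        (c := 2) (fun i => ?_)
      · have hd3 : (3 : ℤ) ≤ (Matrix.of fun i j : Fin chevE6.rank => (1 : ℤ) * chevE6.cartan i (chevE6.simple j)).det := by
          simp only [one_mul]; exact e6_cartan_det
        have h64 : (orbitMat A₀ (coefVec C s)).det ^ 2 * 3 ≤ 64 := le_trans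
          (mul_le_mul_of_nonneg_left hd3 (sq_nonneg _)) (hle.trans (le_of_eq (show (2 : ℤ) ^ chevE6.rank = 64 by decide +kernel)))
        exact natAbs_le_four h64
      · have hrow : orbitMat A₀ (coefVec C s) i = coefVec C (act chevE6 (wordPow (L.map Fin.val) i) s) := by
          rw [coefVec_act C (wordPow_lt (valMap_lt C L) _) hslt, actMat_wordPow C (valMap_lt C L)]
          rfl
        have hlt := C.act_lt (wordPow_lt (valMap_lt C L) (i : ℕ)) hslt
        refine le_trans (le_of_eq ?_) (norm_le C (fun _ => 1) (fun a b => by rw [one_mul, one_mul]; exact e6Cartan_symm a b)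
          (fun _ => le_rfl) hlt)
        simp only [Matrix.mul_apply, Matrix.of_apply, Matrix.transpose_apply, hrow, coefVec, Finset.sum_mul]
        rw [Finset.sum_comm]
        refine Finset.sum_congr rfl fun a _ => ?_
        rw [C.cartan_linear a a.isLt _ hlt, Finset.sum_range, Finset.mul_sum, Finset.mul_sum]
        exact Finset.sum_congr rfl fun b _ => by ring

end

end Cfsg.Agent.Chars2.SingerTorus
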