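import Cfsg.Agent.Chars2.SingerTorus.Exceptional
import Cfsg.Agent.Chars2.SingerTorus.E6Regular
import Cfsg.Agent.Chars2.SingerTorus.Cover
import Cfsg.Agent.KnownA.Cover.EmbedCases

/-!
A cyclic self-centralising torus of `E₆(q)` of order `Φ₁₂(q) Φ₃(q) / (3, q - 1)`.
-/

set_option autoImplicit false
set_option linter.unusedSectionVars false

universe u

namespace Cfsg.Agent.Chars2.SingerTorus

open Cfsg.Lie Cfsg.Agent.Chev Cfsg.Agent.Chars2.Homocyclic Cfsg.Agent.KnownA.Cover Matrix Polynomial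
open scoped MatrixGroups Pointwise

/-- An eigenvalue of order `d` modulo `r` gives the `d`-th cyclotomic factor. -/
theorem cyclotomic_dvd_charpoly {l : ℕ} (A : Matrix (Fin l) (Fin l) ℤ) {M d r : ℕ} [Fact r.Prime] (hrM : ¬ r ∣ M)
    (hA : A ^ M = 1) {q : ℕ} (hd : orderOf (q : ZMod r) = d) (hd0 : 0 < d)
    {v : Fin l → ZMod r} (hv : v ≠ 0)
    (he : A.map (Int.castRingHom (ZMod r)) *ᵥ v = (q : ZMod r) • v) :
    cyclotomic d ℤ ∣ A.charpoly := by
  classical
  set f := Int.castRingHom (ZMod r)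
  have hM : M ≠ 0 := fun h => hrM (h ▸ dvd_zero r)
  have hk : ∀ k : ℕ, ((A.map f) ^ k) *ᵥ v = (q : ZMod r) ^ k • v := by
    intro k
    induction k with
    | zero => simp
    | succ k ih => rw [pow_succ' (A.map f), ← Matrix.mulVec_mulVec, ih, Matrix.mulVec_smul, he, smul_smul, pow_succ]
  have hdM : d ∣ M := by
    rw [← hd, orderOf_dvd_iff_pow_eq_one]
    have h1 := hk M
    rw [← Matrix.map_pow, hA, Matrix.map_one _ (map_zero f) (map_one f), Matrix.one_mulVec] at h1
    obtain ⟨i, hi⟩ := Function.ne_iff.mp hv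
    have h2 := congrFun h1 i
    rw [Pi.smul_apply, smul_eq_mul] at h2
    exact (mul_eq_right₀ hi).mp h2.symm
  have heval : (A.charpoly.map f).eval (q : ZMod r) = 0 := by
    rw [← Matrix.charpoly_map, Matrix.eval_charpoly]
    refine Matrix.exists_mulVec_eq_zero_iff.mp ⟨v, hv, ?_⟩
    rw [Matrix.sub_mulVec, he]
    funext i
    simp [Matrix.scalar_apply, Matrix.mulVec_diagonal]
  set P := cyclotomic d ℤ with hP
  set rest := ∏ i ∈ M.divisors.erase d, cyclotomic i ℤ with hrest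
  have hsplit : P * rest = X ^ M - 1 := by
    rw [← prod_cyclotomic_eq_X_pow_sub_one (Nat.pos_of_ne_zero hM) ℤ, hrest, hP]
    exact Finset.mul_prod_erase _ (fun i => cyclotomic i ℤ) (Nat.mem_divisors.mpr ⟨hdM, hM⟩)
  by_contra hnd
  obtain ⟨k, hk'⟩ : A.charpoly ∣ P ^ l * rest ^ l := by
    rw [← mul_pow, hsplit]; exact charpoly_dvd_pow A hM hA
  obtain ⟨k', rfl⟩ : P ^ l ∣ k :=
    (cyclotomic.irreducible hd0).prime.pow_dvd_of_dvd_mul_left l hnd ⟨_, hk'.symm⟩
  have h2 : A.charpoly * k' = rest ^ l := by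
    refine mul_left_cancel₀ (pow_ne_zero l (cyclotomic_ne_zero d ℤ)) ?_
    rw [hk']; ring
  have h3 : ((rest ^ l).map f).eval (q : ZMod r) = 0 := by
    rw [← h2, Polynomial.map_mul, eval_mul, heval, zero_mul]
  rw [Polynomial.map_pow, eval_pow] at h3
  have h4 := eq_zero_of_pow_eq_zero h3
  rw [hrest, Polynomial.map_prod, eval_prod, Finset.prod_eq_zero_iff] at h4
  obtain ⟨i, hi, h0⟩ := h4
  obtain ⟨hne, hiM⟩ := Finset.mem_erase.mp hi
  haveI : NeZero (i : ZMod r) :=
    ⟨fun h => hrM (((ZMod.natCast_eq_zero_iff _ _).mp h).trans (Nat.dvd_of_mem_divisors hiM))⟩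
  rw [map_cyclotomic] at h0
  exact hne ((isRoot_cyclotomic_iff.mp h0).eq_orderOf.trans hd)

theorem torusHom_inj_E6 {K : Type} [Field K] : Function.Injective (torusHom (K := K) certE6 cornerE6) :=
  torusHom_inj (K := K) certE6 certE7 cornerE6 embE67 (by decide +kernel)
    (!![0, -1, 1, 0, 0, 0; -1, -1, 1, 0, 0, 0; -1, -2, 2, 0, 0, 0; -2, -3, 2, 0, 0, 0; -2, -3, 1, -1, 0, 0; -2, -3, 0, -2, -1, 0; -2, -3, -1, -3, -2, -1] : Matrix (Fin 7) (Fin 6) ℤ)
    (by decide +kernel)

theorem det_cartT_E6 : (cartT chevE6).det = 3 := by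
  decide +kernel

theorem twelve_mod_two : ∀ a : ZMod 2, a ^ 4 - a ^ 2 + 1 ≠ 0 := by decide

theorem twelve_mod_three : ∀ a : ZMod 3, a ^ 4 - a ^ 2 + 1 ≠ 0 := by decide

/-- The congruences of `Φ₁₂(q) Φ₃(q)`. -/
theorem six_coprime (q : ℕ) :
    ¬ 2 ∣ (q ^ 4 - q ^ 2 + 1) * (q ^ 2 + q + 1) ∧ ¬ 9 ∣ (q ^ 4 - q ^ 2 + 1) * (q ^ 2 + q + 1) ∧
      (¬ 3 ∣ q - 1 → 1 ≤ q → ¬ 3 ∣ (q ^ 4 - q ^ 2 + 1) * (q ^ 2 + q + 1)) := by
  have h24 : q ^ 2 ≤ q ^ 4 := by
    rcases Nat.eq_zero_or_pos q with rfl | h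
    · simp
    · exact Nat.pow_le_pow_right h (by norm_num)
  have key : ∀ m : ℕ, m ∣ (q ^ 4 - q ^ 2 + 1) * (q ^ 2 + q + 1) →
      ((q : ZMod m) ^ 4 - (q : ZMod m) ^ 2 + 1) * ((q : ZMod m) ^ 2 + q + 1) = 0 := by
    intro m h
    have h1 := (ZMod.natCast_eq_zero_iff _ m).mpr h
    push_cast [Nat.cast_sub h24] at h1
    exact h1
  refine ⟨fun h => ?_, fun h => ?_, fun h3 h1 h => ?_⟩
  · revert h; intro h; have := key 2 h; revert this; generalize (q : ZMod 2) = a; revert a; decide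
  · have := key 9 h; revert this; generalize (q : ZMod 9) = a; revert a; decide
  · have hq1 : (q : ZMod 3) ≠ 1 := fun e => h3 ((ZMod.natCast_eq_zero_iff _ 3).mp (by
      rw [Nat.cast_sub h1, e, Nat.cast_one, sub_self]))
    have := key 3 h
    revert hq1 this; generalize (q : ZMod 3) = a; revert a; decide

set_option maxHeartbeats 2000000 in
/-- A cyclic self-centralising subgroup of `E₆(q)`. -/
theorem selfCentralizingE6 {F : Type u} [Field F] [Fintype F] :
    ∃ H : Subgroup ↥(chevE6.group F), IsCyclic ↥H ∧ Nat.card ↥H =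
        (Fintype.card F ^ 4 - Fintype.card F ^ 2 + 1) * (Fintype.card F ^ 2 + Fintype.card F + 1) /
          Nat.gcd 3 (Fintype.card F - 1) ∧
      Subgroup.centralizer (H : Set ↥(chevE6.group F)) = H := by
  classical
  set q := Fintype.card F with hqdef
  have hq : 2 ≤ q := Fintype.one_lt_card
  have h24 : q ^ 2 ≤ q ^ 4 := Nat.pow_le_pow_right (by omega) (by norm_num)
  have hev : ((cyclotomic 12 ℤ).eval (q : ℤ)) = ((q ^ 4 - q ^ 2 + 1 : ℕ) : ℤ) := by
    rw [cyclotomic_twelve]; push_cast [Nat.cast_sub h24]; simp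
  obtain ⟨r, hrp, hrm⟩ : ∃ r : ℕ, r.Prime ∧ r ∣ q ^ 4 - q ^ 2 + 1 := Nat.exists_prime_and_dvd (by
    have : q ^ 2 < q ^ 4 := Nat.pow_lt_pow_right (by omega) (by norm_num)
    omega)
  haveI : Fact r.Prime := ⟨hrp⟩
  have hr12 : ¬ r ∣ 12 := by
    intro h
    have h2 : r = 2 ∨ r = 3 := by
      rw [show 12 = 2 ^ 2 * 3 by norm_num] at h
      rcases hrp.dvd_mul.mp h with h | h
      · exact Or.inl ((Nat.prime_dvd_prime_iff_eq hrp Nat.prime_two).mp (hrp.dvd_of_dvd_pow h))
      · exact Or.inr ((Nat.prime_dvd_prime_iff_eq hrp Nat.prime_three).mp h)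
    have h1 : ((q : ZMod r) ^ 4 - (q : ZMod r) ^ 2 + 1 : ZMod r) = 0 := by
      have := (ZMod.natCast_eq_zero_iff _ r).mpr hrm
      push_cast [Nat.cast_sub h24] at this
      exact this
    rcases h2 with rfl | rfl
    · exact twelve_mod_two _ h1
    · exact twelve_mod_three _ h1
  have hd : orderOf (q : ZMod r) = 12 :=
    orderOf_eq_of_dvd hr12 (by rw [hev]; exact Int.natCast_dvd_natCast.mpr hrm)
  have hq0 : (q : ZMod r) ≠ 0 := fun h => by
    rw [h, orderOf_zero] at hd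
    exact absurd hd (by norm_num)
  have hrq : ¬ r ∣ q := fun h => hq0 ((ZMod.natCast_eq_zero_iff _ _).mpr h)
  have hr : 12 < r := by
    have h1 : 12 ∣ r - 1 := hd ▸ ZMod.orderOf_dvd_card_sub_one hq0
    have := Nat.le_of_dvd (by have := hrp.two_le; omega) h1
    omega
  have hrW : ¬ r ∣ [2, 5, 6, 8, 9, 12].prod := fun h => by
    rw [show [2, 5, 6, 8, 9, 12].prod = 2 ^ 7 * 3 ^ 4 * 5 by norm_num] at h
    rcases hrp.dvd_mul.mp h with h | h
    · rcases hrp.dvd_mul.mp h with h | h <;> have := Nat.le_of_dvd (by norm_num) (hrp.dvd_of_dvd_pow h) <;> omega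
    · have := Nat.le_of_dvd (by norm_num) h; omega
  have hdeg : ∀ i ∈ [2, 5, 6, 8, 9, 12], ¬ r ∣ i := fun i hi h => hrW (h.trans (List.dvd_prod hi))
  have hr2 : r ≠ 2 := by omega
  have hr3 : ¬ r ∣ 3 := fun h => by have := Nat.le_of_dvd (by norm_num) h; omega
  let C₀ : Cert.{u} chevE6 := certE6
  let C : Cert.{0} chevE6 := certE6
  -- an element of order `r`
  have hrG : r ∣ Nat.card (chevE6.group F) := by
    refine (dvd_iff_padicValNat_ne_zero Nat.card_pos.ne').mpr ?_
    rw [val_group (dataE6 hr3) hq hrq hr2 one_ne_zero (by rw [pow_one]) hdeg (fun i => 12 ∣ i)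
      (fun i _ => by rw [one_mul, hd]), padicValNat.one, add_zero]
    refine mul_ne_zero (by decide) (mval_pos hq hrq)
  obtain ⟨x, hx⟩ := exists_prime_orderOf_dvd_card' r hrG
  -- the large field
  obtain ⟨p, hp⟩ := CharP.exists F
  haveI := hp
  obtain ⟨k, hpr, hpk⟩ := FiniteField.card F p
  haveI : Fact p.Prime := ⟨hpr⟩
  haveI : NeZero [2, 5, 6, 8, 9, 12].prod := ⟨by norm_num⟩
  let K := FiniteField.Extension F p [2, 5, 6, 8, 9, 12].prod
  letI : Fintype K := Fintype.ofFinite _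
  let ι : F →+* K := algebraMap _ _
  haveI : CharP K p := charP_of_injective_ringHom ι.injective p
  let φ : K →+* K := iterateFrobenius K p k
  have hφ : ∀ t, φ t = t ^ q := fun t => by
    show iterateFrobenius K p k t = _
    rw [iterateFrobenius_def, hqdef, hpk]
  have hK : Fintype.card K = q ^ [2, 5, 6, 8, 9, 12].prod := by
    rw [← Nat.card_eq_fintype_card, FiniteField.natCard_extension, Nat.card_eq_fintype_card]
  have hdN : 12 ∣ [2, 5, 6, 8, 9, 12].prod := by norm_num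
  have hdvd : ∀ i, orderOf (q : ZMod r) ∣ [2, 5, 6, 8, 9, 12].prod * i := fun i => hd ▸ Dvd.dvd.mul_right hdN i
  obtain ⟨eK, heK, hTK'⟩ := (dataE6 (F := K) hr3).2
  have hvK : padicValNat r (Nat.card (chevE6.group K)) = padicValNat r (Nat.card (chevE6.diagonalSubgroup K)) := by
    rw [val_group (dataE6 hr3) hq hrq hr2 (by norm_num) hK hdeg (fun _ => True) (fun i _ => iff_true_intro (hdvd i)),
      val_eq_of_mul heK Nat.card_pos.ne' hTK', hK, padicValNat.pow,
      val_pow_sub_one hq hrq hr2 (by norm_num) (by simpa using hdvd 1)]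
    rw [show chevE6.rank = 6 from rfl]
    simp
  have hKr : r ∣ Fintype.card K - 1 := by
    rw [hK]; exact (dvd_pow_sub_one_iff (by omega) _).mpr (by simpa using hdvd 1)
  have hKpos : 0 < Fintype.card K - 1 := by have := Fintype.one_lt_card (α := K); omega
  haveI : NeZero (Fintype.card K - 1) := ⟨hKpos.ne'⟩
  have hreg' := exists_not_dvd_cartan (D := chevE6) (by decide +kernel) (Fact.out : r.Prime) hr2
  -- the element inside the torus
  let σ := gmap chevE6 φ
  set xK : GL chevE6.Idx K := gmap chevE6 ι (x : GL chevE6.Idx F) with hxK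
  have hxKG : xK ∈ chevE6.group K := map_group_le ι ⟨_, x.2, rfl⟩
  have hσι : ∀ z : GL chevE6.Idx F, σ (gmap chevE6 ι z) = gmap chevE6 ι z := fun z => by
    refine Units.ext (Matrix.ext fun s t => ?_)
    show φ (ι ((z : Matrix chevE6.Idx chevE6.Idx F) s t)) = ι ((z : Matrix chevE6.Idx chevE6.Idx F) s t)
    rw [hφ, ← map_pow, hqdef, FiniteField.pow_card]
  have hxo : orderOf (⟨xK, hxKG⟩ : ↥(chevE6.group K)) = r := by
    rw [Subgroup.orderOf_mk, hxK, orderOf_injective _ (gmap_injective ι), Subgroup.orderOf_coe, hx]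
  set TR := torusPart (F := K) C r with hTR
  have hTRK : TR ≤ chevE6.group K := fun t ht => C.diagonal_le_group ((mem_torusPart C r).mp ht).1
  have hTRcard : Nat.card (TR.subgroupOf (chevE6.group K)) = r ^ (Nat.card (chevE6.group K)).factorization r := by
    rw [Nat.card_congr (Subgroup.subgroupOfEquivOfLe hTRK).toEquiv, card_torusPart, Nat.factorization_def _ hrp,
      hvK]
  let PK : Sylow r ↥(chevE6.group K) := Sylow.ofCard (TR.subgroupOf (chevE6.group K)) hTRcard
  have hXpg : IsPGroup r (Subgroup.zpowers (⟨xK, hxKG⟩ : ↥(chevE6.group K))) :=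
    IsPGroup.of_card (n := 1) (by rw [Nat.card_zpowers, hxo, pow_one])
  obtain ⟨Q, hQ⟩ := hXpg.exists_le_sylow
  obtain ⟨g, hg⟩ := MulAction.exists_smul_eq ↥(chevE6.group K) Q PK
  set g' : GL chevE6.Idx K := (g : GL chevE6.Idx K) with hg'
  set y := g' * xK * g'⁻¹ with hy
  have hyTR : y ∈ TR := by
    have h1 : MulAut.conj g • (⟨xK, hxKG⟩ : ↥(chevE6.group K)) ∈
        ((g • Q : Sylow r _) : Subgroup ↥(chevE6.group K)) :=
      Subgroup.smul_mem_pointwise_smul _ _ _ (hQ (Subgroup.mem_zpowers _))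
    rw [hg] at h1
    exact h1
  have hyT : y ∈ chevE6.diagonalSubgroup K := ((mem_torusPart C r).mp hyTR).1
  have hσT : ∀ t ∈ chevE6.diagonalSubgroup K, σ t = t ^ q := by
    intro t ht
    obtain ⟨χ, -, -, et⟩ := C.diagonal_char ht
    refine Units.ext ?_
    rw [coe_gmap, et, dMat_map, Units.val_pow_eq_pow_val, et, dMat_pow]
    exact dMat_congr fun s _ => hφ _
  have hσg : σ g' ∈ chevE6.group K := map_group_le φ ⟨g', g.2, rfl⟩
  let dd : ↥(chevE6.group K) := ⟨σ g', hσg⟩ * g⁻¹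
  have hdd' : σ g' = (dd : GL chevE6.Idx K) * g' := by
    show σ g' = σ g' * g'⁻¹ * g'
    group
  have hddy : (dd : GL chevE6.Idx K) * y * (dd : GL chevE6.Idx K)⁻¹ = y ^ q := by
    rw [← hσT y hyT, hy, map_mul, map_mul, map_inv, hxK, hσι]
    show σ g' * g'⁻¹ * _ * (σ g' * g'⁻¹)⁻¹ = _
    group
  have hyK : y ∈ chevE6.group K := C.diagonal_le_group hyT
  have hTRcomm : ∀ a ∈ TR, ∀ b ∈ TR, a * b = b * a := fun a ha b hb =>
    C.diagonal_comm ((mem_torusPart C r).mp ha).1 ((mem_torusPart C r).mp hb).1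
  obtain ⟨n, hnN, hn⟩ := exists_normalizer_conj PK (fun a ha b hb => Subtype.ext (hTRcomm _ ha _ hb)) dd
    {(⟨y ^ q, pow_mem hyK q⟩ : ↥(chevE6.group K))}
    (fun a ha => by rw [Set.mem_singleton_iff.mp ha]; exact pow_mem hyTR q)
    (fun a ha => by
      rw [Set.mem_singleton_iff.mp ha]
      show (dd : GL chevE6.Idx K)⁻¹ * y ^ q * (dd : GL chevE6.Idx K) ∈ TR
      rw [← hddy]
      convert hyTR using 1
      group)
  set n' : GL chevE6.Idx K := (n : GL chevE6.Idx K) with hn'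
  have hny : n' * y * n'⁻¹ = y ^ q := by
    have h1 : n'⁻¹ * y ^ q * n' = (dd : GL chevE6.Idx K)⁻¹ * y ^ q * dd :=
      congrArg Subtype.val (hn _ rfl)
    conv at h1 => rhs; rw [← hddy]
    rw [show (dd : GL chevE6.Idx K)⁻¹ * ((dd : GL chevE6.Idx K) * y * (dd : GL chevE6.Idx K)⁻¹) * dd = y by group] at h1
    calc n' * y * n'⁻¹ = n' * (n'⁻¹ * y ^ q * n') * n'⁻¹ := by rw [h1]
      _ = y ^ q := by group
  have hnmono : n' ∈ chevE6.monomialSubgroup K := by
    refine monomial_of_normalizes C r coxE6 hreg' hKr n.2 fun t => ⟨fun ht => ?_, fun ht => ?_⟩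
    · exact (Subgroup.mem_normalizer_iff.mp hnN ⟨t, hTRK ht⟩).mp ht
    · have htK : t ∈ chevE6.group K := by
        have := mul_mem (mul_mem (inv_mem n.2) (hTRK ht)) n.2
        rwa [show (n : GL chevE6.Idx K)⁻¹ * ((n : GL chevE6.Idx K) * t * (n : GL chevE6.Idx K)⁻¹) * n = t by group] at this
      exact (Subgroup.mem_normalizer_iff.mp hnN ⟨t, htK⟩).mpr ht
  obtain ⟨L, h₁, hh₁, en⟩ := C.exists_word coxE6 hnmono
  obtain ⟨P⟩ := nonempty_logCoord C (K := K)
  set A := actMat C (L.reverse.map Fin.val) with hA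
  have hA' : actMat C (L.map Fin.val).reverse = A := by rw [hA, List.map_reverse]
  -- the eigenvector modulo `r`
  obtain ⟨j, hj, hjsurj⟩ := exists_torsionHom hKpos hKr
  have hyr : y ^ r = 1 := by
    have hx1 : xK ^ r = 1 := congrArg Subtype.val (orderOf_dvd_iff_pow_eq_one.mp hxo.dvd)
    rw [hy, conj_pow, hx1, mul_one, mul_inv_cancel]
  have hlgr : r • (P.lg ⟨y, hyT⟩).toAdd = 0 := by
    rw [← toAdd_pow, ← map_pow, show (⟨y, hyT⟩ : ↥(chevE6.diagonalSubgroup K)) ^ r = 1 from Subtype.ext hyr, map_one,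
      toAdd_one]
  choose v hv using fun i => hjsurj ((P.lg ⟨y, hyT⟩).toAdd i) (congrFun hlgr i)
  have hv' : (P.lg ⟨y, hyT⟩).toAdd = fun i => j (v i) := funext fun i => (hv i).symm
  have hv0 : v ≠ 0 := by
    intro h
    have h1 : P.lg ⟨y, hyT⟩ = 1 := Multiplicative.toAdd.injective (by
      rw [hv', h]; funext i; simp)
    have h2 : y = 1 := congrArg Subtype.val ((map_eq_one_iff _ P.inj).mp h1)
    have h3 : xK = 1 := by
      rw [hy] at h2
      exact mul_eq_left.mp (mul_inv_eq_one.mp h2)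
    have h4 : orderOf (⟨xK, hxKG⟩ : ↥(chevE6.group K)) = 1 := orderOf_eq_one_iff.mpr (Subtype.ext h3)
    rw [hxo] at h4
    exact hrp.one_lt.ne' h4
  have hlgy : A.map (Int.castRingHom (ZMod (Fintype.card K - 1))) *ᵥ (P.lg ⟨y, hyT⟩).toAdd =
      (q : ZMod (Fintype.card K - 1)) • (P.lg ⟨y, hyT⟩).toAdd := by
    have hm : C.nWordElt K (L.map Fin.val) * h₁ * y * (C.nWordElt K (L.map Fin.val) * h₁)⁻¹ ∈
        chevE6.diagonalSubgroup K := by
      rw [← en, hny]; exact pow_mem hyT q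
    have h1 := P.lg_conj (C.fin_word_lt L) hh₁ ⟨y, hyT⟩ hm
    have h2 : (⟨_, hm⟩ : ↥(chevE6.diagonalSubgroup K)) = (⟨y, hyT⟩ : ↥(chevE6.diagonalSubgroup K)) ^ q :=
      Subtype.ext (show C.nWordElt K (L.map Fin.val) * h₁ * y * (C.nWordElt K (L.map Fin.val) * h₁)⁻¹ = y ^ q by
        rw [← en, hny])
    rw [h2, map_pow, toAdd_pow, hA'] at h1
    rw [← h1]
    exact (Nat.cast_smul_eq_nsmul _ _ _).symm
  have heig : A.map (Int.castRingHom (ZMod r)) *ᵥ v = (q : ZMod r) • v := by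
    rw [hv'] at hlgy
    funext i
    refine hj ?_
    have h2 := congrFun hlgy i
    simp only [Matrix.mulVec, dotProduct, Matrix.map_apply, eq_intCast, Pi.smul_apply, smul_eq_mul] at h2 ⊢
    rw [map_sum]
    calc ∑ k, j ((A i k : ZMod r) * v k) = ∑ k, (A i k : ZMod (Fintype.card K - 1)) * j (v k) :=
          Finset.sum_congr rfl fun k _ => by rw [← zsmul_eq_mul, ← zsmul_eq_mul, map_zsmul]
      _ = _ := h2
      _ = _ := by rw [← nsmul_eq_mul, ← nsmul_eq_mul, map_nsmul]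
  obtain ⟨N, hrN, hN⟩ := exists_pow_mem_diagonal C r hvK
  have hAN : A ^ N = 1 :=
    actMat_pow_eq_one C (F := K) (C.fin_word_lt L.reverse) (hN _ (C.nWordElt_mem (C.fin_word_lt L.reverse)))
  have hN0 : N ≠ 0 := fun h => hrN (h ▸ dvd_zero r)
  have hchar := charpoly_E6 C L.reverse hN0 hAN (cyclotomic_dvd_charpoly A hrN hAN hd (by norm_num) hv0 heig)
  obtain ⟨hregv, s₀, hs₀, hdet0, hdet4⟩ := regular_E6 C L.reverse hN0 hAN hchar hr hd hv0 heig
  have hCy : ∀ z ∈ chevE6.group K, y * z = z * y → z ∈ chevE6.diagonalSubgroup K := fun z hz hcz =>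
    mem_diagonal_of_commute P coxE6 hrN hN j hj (y := ⟨y, hyT⟩) hv' hregv hz hcz
  have hh' : n'⁻¹ * (dd : GL chevE6.Idx K) ∈ chevE6.diagonalSubgroup K := by
    refine hCy _ (mul_mem (inv_mem n.2) dd.2) ?_
    have e2 : n'⁻¹ * y ^ q * n' = y := by rw [← hny]; group
    calc y * (n'⁻¹ * dd) = n'⁻¹ * y ^ q * n' * (n'⁻¹ * dd) := by rw [e2]
      _ = n'⁻¹ * y ^ q * dd := by group
      _ = n'⁻¹ * ((dd : GL chevE6.Idx K) * y * (dd : GL chevE6.Idx K)⁻¹) * dd := by rw [hddy]
      _ = _ := by group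
  -- the torus of Steinberg's group
  obtain ⟨R, Z, hR, hRB, hRZ⟩ := exists_conj_mat (K := K) C cornerE6 L
  obtain ⟨gt, hgt⟩ := thetaSt_surjective C g
  set ψφ := stMap chevE6 φ with hψφ
  set dt := ψφ gt * gt⁻¹ with hdt
  have hgt' : (thetaSt C gt : GL chevE6.Idx K) = g' := by rw [hgt]
  have hdtθ : (thetaSt C dt : GL chevE6.Idx K) = dd := by
    rw [hdt, map_mul, map_inv, Subgroup.coe_mul, Subgroup.coe_inv, hψφ, theta_stMap C C, hgt']
    rfl
  have hdconj : ∀ c, dt * torusHom C cornerE6 c * dt⁻¹ = torusHom C cornerE6 (torusMap Kˣ R c) := by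
    intro c
    set W := toSt chevE6 K (wordW (K := K) L : chevE6.SteinbergCover K) with hW
    obtain ⟨c₁, hc₁⟩ := exists_torus_of_diag C cornerE6 coxE6 (z := W⁻¹ * dt) (by
      rw [map_mul, map_inv, Subgroup.coe_mul, Subgroup.coe_inv, hdtθ, hW, theta_wordW C cornerE6]
      have := mul_mem hh₁ hh'
      rw [show n' = C.nWordElt K (L.map Fin.val) * h₁ from en, _root_.mul_inv_rev, ← mul_assoc, mul_inv_cancel_left] at this
      exact this)
    rw [show dt = W * torusHom C cornerE6 c₁ by rw [hc₁, mul_inv_cancel_left], ← hR c, _root_.mul_inv_rev]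
    have hcm : torusHom C cornerE6 c₁ * torusHom C cornerE6 c * (torusHom C cornerE6 c₁)⁻¹ = torusHom C cornerE6 c := by
      rw [← map_inv, ← map_mul, ← map_mul, mul_comm c₁ c, mul_inv_cancel_right]
    calc _ = W * (torusHom C cornerE6 c₁ * torusHom C cornerE6 c * (torusHom C cornerE6 c₁)⁻¹) * W⁻¹ := by
          simp only [mul_assoc]
      _ = _ := by rw [hcm]
  -- coordinates
  let cs : ℤ →+* ZMod (Fintype.card K - 1) := Int.castRingHom _
  let eT : Multiplicative (Fin chevE6.rank → ZMod (Fintype.card K - 1)) →* (Fin chevE6.rank → Kˣ) :=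
    MonoidHom.mk' (fun a i => P.ex (Multiplicative.ofAdd (a.toAdd i))) fun a b => funext fun i => by
      show P.ex _ = P.ex _ * P.ex _
      rw [← map_mul, ← ofAdd_add, toAdd_mul, Pi.add_apply]
  have heT : Function.Bijective eT := by
    refine ⟨fun a b h => Multiplicative.toAdd.injective (funext fun i => ?_), fun c => ?_⟩
    · have := P.ex.injective (congrFun h i)
      exact Multiplicative.ofAdd.injective this
    · exact ⟨Multiplicative.ofAdd fun i => (P.ex.symm (c i)).toAdd, funext fun i => P.ex.apply_symm_apply (c i)⟩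
  have heTmap : ∀ (T : Matrix (Fin chevE6.rank) (Fin chevE6.rank) ℤ) a, torusMap Kˣ T (eT a) =
      eT (Multiplicative.ofAdd (Tᵀ.map cs *ᵥ a.toAdd)) := by
    intro T a
    funext i
    show ∏ k, P.ex (Multiplicative.ofAdd (a.toAdd k)) ^ T k i =
      P.ex (Multiplicative.ofAdd (∑ k, (T k i : ZMod (Fintype.card K - 1)) * a.toAdd k))
    rw [ofAdd_sum, map_prod]
    exact Finset.prod_congr rfl fun k _ => by rw [← zsmul_eq_mul, ofAdd_zsmul, map_zpow]
  let T0 : Multiplicative (Fin chevE6.rank → ZMod (Fintype.card K - 1)) →* ↥(chevE6.diagonalSubgroup K) :=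
    MonoidHom.codRestrict ((chevE6.group K).subtype.comp ((thetaSt C).comp ((torusHom C cornerE6).comp eT))) _
      fun a => theta_torus_mem C cornerE6 (eT a)
  have hT0 : ∀ a, (T0 a : GL chevE6.Idx K) = thetaSt C (torusHom C cornerE6 (eT a)) := fun a => rfl
  have hcartT : (cartMat chevE6)ᵀ = cartT chevE6 := by ext a b; rfl
  have hlgT : ∀ a, (P.lg (T0 a)).toAdd = (cartT chevE6).map cs *ᵥ a.toAdd := by
    intro a
    funext i
    have hs := C.simple_lt i i.isLt
    obtain ⟨χ, hch, -, e⟩ := C.diagonal_char (T0 a).2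
    have h1 : C.xu (chevE6.simple i) (χ (chevE6.simple i)) =
        C.xu (chevE6.simple i) ((∏ k : Fin chevE6.rank, ((eT a k : K) ^ chevE6.cartan k (chevE6.simple i))) * 1) := by
      have h2 := congrArg (fun w => (thetaSt C w : GL chevE6.Idx K))
        (torusHom_conj C cornerE6 (eT a) hs (1 : K))
      simp only [map_mul, map_inv, Subgroup.coe_mul, Subgroup.coe_inv, thetaSt_gen, ← hT0] at h2
      rw [← h2, eq_mul_inv_iff_mul_eq]
      refine Units.ext ?_
      rw [Units.val_mul, Units.val_mul, e, C.coe_xu, C.coe_xu, C.dMat_conj hch hs, mul_one]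
    have hne : χ (chevE6.simple i) ≠ 0 := by
      rw [P.spec (T0 a) χ e _ hs]; exact Units.ne_zero _
    have h3 := (xu_eq C hs hs hne h1).2
    rw [mul_one, P.spec (T0 a) χ e _ hs, Finset.sum_eq_single i (fun b _ hb => by
      rw [coefVec, C.coef_simple i i.isLt b b.isLt, if_neg fun e => hb (Fin.ext e), Int.cast_zero, zero_mul])
      (by simp), coefVec, C.coef_simple i i.isLt i i.isLt, if_pos rfl, Int.cast_one, one_mul] at h3
    have h4 : P.ex (Multiplicative.ofAdd ((P.lg (T0 a)).toAdd i)) = torusMap Kˣ (cartMat chevE6) (eT a) i := by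
      refine Units.ext (h3.symm.trans ?_)
      rw [torusMap_apply, Units.coe_prod]
      exact Finset.prod_congr rfl fun k _ => by simp [cartMat]
    rw [heTmap, hcartT] at h4
    exact Multiplicative.ofAdd.injective (P.ex.injective h4)
  have hψT : ∀ a, ψφ (torusHom C cornerE6 (eT a)) =
      torusHom C cornerE6 (eT (Multiplicative.ofAdd ((q : ZMod (Fintype.card K - 1)) • a.toAdd))) := by
    intro a
    rw [hψφ, stMap_torusHom C C]
    congr 1
    funext i
    refine Units.ext ?_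
    show φ (P.ex _ : K) = (P.ex (Multiplicative.ofAdd ((q : ZMod (Fintype.card K - 1)) * a.toAdd i)) : K)
    rw [hφ, ← nsmul_eq_mul, ofAdd_nsmul, map_pow, Units.val_pow_eq_pow_val]
  have hfixiff : ∀ a, ψφ (gt⁻¹ * torusHom C cornerE6 (eT a) * gt) = gt⁻¹ * torusHom C cornerE6 (eT a) * gt ↔
      Rᵀ.map cs *ᵥ a.toAdd = (q : ZMod (Fintype.card K - 1)) • a.toAdd := by
    intro a
    have e1 : ψφ gt = dt * gt := by rw [hdt, inv_mul_cancel_right]
    rw [map_mul, map_mul, map_inv, e1, hψT]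
    have e2 := hdconj (eT a)
    rw [heTmap] at e2
    constructor
    · intro h
      have h2 : torusHom C cornerE6 (eT (Multiplicative.ofAdd ((q : ZMod (Fintype.card K - 1)) • a.toAdd))) =
          dt * torusHom C cornerE6 (eT a) * dt⁻¹ := by
        calc _ = dt * gt * ((dt * gt)⁻¹ * torusHom C cornerE6
              (eT (Multiplicative.ofAdd ((q : ZMod (Fintype.card K - 1)) • a.toAdd))) * (dt * gt)) * (dt * gt)⁻¹ := by
              group
          _ = dt * gt * (gt⁻¹ * torusHom C cornerE6 (eT a) * gt) * (dt * gt)⁻¹ := by rw [h]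
          _ = _ := by group
      rw [e2] at h2
      exact (Multiplicative.ofAdd.injective (heT.1 (torusHom_inj_E6 h2))).symm
    · intro h
      rw [← h, ← e2]
      group
  -- the centraliser
  set H := Subgroup.centralizer ({x} : Set ↥(chevE6.group F)) with hH
  have hmemH : ∀ z, z ∈ H ↔ x * z = z * x := fun z => by
    rw [hH, Subgroup.mem_centralizer_iff]; simp
  have hmemT : ∀ z : ↥H,
      g' * gmap chevE6 ι ((z : ↥(chevE6.group F)) : GL chevE6.Idx F) * g'⁻¹ ∈ chevE6.diagonalSubgroup K := by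
    intro z
    refine hCy _ (mul_mem (mul_mem g.2 (map_group_le ι ⟨_, (z : ↥(chevE6.group F)).2, rfl⟩)) (inv_mem g.2)) ?_
    have h1 := congrArg (fun w : ↥(chevE6.group F) => gmap chevE6 ι (w : GL chevE6.Idx F)) ((hmemH _).mp z.2)
    simp only [Subgroup.coe_mul, map_mul] at h1
    rw [hy, conj_mul, conj_mul, hxK, h1]
  let τ : ↥H →* ↥(chevE6.diagonalSubgroup K) :=
    MonoidHom.mk' (fun z => ⟨_, hmemT z⟩) fun a b => Subtype.ext (by
      simp only [Subgroup.coe_mul, map_mul]; group)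
  have hτ : Function.Injective τ := fun a b h => by
    have h1 := congrArg Subtype.val h
    exact Subtype.ext (Subtype.ext (gmap_injective ι (mul_left_cancel (mul_right_cancel h1))))
  have hHcomm : ∀ a b : ↥H, a * b = b * a := fun a b => hτ (by
    rw [map_mul, map_mul]; exact Subtype.ext (C.diagonal_comm (τ a).2 (τ b).2))
  set Bq : Matrix (Fin chevE6.rank) (Fin chevE6.rank) ℤ := Matrix.scalar (Fin chevE6.rank) (q : ℤ) - Rᵀ with hBq
  set S := AddSubgroup.toSubgroup (solutions (Fintype.card K - 1) Bq) with hS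
  have hBq' : ∀ a : Fin chevE6.rank → ZMod (Fintype.card K - 1),
      Bq.map cs *ᵥ a = (q : ZMod (Fintype.card K - 1)) • a - Rᵀ.map cs *ᵥ a := by
    intro a
    rw [hBq, Matrix.map_sub _ (map_sub cs), Matrix.sub_mulVec]
    congr 1
    rw [Matrix.scalar_apply, Matrix.diagonal_map (map_zero _)]
    funext i
    simp [cs, Matrix.mulVec_diagonal]
  have hmemS : ∀ a, a ∈ S ↔ Rᵀ.map cs *ᵥ a.toAdd = (q : ZMod (Fintype.card K - 1)) • a.toAdd := fun a => by
    show Bq.map cs *ᵥ a.toAdd = 0 ↔ _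
    rw [hBq', sub_eq_zero, eq_comm]
  let Θ : ↥S →* ↥(chevE6.diagonalSubgroup K) := T0.comp S.subtype
  have hrange : τ.range = Θ.range := by
    ext t
    constructor
    · rintro ⟨z, rfl⟩
      obtain ⟨w, hw⟩ := thetaSt_surjective C₀ (z : ↥(chevE6.group F))
      obtain ⟨c, hc⟩ := exists_torus_of_diag C cornerE6 coxE6 (z := gt * stMap chevE6 ι w * gt⁻¹) (by
        rw [map_mul, map_mul, map_inv, Subgroup.coe_mul, Subgroup.coe_mul, Subgroup.coe_inv, hgt',
          theta_stMap C₀ C, hw]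
        exact hmemT z)
      obtain ⟨a, rfl⟩ := heT.2 c
      have haS : a ∈ S := by
        rw [hmemS, ← hfixiff, hc]
        rw [show gt⁻¹ * (gt * stMap chevE6 ι w * gt⁻¹) * gt = stMap chevE6 ι w by group, hψφ, stMap_stMap]
        congr 2
        exact RingHom.ext fun t => by
          show φ (ι t) = ι t
          rw [hφ, ← map_pow, hqdef, FiniteField.pow_card]
      refine ⟨⟨a, haS⟩, Subtype.ext ?_⟩
      show (T0 a : GL chevE6.Idx K) = g' * gmap chevE6 ι ((z : ↥(chevE6.group F)) : GL chevE6.Idx F) * g'⁻¹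
      rw [hT0, hc, map_mul, map_mul, map_inv, Subgroup.coe_mul, Subgroup.coe_mul, Subgroup.coe_inv, hgt',
        theta_stMap C₀ C, hw]
    · rintro ⟨⟨a, ha⟩, rfl⟩
      have hfix := (hfixiff a).mpr ((hmemS a).mp ha)
      obtain ⟨w, hw⟩ := exists_preimage_of_fixed C cornerE6 C₀ coxE6 torusHom_inj_E6 ι φ hφ hfix
      have ez : gmap chevE6 ι (thetaSt C₀ w : GL chevE6.Idx F) = g'⁻¹ * (T0 a : GL chevE6.Idx K) * g' := by
        rw [← theta_stMap C₀ C, hw, map_mul, map_mul, map_inv, Subgroup.coe_mul, Subgroup.coe_mul, Subgroup.coe_inv,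
          hgt', hT0]
      have hzH : thetaSt C₀ w ∈ H := by
        rw [hmemH]
        refine Subtype.ext (gmap_injective ι ?_)
        rw [Subgroup.coe_mul, Subgroup.coe_mul, map_mul, map_mul, ez, ← hxK,
          show xK = g'⁻¹ * y * g' by rw [hy]; group]
        calc g'⁻¹ * y * g' * (g'⁻¹ * (T0 a : GL chevE6.Idx K) * g') = g'⁻¹ * (y * T0 a) * g' := by group
          _ = g'⁻¹ * (T0 a * y) * g' := by rw [C.diagonal_comm hyT (T0 a).2]
          _ = _ := by group
      refine ⟨⟨_, hzH⟩, Subtype.ext ?_⟩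
      show g' * gmap chevE6 ι (thetaSt C₀ w : GL chevE6.Idx F) * g'⁻¹ = T0 a
      rw [ez]; group
  -- the order
  have hBM : cartT chevE6 * Rᵀ = A * cartT chevE6 := by
    have h1 := congrArg Matrix.transpose hRB
    rwa [Matrix.transpose_mul, Matrix.transpose_mul, Matrix.transpose_transpose, hcartT, hA'] at h1
  have hdet : Bq.det = (((q ^ 4 - q ^ 2 + 1) * (q ^ 2 + q + 1) : ℕ) : ℤ) := by
    have h1 : (Matrix.scalar (Fin chevE6.rank) (q : ℤ) - A) * cartT chevE6 = cartT chevE6 * Bq := by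
      rw [hBq, Matrix.sub_mul, Matrix.mul_sub, hBM,
        (Matrix.scalar_commute (q : ℤ) (fun r => mul_comm _ r) (cartT chevE6)).eq]
    have h2 := congrArg Matrix.det h1
    rw [Matrix.det_mul, Matrix.det_mul, det_cartT_E6, ← Matrix.eval_charpoly, hchar, mul_comm] at h2
    rw [← mul_left_cancel₀ (by norm_num) h2, eval_mul, hev]
    push_cast
    simp
  have hdvdK : Bq.det ∣ ((Fintype.card K - 1 : ℕ) : ℤ) := by
    have h12 : (X : ℤ[X]) ^ 12 - 1 ∣ X ^ [2, 5, 6, 8, 9, 12].prod - 1 := by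
      obtain ⟨k', hk'⟩ := hdN
      rw [hk', pow_mul]
      simpa using sub_dvd_pow_sub_pow ((X : ℤ[X]) ^ 12) 1 k'
    have h1 := Polynomial.eval_dvd (x := (q : ℤ)) ((show cyclotomic 12 ℤ * (X ^ 2 + X + 1) ∣ (X : ℤ[X]) ^ 12 - 1 from
      ⟨(X ^ 2 - X + 1) * (X ^ 4 - 1), by rw [cyclotomic_twelve]; ring⟩).trans h12)
    rw [eval_mul, hev, Polynomial.eval_sub, Polynomial.eval_pow, Polynomial.eval_X, Polynomial.eval_one] at h1
    rw [hdet, hK, Nat.cast_sub (Nat.one_le_pow _ _ (by omega)), Nat.cast_pow, Nat.cast_one]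
    refine dvd_trans (dvd_of_eq ?_) h1
    push_cast
    simp
  have hne : Bq.det ≠ 0 := by
    rw [hdet]
    exact Int.natCast_ne_zero.mpr (mul_ne_zero (by omega) (by positivity))
  have hcardS : Nat.card ↥S = (q ^ 4 - q ^ 2 + 1) * (q ^ 2 + q + 1) := by
    show Nat.card (solutions (Fintype.card K - 1) Bq) = _
    rw [card_solutions _ Bq hne hdvdK, hdet, Int.natAbs_natCast]
  have hkerfix : ∀ a : Fin chevE6.rank → ZMod (Fintype.card K - 1),
      (cartT chevE6).map cs *ᵥ a = 0 → Rᵀ.map cs *ᵥ a = a := by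
    intro a ha
    have h1 := congrArg Matrix.transpose hRZ
    rw [Matrix.transpose_sub, Matrix.transpose_one, Matrix.transpose_mul, hcartT, sub_eq_iff_eq_add] at h1
    rw [h1, Matrix.map_add _ (map_add cs), Matrix.map_mul, Matrix.map_one _ (map_zero cs) (map_one cs),
      Matrix.add_mulVec, ← Matrix.mulVec_mulVec, ha, Matrix.mulVec_zero, Matrix.one_mulVec, zero_add]
  have hkerΘ : ∀ a : ↥S, a ∈ Θ.ker ↔ (cartT chevE6).map cs *ᵥ a.1.toAdd = 0 := by
    intro a
    rw [MonoidHom.mem_ker, ← map_eq_one_iff _ P.inj, ← toAdd_eq_zero]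
    show (P.lg (T0 a)).toAdd = 0 ↔ _
    rw [hlgT]
  have hcardker : Nat.card Θ.ker = Nat.gcd 3 (q - 1) := by
    have hthree : ∀ a : Fin chevE6.rank → ZMod (Fintype.card K - 1),
        (cartT chevE6).map cs *ᵥ a = 0 → 3 • a = 0 := by
      intro a ha
      have h1 := congrArg (fun w => (cartT chevE6).adjugate.map cs *ᵥ w) ha
      simp only [Matrix.mulVec_mulVec, ← Matrix.map_mul, Matrix.adjugate_mul, det_cartT_E6, Matrix.mulVec_zero] at h1
      rw [← h1]
      funext i
      simp [cs, Matrix.mulVec, dotProduct, Matrix.one_apply, nsmul_eq_mul, apply_ite, Matrix.ofNat_apply]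
    by_cases h3 : 3 ∣ q - 1
    · rw [Nat.gcd_eq_left h3]
      have hn3 : 3 ∣ Fintype.card K - 1 := h3.trans (by rw [hK]; exact Nat.sub_one_dvd_pow_sub_one q _)
      have hcz : Nat.card (torusMap Kˣ (cartMat chevE6)).ker = 3 := by
        rw [Nat.card_congr (Subgroup.equivMapOfInjective _ _ torusHom_inj_E6).toEquiv,
          ← center_eq_map certE6 cornerE6 coxE6, card_centerE6, Nat.gcd_eq_right hn3]
      rw [← hcz]
      refine Nat.card_eq_of_bijective (fun a => ⟨eT ((a : ↥S) : Multiplicative _), ?_⟩) ⟨?_, ?_⟩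
      · rw [MonoidHom.mem_ker, heTmap, hcartT, (hkerΘ a).mp a.2]
        exact map_one eT
      · intro a b h
        exact Subtype.ext (Subtype.ext (heT.1 (congrArg Subtype.val h)))
      · rintro ⟨c, hc⟩
        obtain ⟨a, rfl⟩ := heT.2 c
        rw [MonoidHom.mem_ker, heTmap, hcartT, ← map_one eT] at hc
        have h0 : (cartT chevE6).map cs *ᵥ a.toAdd = 0 := congrArg Multiplicative.toAdd (heT.1 hc)
        have haS : a ∈ S := by
          rw [hmemS, hkerfix _ h0, Nat.cast_smul_eq_nsmul]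
          obtain ⟨m, hm⟩ := h3
          rw [show q = 3 * m + 1 by omega, succ_nsmul, mul_nsmul, hthree _ h0, smul_zero, zero_add]
        exact ⟨⟨⟨a, haS⟩, (hkerΘ _).mpr h0⟩, rfl⟩
    · rw [Nat.Coprime.gcd_eq_one ((Nat.prime_three.coprime_iff_not_dvd).mpr h3), Subgroup.card_eq_one,
        Subgroup.eq_bot_iff_forall]
      intro a ha
      have h0 := (hkerΘ a).mp ha
      have hqa := (hmemS _).mp a.2
      rw [hkerfix _ h0, Nat.cast_smul_eq_nsmul] at hqa
      have h1 : (q - 1) • a.1.toAdd = 0 := by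
        rw [show q = q - 1 + 1 by omega, succ_nsmul] at hqa
        exact add_eq_right.mp hqa.symm
      have h2 := Nat.dvd_gcd (addOrderOf_dvd_of_nsmul_eq_zero (hthree _ h0)) (addOrderOf_dvd_of_nsmul_eq_zero h1)
      rw [Nat.Coprime.gcd_eq_one ((Nat.prime_three.coprime_iff_not_dvd).mpr h3), Nat.dvd_one,
        AddMonoid.addOrderOf_eq_one_iff] at h2
      exact Subtype.ext (Multiplicative.toAdd.injective h2)
  have hmul : Nat.card ↥H * Nat.gcd 3 (q - 1) = (q ^ 4 - q ^ 2 + 1) * (q ^ 2 + q + 1) := by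
    rw [Nat.card_congr (MonoidHom.ofInjective hτ).toEquiv, hrange, ← hcardker, ← hcardS,
      ← Nat.card_congr (QuotientGroup.quotientKerEquivRange Θ).toEquiv]
    exact (Subgroup.card_eq_card_quotient_mul_card_subgroup Θ.ker).symm
  have hcard : Nat.card ↥H = (q ^ 4 - q ^ 2 + 1) * (q ^ 2 + q + 1) / Nat.gcd 3 (q - 1) := by
    rw [← hmul, Nat.mul_div_cancel _ (Nat.gcd_pos_of_pos_left _ (by norm_num))]
  have hcop : ¬ 2 ∣ Nat.card ↥H ∧ ¬ 3 ∣ Nat.card ↥H := by
    obtain ⟨h2, h9, h3'⟩ := six_coprime q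
    refine ⟨fun h => h2 (hmul ▸ h.mul_right _), fun h => ?_⟩
    by_cases h3 : 3 ∣ q - 1
    · refine h9 (hmul ▸ ?_)
      rw [Nat.gcd_eq_left h3]
      exact Nat.mul_dvd_mul h dvd_rfl
    · exact h3' h3 (by omega) (hmul ▸ h.mul_right _)
  refine ⟨H, ?_, hcard, ?_⟩
  · letI : CommGroup ↥H := { (inferInstance : Group ↥H) with mul_comm := hHcomm }
    set w := coefVec C s₀ with hw
    let ψ₀ : (Fin chevE6.rank → ZMod (Fintype.card K - 1)) →+ ZMod (Fintype.card K - 1) :=
      AddMonoidHom.mk' (fun a => ∑ i, (w i : ZMod (Fintype.card K - 1)) * a i) fun a b => by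
        simp [mul_add, Finset.sum_add_distrib]
    let ψ : ↥H →* Multiplicative (ZMod (Fintype.card K - 1)) := ψ₀.toMultiplicative.comp (P.lg.comp τ)
    refine isCyclic_of_injective ψ ((injective_iff_map_eq_one ψ).mpr fun z hz => ?_)
    have h1 : ∑ i, (w i : ZMod (Fintype.card K - 1)) * (P.lg (τ z)).toAdd i = 0 := hz
    have heigz : A.map cs *ᵥ (P.lg (τ z)).toAdd = (q : ZMod (Fintype.card K - 1)) • (P.lg (τ z)).toAdd := by
      obtain ⟨⟨a, ha⟩, ea⟩ : τ z ∈ Θ.range := hrange ▸ ⟨z, rfl⟩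
      rw [← ea]
      show A.map cs *ᵥ (P.lg (T0 a)).toAdd = (q : ZMod (Fintype.card K - 1)) • (P.lg (T0 a)).toAdd
      rw [hlgT, Matrix.mulVec_mulVec, ← Matrix.map_mul, ← hBM, Matrix.map_mul, ← Matrix.mulVec_mulVec,
        (hmemS a).mp ha, Matrix.mulVec_smul]
    have h2 := det_mul_eq_zero _ (orbitMat_mulVec A w heigz h1)
    rw [← RingHom.mapMatrix_apply, ← RingHom.map_det] at h2
    have h3 : (P.lg (τ z)) ^ (orbitMat A w).det.natAbs = 1 := by
      refine Multiplicative.toAdd.injective (funext fun i => ?_)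
      rw [toAdd_pow, toAdd_one, Pi.smul_apply, Pi.zero_apply, nsmul_eq_mul]
      have h4 := h2 i
      simp only [cs, eq_intCast] at h4
      rcases Int.natAbs_eq (orbitMat A w).det with h' | h'
      · rw [h', Int.cast_natCast] at h4; exact h4
      · rw [h', Int.cast_neg, Int.cast_natCast, neg_mul, neg_eq_zero] at h4
        exact h4
    have h4 : orderOf z ∣ (orbitMat A w).det.natAbs :=
      orderOf_dvd_of_pow_eq_one ((P.inj.comp hτ) (by
        show P.lg (τ (z ^ _)) = P.lg (τ 1)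
        rw [map_pow, map_pow, h3, map_one, map_one]))
    have h5 := orderOf_dvd_natCard z
    have hpos : 0 < (orbitMat A w).det.natAbs := Int.natAbs_pos.mpr hdet0
    have h6 : orderOf z ≤ 4 := (Nat.le_of_dvd hpos h4).trans hdet4
    rw [← orderOf_eq_one_iff]
    have hzpos := orderOf_pos z
    have h2' : ¬ 2 ∣ orderOf z := fun h => hcop.1 (h.trans h5)
    have h3' : ¬ 3 ∣ orderOf z := fun h => hcop.2 (h.trans h5)
    omega
  · refine le_antisymm (fun z hz => ?_) fun z hz => ?_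
    · rw [hmemH]
      exact Subgroup.mem_centralizer_iff.mp hz x ((hmemH x).mpr rfl)
    · rw [Subgroup.mem_centralizer_iff]
      intro a ha
      exact congrArg Subtype.val (hHcomm ⟨a, ha⟩ ⟨z, hz⟩)

end Cfsg.Agent.Chars2.SingerTorus
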