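import Cfsg.Agent.Chars2.SingerTorus.E6Main

/-!
An element of Steinberg's group of type `E₆` twisting Frobenius by a Weyl word in standard position.
-/

set_option autoImplicit false
set_option linter.unusedSectionVars false

universe u v

namespace Cfsg.Agent.Chars2.SingerTorus

open Cfsg.Lie Cfsg.Agent.Chev Cfsg.Agent.Chars2.Homocyclic Cfsg.Agent.KnownA.Cover Matrix Polynomial
open scoped MatrixGroups Pointwise

/-- Words with the same action give the same monomial element modulo the torus. -/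
theorem nWord_div_mem_diagonal {D : ChevalleyDatum} {K : Type u} [Field K] (C : Cert.{u} D)
    {M : CoxeterMatrix (Fin D.rank)} (hM : CoxOK D M) (L₁ L₂ : List (Fin D.rank))
    (h : actMat C (L₁.map Fin.val).reverse = actMat C (L₂.map Fin.val).reverse) :
    (C.nWordElt K (L₁.map Fin.val))⁻¹ * C.nWordElt K (L₂.map Fin.val) ∈ D.diagonalSubgroup K := by
  have key : ∀ L : List (Fin D.rank), actMat C (L₁.map Fin.val).reverse = actMat C (L.map Fin.val).reverse →
      C.nWordElt K ((L₁.map Fin.val).reverse ++ L.map Fin.val) ∈ D.diagonalSubgroup K := by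
    intro L hL
    rw [← List.map_reverse, ← List.map_append]
    refine C.nWordElt_mem_diagonal hM fun s hs => ?_
    have h1 : actMat C ((L₁.reverse ++ L).map Fin.val) = 1 := by
      rw [List.map_append, actMat_append C (valMap_lt C L₁.reverse) (valMap_lt C L), List.map_reverse, hL,
        (actMat_mul_reverse C (valMap_lt C L)).1]
    refine C.coef_inj _ (C.act_lt (valMap_lt C _) hs) _ hs fun k hk => ?_
    have h2 := congrFun (coefVec_act C (valMap_lt C (L₁.reverse ++ L)) hs) ⟨k, hk⟩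
    rw [h1, Matrix.vecMul_one] at h2
    exact h2
  have happ : ∀ A B : List ℕ, C.nWordElt K (A ++ B) = C.nWordElt K A * C.nWordElt K B := fun A B => by
    simp [Cert.nWordElt]
  have h2 := mul_mem (inv_mem (key L₁ rfl)) (key L₂ h)
  rwa [happ, happ, _root_.mul_inv_rev, mul_assoc, inv_mul_cancel_left] at h2

set_option maxHeartbeats 2000000 in
/-- The twisting element. -/
theorem exists_twist_E6 {F : Type u} [Field F] [Fintype F] :
    ∃ (r : ℕ) (_ : Fact r.Prime), 12 < r ∧ orderOf (Fintype.card F : ZMod r) = 12 ∧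
      ∃ (K : Type) (_ : Field K) (_ : Fintype K) (ι : F →+* K) (φ : K →+* K),
        (∀ t, φ t = t ^ Fintype.card F) ∧ (∃ m, 12 ∣ m ∧ Fintype.card K = Fintype.card F ^ m) ∧
        ∃ (gt : chevE6.SteinbergGroup K) (L L₆ : List (Fin chevE6.rank)) (v : Fin chevE6.rank → ZMod r),
          ((certE6 : Cert.{0} chevE6).nWordElt K (L.map Fin.val))⁻¹ *
              (thetaSt certE6 (stMap chevE6 φ gt * gt⁻¹) : GL chevE6.Idx K) ∈ chevE6.diagonalSubgroup K ∧
          (actMat (certE6 : Cert.{0} chevE6) (L.reverse.map Fin.val)).charpoly =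
            cyclotomic 12 ℤ * (X ^ 2 + X + 1) ∧
          actMat (certE6 : Cert.{0} chevE6) (L.reverse.map Fin.val) ^ 6 =
            actMat (certE6 : Cert.{0} chevE6) (L₆.map Fin.val) ∧
          (∀ i ∈ L₆, i ∈ e6D4) ∧
          (∀ i ∈ e6D4, ∀ k, actMat (certE6 : Cert.{0} chevE6) (L₆.map Fin.val) i k = if i = k then -1 else 0) ∧
          v ≠ 0 ∧
          (actMat (certE6 : Cert.{0} chevE6) (L.reverse.map Fin.val)).map (Int.castRingHom (ZMod r)) *ᵥ v =
            (Fintype.card F : ZMod r) • v ∧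
          ∀ s < chevE6.nroots, ∑ i, (coefVec (certE6 : Cert.{0} chevE6) s i : ZMod r) * v i ≠ 0 := by
  classical
  set q := Fintype.card F with hqdef
  have hq : 2 ≤ q := Fintype.one_lt_card
  have h24 : q ^ 2 ≤ q ^ 4 := Nat.pow_le_pow_right (by omega) (by norm_num)
  have hev : ((cyclotomic 12 ℤ).eval (q : ℤ)) = ((q ^ 4 - q ^ 2 + 1 : ℕ) : ℤ) := by
    rw [cyclotomic_twelve]; push_cast [Nat.cast_sub h24]; simp
  obtain ⟨r, hrp, hrm⟩ : ∃ r : ℕ, r.Prime ∧ r ∣ q ^ 4 - q ^ 2 + 1 := Nat.exists_prime_and_dvd (by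
    have : q ^ 2 < q ^ 4 := Nat.pow_lt_pow_right (by omega) (by norm_num)
    omega)
  haveI : Fact r.Prime := ⟨hrp⟩
  have hr12 : ¬ r ∣ 12 := by
    intro h
    have h2 : r = 2 ∨ r = 3 := by
      rw [show 12 = 2 ^ 2 * 3 by norm_num] at h
      rcases hrp.dvd_mul.mp h with h | h
      · exact Or.inl ((Nat.prime_dvd_prime_iff_eq hrp Nat.prime_two).mp (hrp.dvd_of_dvd_pow h))
      · exact Or.inr ((Nat.prime_dvd_prime_iff_eq hrp Nat.prime_three).mp h)
    have h1 : ((q : ZMod r) ^ 4 - (q : ZMod r) ^ 2 + 1 : ZMod r) = 0 := by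
      have := (ZMod.natCast_eq_zero_iff _ r).mpr hrm
      push_cast [Nat.cast_sub h24] at this
      exact this
    rcases h2 with rfl | rfl
    · exact twelve_mod_two _ h1
    · exact twelve_mod_three _ h1
  have hd : orderOf (q : ZMod r) = 12 :=
    orderOf_eq_of_dvd hr12 (by rw [hev]; exact Int.natCast_dvd_natCast.mpr hrm)
  have hq0 : (q : ZMod r) ≠ 0 := fun h => by
    rw [h, orderOf_zero] at hd
    exact absurd hd (by norm_num)
  have hrq : ¬ r ∣ q := fun h => hq0 ((ZMod.natCast_eq_zero_iff _ _).mpr h)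
  have hr : 12 < r := by
    have h1 : 12 ∣ r - 1 := hd ▸ ZMod.orderOf_dvd_card_sub_one hq0
    have := Nat.le_of_dvd (by have := hrp.two_le; omega) h1
    omega
  have hrW : ¬ r ∣ [2, 5, 6, 8, 9, 12].prod := fun h => by
    rw [show [2, 5, 6, 8, 9, 12].prod = 2 ^ 7 * 3 ^ 4 * 5 by norm_num] at h
    rcases hrp.dvd_mul.mp h with h | h
    · rcases hrp.dvd_mul.mp h with h | h <;> have := Nat.le_of_dvd (by norm_num) (hrp.dvd_of_dvd_pow h) <;> omega
    · have := Nat.le_of_dvd (by norm_num) h; omega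
  have hdeg : ∀ i ∈ [2, 5, 6, 8, 9, 12], ¬ r ∣ i := fun i hi h => hrW (h.trans (List.dvd_prod hi))
  have hr2 : r ≠ 2 := by omega
  have hr3 : ¬ r ∣ 3 := fun h => by have := Nat.le_of_dvd (by norm_num) h; omega
  let C₀ : Cert.{u} chevE6 := certE6
  let C : Cert.{0} chevE6 := certE6
  -- an element of order `r`
  have hrG : r ∣ Nat.card (chevE6.group F) := by
    refine (dvd_iff_padicValNat_ne_zero Nat.card_pos.ne').mpr ?_
    rw [val_group (dataE6 hr3) hq hrq hr2 one_ne_zero (by rw [pow_one]) hdeg (fun i => 12 ∣ i)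
      (fun i _ => by rw [one_mul, hd]), padicValNat.one, add_zero]
    refine mul_ne_zero (by decide) (mval_pos hq hrq)
  obtain ⟨x, hx⟩ := exists_prime_orderOf_dvd_card' r hrG
  -- the large field
  obtain ⟨p, hp⟩ := CharP.exists F
  haveI := hp
  obtain ⟨k, hpr, hpk⟩ := FiniteField.card F p
  haveI : Fact p.Prime := ⟨hpr⟩
  haveI : NeZero [2, 5, 6, 8, 9, 12].prod := ⟨by norm_num⟩
  let K := FiniteField.Extension F p [2, 5, 6, 8, 9, 12].prod
  letI : Fintype K := Fintype.ofFinite _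
  let ι : F →+* K := algebraMap _ _
  haveI : CharP K p := charP_of_injective_ringHom ι.injective p
  let φ : K →+* K := iterateFrobenius K p k
  have hφ : ∀ t, φ t = t ^ q := fun t => by
    show iterateFrobenius K p k t = _
    rw [iterateFrobenius_def, hqdef, hpk]
  have hK : Fintype.card K = q ^ [2, 5, 6, 8, 9, 12].prod := by
    rw [← Nat.card_eq_fintype_card, FiniteField.natCard_extension, Nat.card_eq_fintype_card]
  have hdN : 12 ∣ [2, 5, 6, 8, 9, 12].prod := by norm_num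
  have hdvd : ∀ i, orderOf (q : ZMod r) ∣ [2, 5, 6, 8, 9, 12].prod * i := fun i => hd ▸ Dvd.dvd.mul_right hdN i
  obtain ⟨eK, heK, hTK'⟩ := (dataE6 (F := K) hr3).2
  have hvK : padicValNat r (Nat.card (chevE6.group K)) = padicValNat r (Nat.card (chevE6.diagonalSubgroup K)) := by
    rw [val_group (dataE6 hr3) hq hrq hr2 (by norm_num) hK hdeg (fun _ => True) (fun i _ => iff_true_intro (hdvd i)),
      val_eq_of_mul heK Nat.card_pos.ne' hTK', hK, padicValNat.pow,
      val_pow_sub_one hq hrq hr2 (by norm_num) (by simpa using hdvd 1)]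
    rw [show chevE6.rank = 6 from rfl]
    simp
  have hKr : r ∣ Fintype.card K - 1 := by
    rw [hK]; exact (dvd_pow_sub_one_iff (by omega) _).mpr (by simpa using hdvd 1)
  have hKpos : 0 < Fintype.card K - 1 := by have := Fintype.one_lt_card (α := K); omega
  haveI : NeZero (Fintype.card K - 1) := ⟨hKpos.ne'⟩
  have hreg' := exists_not_dvd_cartan (D := chevE6) (by decide +kernel) (Fact.out : r.Prime) hr2
  -- the element inside the torus
  let σ := gmap chevE6 φ
  set xK : GL chevE6.Idx K := gmap chevE6 ι (x : GL chevE6.Idx F) with hxK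
  have hxKG : xK ∈ chevE6.group K := map_group_le ι ⟨_, x.2, rfl⟩
  have hσι : ∀ z : GL chevE6.Idx F, σ (gmap chevE6 ι z) = gmap chevE6 ι z := fun z => by
    refine Units.ext (Matrix.ext fun s t => ?_)
    show φ (ι ((z : Matrix chevE6.Idx chevE6.Idx F) s t)) = ι ((z : Matrix chevE6.Idx chevE6.Idx F) s t)
    rw [hφ, ← map_pow, hqdef, FiniteField.pow_card]
  have hxo : orderOf (⟨xK, hxKG⟩ : ↥(chevE6.group K)) = r := by
    rw [Subgroup.orderOf_mk, hxK, orderOf_injective _ (gmap_injective ι), Subgroup.orderOf_coe, hx]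
  set TR := torusPart (F := K) C r with hTR
  have hTRK : TR ≤ chevE6.group K := fun t ht => C.diagonal_le_group ((mem_torusPart C r).mp ht).1
  have hTRcard : Nat.card (TR.subgroupOf (chevE6.group K)) = r ^ (Nat.card (chevE6.group K)).factorization r := by
    rw [Nat.card_congr (Subgroup.subgroupOfEquivOfLe hTRK).toEquiv, card_torusPart, Nat.factorization_def _ hrp,
      hvK]
  let PK : Sylow r ↥(chevE6.group K) := Sylow.ofCard (TR.subgroupOf (chevE6.group K)) hTRcard
  have hXpg : IsPGroup r (Subgroup.zpowers (⟨xK, hxKG⟩ : ↥(chevE6.group K))) :=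
    IsPGroup.of_card (n := 1) (by rw [Nat.card_zpowers, hxo, pow_one])
  obtain ⟨Q, hQ⟩ := hXpg.exists_le_sylow
  obtain ⟨g, hg⟩ := MulAction.exists_smul_eq ↥(chevE6.group K) Q PK
  set g' : GL chevE6.Idx K := (g : GL chevE6.Idx K) with hg'
  set y := g' * xK * g'⁻¹ with hy
  have hyTR : y ∈ TR := by
    have h1 : MulAut.conj g • (⟨xK, hxKG⟩ : ↥(chevE6.group K)) ∈
        ((g • Q : Sylow r _) : Subgroup ↥(chevE6.group K)) :=
      Subgroup.smul_mem_pointwise_smul _ _ _ (hQ (Subgroup.mem_zpowers _))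
    rw [hg] at h1
    exact h1
  have hyT : y ∈ chevE6.diagonalSubgroup K := ((mem_torusPart C r).mp hyTR).1
  have hσT : ∀ t ∈ chevE6.diagonalSubgroup K, σ t = t ^ q := by
    intro t ht
    obtain ⟨χ, -, -, et⟩ := C.diagonal_char ht
    refine Units.ext ?_
    rw [coe_gmap, et, dMat_map, Units.val_pow_eq_pow_val, et, dMat_pow]
    exact dMat_congr fun s _ => hφ _
  have hσg : σ g' ∈ chevE6.group K := map_group_le φ ⟨g', g.2, rfl⟩
  let dd : ↥(chevE6.group K) := ⟨σ g', hσg⟩ * g⁻¹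
  have hdd' : σ g' = (dd : GL chevE6.Idx K) * g' := by
    show σ g' = σ g' * g'⁻¹ * g'
    group
  have hddy : (dd : GL chevE6.Idx K) * y * (dd : GL chevE6.Idx K)⁻¹ = y ^ q := by
    rw [← hσT y hyT, hy, map_mul, map_mul, map_inv, hxK, hσι]
    show σ g' * g'⁻¹ * _ * (σ g' * g'⁻¹)⁻¹ = _
    group
  have hyK : y ∈ chevE6.group K := C.diagonal_le_group hyT
  have hTRcomm : ∀ a ∈ TR, ∀ b ∈ TR, a * b = b * a := fun a ha b hb =>
    C.diagonal_comm ((mem_torusPart C r).mp ha).1 ((mem_torusPart C r).mp hb).1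
  obtain ⟨n, hnN, hn⟩ := exists_normalizer_conj PK (fun a ha b hb => Subtype.ext (hTRcomm _ ha _ hb)) dd
    {(⟨y ^ q, pow_mem hyK q⟩ : ↥(chevE6.group K))}
    (fun a ha => by rw [Set.mem_singleton_iff.mp ha]; exact pow_mem hyTR q)
    (fun a ha => by
      rw [Set.mem_singleton_iff.mp ha]
      show (dd : GL chevE6.Idx K)⁻¹ * y ^ q * (dd : GL chevE6.Idx K) ∈ TR
      rw [← hddy]
      convert hyTR using 1
      group)
  set n' : GL chevE6.Idx K := (n : GL chevE6.Idx K) with hn'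
  have hny : n' * y * n'⁻¹ = y ^ q := by
    have h1 : n'⁻¹ * y ^ q * n' = (dd : GL chevE6.Idx K)⁻¹ * y ^ q * dd :=
      congrArg Subtype.val (hn _ rfl)
    conv at h1 => rhs; rw [← hddy]
    rw [show (dd : GL chevE6.Idx K)⁻¹ * ((dd : GL chevE6.Idx K) * y * (dd : GL chevE6.Idx K)⁻¹) * dd = y by group] at h1
    calc n' * y * n'⁻¹ = n' * (n'⁻¹ * y ^ q * n') * n'⁻¹ := by rw [h1]
      _ = y ^ q := by group
  have hnmono : n' ∈ chevE6.monomialSubgroup K := by
    refine monomial_of_normalizes C r coxE6 hreg' hKr n.2 fun t => ⟨fun ht => ?_, fun ht => ?_⟩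
    · exact (Subgroup.mem_normalizer_iff.mp hnN ⟨t, hTRK ht⟩).mp ht
    · have htK : t ∈ chevE6.group K := by
        have := mul_mem (mul_mem (inv_mem n.2) (hTRK ht)) n.2
        rwa [show (n : GL chevE6.Idx K)⁻¹ * ((n : GL chevE6.Idx K) * t * (n : GL chevE6.Idx K)⁻¹) * n = t by group] at this
      exact (Subgroup.mem_normalizer_iff.mp hnN ⟨t, htK⟩).mpr ht
  obtain ⟨L, h₁, hh₁, en⟩ := C.exists_word coxE6 hnmono
  obtain ⟨P⟩ := nonempty_logCoord C (K := K)
  set A := actMat C (L.reverse.map Fin.val) with hA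
  have hA' : actMat C (L.map Fin.val).reverse = A := by rw [hA, List.map_reverse]
  -- the eigenvector modulo `r`
  obtain ⟨j, hj, hjsurj⟩ := exists_torsionHom hKpos hKr
  have hyr : y ^ r = 1 := by
    have hx1 : xK ^ r = 1 := congrArg Subtype.val (orderOf_dvd_iff_pow_eq_one.mp hxo.dvd)
    rw [hy, conj_pow, hx1, mul_one, mul_inv_cancel]
  have hlgr : r • (P.lg ⟨y, hyT⟩).toAdd = 0 := by
    rw [← toAdd_pow, ← map_pow, show (⟨y, hyT⟩ : ↥(chevE6.diagonalSubgroup K)) ^ r = 1 from Subtype.ext hyr, map_one,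
      toAdd_one]
  choose v hv using fun i => hjsurj ((P.lg ⟨y, hyT⟩).toAdd i) (congrFun hlgr i)
  have hv' : (P.lg ⟨y, hyT⟩).toAdd = fun i => j (v i) := funext fun i => (hv i).symm
  have hv0 : v ≠ 0 := by
    intro h
    have h1 : P.lg ⟨y, hyT⟩ = 1 := Multiplicative.toAdd.injective (by
      rw [hv', h]; funext i; simp)
    have h2 : y = 1 := congrArg Subtype.val ((map_eq_one_iff _ P.inj).mp h1)
    have h3 : xK = 1 := by
      rw [hy] at h2
      exact mul_eq_left.mp (mul_inv_eq_one.mp h2)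
    have h4 : orderOf (⟨xK, hxKG⟩ : ↥(chevE6.group K)) = 1 := orderOf_eq_one_iff.mpr (Subtype.ext h3)
    rw [hxo] at h4
    exact hrp.one_lt.ne' h4
  have hlgy : A.map (Int.castRingHom (ZMod (Fintype.card K - 1))) *ᵥ (P.lg ⟨y, hyT⟩).toAdd =
      (q : ZMod (Fintype.card K - 1)) • (P.lg ⟨y, hyT⟩).toAdd := by
    have hm : C.nWordElt K (L.map Fin.val) * h₁ * y * (C.nWordElt K (L.map Fin.val) * h₁)⁻¹ ∈
        chevE6.diagonalSubgroup K := by
      rw [← en, hny]; exact pow_mem hyT q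
    have h1 := P.lg_conj (C.fin_word_lt L) hh₁ ⟨y, hyT⟩ hm
    have h2 : (⟨_, hm⟩ : ↥(chevE6.diagonalSubgroup K)) = (⟨y, hyT⟩ : ↥(chevE6.diagonalSubgroup K)) ^ q :=
      Subtype.ext (show C.nWordElt K (L.map Fin.val) * h₁ * y * (C.nWordElt K (L.map Fin.val) * h₁)⁻¹ = y ^ q by
        rw [← en, hny])
    rw [h2, map_pow, toAdd_pow, hA'] at h1
    rw [← h1]
    exact (Nat.cast_smul_eq_nsmul _ _ _).symm
  have heig : A.map (Int.castRingHom (ZMod r)) *ᵥ v = (q : ZMod r) • v := by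
    rw [hv'] at hlgy
    funext i
    refine hj ?_
    have h2 := congrFun hlgy i
    simp only [Matrix.mulVec, dotProduct, Matrix.map_apply, eq_intCast, Pi.smul_apply, smul_eq_mul] at h2 ⊢
    rw [map_sum]
    calc ∑ k, j ((A i k : ZMod r) * v k) = ∑ k, (A i k : ZMod (Fintype.card K - 1)) * j (v k) :=
          Finset.sum_congr rfl fun k _ => by rw [← zsmul_eq_mul, ← zsmul_eq_mul, map_zsmul]
      _ = _ := h2
      _ = _ := by rw [← nsmul_eq_mul, ← nsmul_eq_mul, map_nsmul]
  obtain ⟨N, hrN, hN⟩ := exists_pow_mem_diagonal C r hvK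
  have hAN : A ^ N = 1 :=
    actMat_pow_eq_one C (F := K) (C.fin_word_lt L.reverse) (hN _ (C.nWordElt_mem (C.fin_word_lt L.reverse)))
  have hN0 : N ≠ 0 := fun h => hrN (h ▸ dvd_zero r)
  have hchar := charpoly_E6 C L.reverse hN0 hAN (cyclotomic_dvd_charpoly A hrN hAN hd (by norm_num) hv0 heig)
  obtain ⟨hregv, s₀, hs₀, hdet0, hdet4⟩ := regular_E6 C L.reverse hN0 hAN hchar hr hd hv0 heig
  have hCy : ∀ z ∈ chevE6.group K, y * z = z * y → z ∈ chevE6.diagonalSubgroup K := fun z hz hcz =>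
    mem_diagonal_of_commute P coxE6 hrN hN j hj (y := ⟨y, hyT⟩) hv' hregv hz hcz
  have hh' : n'⁻¹ * (dd : GL chevE6.Idx K) ∈ chevE6.diagonalSubgroup K := by
    refine hCy _ (mul_mem (inv_mem n.2) dd.2) ?_
    have e2 : n'⁻¹ * y ^ q * n' = y := by rw [← hny]; group
    calc y * (n'⁻¹ * dd) = n'⁻¹ * y ^ q * n' * (n'⁻¹ * dd) := by rw [e2]
      _ = n'⁻¹ * y ^ q * dd := by group
      _ = n'⁻¹ * ((dd : GL chevE6.Idx K) * y * (dd : GL chevE6.Idx K)⁻¹) * dd := by rw [hddy]
      _ = _ := by group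
  -- standard position
  obtain ⟨Lw, L₁, L₆, hA₁, hpow, hL₆, hblock⟩ := exists_D4 C L.reverse hN0 hAN hchar
  rw [← hA] at hA₁
  obtain ⟨hU1, hU2⟩ := actMat_mul_reverse C (valMap_lt C Lw)
  set U := actMat C (Lw.map Fin.val) with hU
  set Ui := actMat C (Lw.map Fin.val).reverse with hUi
  have hrr : L₁.reverse.reverse = L₁ := List.reverse_reverse L₁
  have hchar₁ : (actMat C (L₁.map Fin.val)).charpoly = cyclotomic 12 ℤ * (X ^ 2 + X + 1) := by
    rw [hA₁, Matrix.mul_assoc, Matrix.charpoly_mul_comm, Matrix.mul_assoc, hU2, Matrix.mul_one, hchar]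
  have hAN₁ : actMat C (L₁.map Fin.val) ^ N = 1 := by
    have hk : ∀ k : ℕ, (U * A * Ui) ^ k = U * A ^ k * Ui := by
      intro k
      induction k with
      | zero => rw [pow_zero, pow_zero, Matrix.mul_one, hU1]
      | succ k ih =>
        rw [pow_succ, ih, pow_succ]
        calc U * A ^ k * Ui * (U * A * Ui) = U * A ^ k * (Ui * U) * A * Ui := by simp only [Matrix.mul_assoc]
          _ = _ := by rw [hU2, Matrix.mul_one]; simp only [Matrix.mul_assoc]
    rw [hA₁, hk, hAN, Matrix.mul_one, hU1]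
  let f := Int.castRingHom (ZMod r)
  have heig₁ : (actMat C (L₁.map Fin.val)).map f *ᵥ (U.map f *ᵥ v) = (q : ZMod r) • (U.map f *ᵥ v) := by
    rw [hA₁, Matrix.map_mul, Matrix.map_mul, Matrix.mulVec_mulVec, Matrix.mul_assoc (U.map f * A.map f),
      ← Matrix.map_mul (L := Ui) (M := U), hU2, Matrix.map_one _ (map_zero f) (map_one f), Matrix.mul_one,
      ← Matrix.mulVec_mulVec, heig, Matrix.mulVec_smul]
  have hv₁ : U.map f *ᵥ v ≠ 0 := fun h => hv0 (by
    have h1 := congrArg (fun x => Ui.map f *ᵥ x) h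
    rw [Matrix.mulVec_mulVec, ← Matrix.map_mul, hU2, Matrix.map_one _ (map_zero f) (map_one f),
      Matrix.one_mulVec, Matrix.mulVec_zero] at h1
    exact h1)
  obtain ⟨gt, hgt⟩ := thetaSt_surjective C g
  refine ⟨r, inferInstance, hr, hd, K, inferInstance, inferInstance, ι, φ, hφ,
    ⟨[2, 5, 6, 8, 9, 12].prod, hdN, hK⟩, toSt chevE6 K (wordW (K := K) Lw.reverse : chevE6.SteinbergCover K) * gt,
    L₁.reverse, L₆, U.map f *ᵥ v, ?_, by rw [hrr]; exact hchar₁, by rw [hrr]; exact hpow, hL₆, hblock, hv₁,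
    by rw [hrr]; exact heig₁, (regular_E6 C L₁ hN0 hAN₁ hchar₁ hr hd hv₁ heig₁).1⟩
  have happ : ∀ A B : List ℕ, C.nWordElt K (A ++ B) = C.nWordElt K A * C.nWordElt K B := fun A B => by
    simp [Cert.nWordElt]
  have hgt' : (thetaSt C gt : GL chevE6.Idx K) = g' := by rw [hgt]
  have hd1 : (C.nWordElt K (L.map Fin.val))⁻¹ * (dd : GL chevE6.Idx K) ∈ chevE6.diagonalSubgroup K := by
    have := mul_mem hh₁ hh'
    rwa [show n' = C.nWordElt K (L.map Fin.val) * h₁ from en, _root_.mul_inv_rev, ← mul_assoc,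
      mul_inv_cancel_left] at this
  set a := C.nWordElt K (Lw.reverse.map Fin.val) with ha
  set b := C.nWordElt K (Lw.map Fin.val) with hb
  set w := C.nWordElt K (L.map Fin.val) with hw
  have hab : a * b ∈ chevE6.diagonalSubgroup K := by
    rw [ha, hb, ← happ, ← List.map_append]
    refine C.nWordElt_mem_diagonal coxE6 fun s hs => ?_
    rw [List.map_append, List.map_reverse, act_append, act_reverse_left C (valMap_lt C Lw) hs]
  have hsame : (C.nWordElt K (L₁.reverse.map Fin.val))⁻¹ * (a * w * b) ∈ chevE6.diagonalSubgroup K := by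
    rw [ha, hw, hb, ← happ, ← happ, ← List.map_append, ← List.map_append]
    refine nWord_div_mem_diagonal C coxE6 _ _ ?_
    have hlt : ∀ M : List (Fin chevE6.rank), ∀ x ∈ (M.map Fin.val).reverse, x < chevE6.rank :=
      fun M x hx => valMap_lt C M x (List.mem_reverse.mp hx)
    simp only [List.map_append, List.map_reverse, List.reverse_append, List.reverse_reverse, List.append_assoc]
    rw [actMat_append C (hlt Lw) (fun x hx => (List.mem_append.mp hx).elim (hlt L x) (valMap_lt C Lw x)),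
      actMat_append C (hlt L) (valMap_lt C Lw), hA₁, hA, List.map_reverse]
  have hθ : (thetaSt C (stMap chevE6 φ (toSt chevE6 K (wordW (K := K) Lw.reverse : chevE6.SteinbergCover K) * gt) *
      (toSt chevE6 K (wordW (K := K) Lw.reverse : chevE6.SteinbergCover K) * gt)⁻¹) : GL chevE6.Idx K) =
      a * w * b * (b⁻¹ * (w⁻¹ * (dd : GL chevE6.Idx K)) * b * (a * b)⁻¹) := by
    rw [map_mul (thetaSt C), map_inv, Subgroup.coe_mul, Subgroup.coe_inv, theta_stMap C C, map_mul (thetaSt C),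
      Subgroup.coe_mul, theta_wordW C cornerE6, hgt', map_mul (gmap chevE6 φ), gmap_nWordElt C C φ, ← ha,
      show gmap chevE6 φ g' = (dd : GL chevE6.Idx K) * g' from hdd']
    group
  have hmem : b⁻¹ * (w⁻¹ * (dd : GL chevE6.Idx K)) * b ∈ chevE6.diagonalSubgroup K := by
    have := C.monomial_conj_diagonal (inv_mem (C.nWordElt_mem (valMap_lt C Lw))) hd1
    rwa [inv_inv] at this
  have hfin := mul_mem hsame (mul_mem hmem (inv_mem hab))
  rw [mul_assoc, ← hθ] at hfin
  exact hfin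

end Cfsg.Agent.Chars2.SingerTorus
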