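import Mathlib

/-!
A bound for the determinant of vectors of bounded length for a positive definite integral form.
-/

set_option autoImplicit false

namespace Cfsg.Agent.Chars2.SingerTorus

open Matrix

/-- `det V ^ 2 * det B ≤ c ^ l` when the rows of `V` have `B`-norm at most `c`. -/
theorem det_sq_mul_det_le {l : ℕ} (hl : l ≠ 0) (B M V : Matrix (Fin l) (Fin l) ℤ) {K : ℤ} (hK : 0 < K)
    (δ : Fin l → ℤ) (hδ : ∀ i, 0 ≤ δ i) (hB : K • B = Mᵀ * Matrix.diagonal δ * M) {c : ℤ}
    (hV : ∀ j, (V * B * Vᵀ) j j ≤ c) : V.det ^ 2 * B.det ≤ c ^ l := by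
  classical
  let f : ℤ →+* ℝ := Int.castRingHom ℝ
  set W : Matrix (Fin l) (Fin l) ℤ := K • (V * B * Vᵀ) with hW
  set R : Matrix (Fin l) (Fin l) ℝ := W.map f with hR
  have hW' : W = (V * Mᵀ) * Matrix.diagonal δ * (V * Mᵀ)ᵀ := by
    rw [hW, ← Matrix.smul_mul, ← Matrix.mul_smul, hB, Matrix.transpose_mul, Matrix.transpose_transpose]
    simp only [Matrix.mul_assoc]
  have hpsd : R.PosSemidef := by
    rw [hR, hW', Matrix.map_mul, Matrix.map_mul, Matrix.diagonal_map (map_zero f), Matrix.transpose_map,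
      ← Matrix.conjTranspose_eq_transpose_of_trivial]
    exact (Matrix.PosSemidef.diagonal fun i => by
      show (0 : ℝ) ≤ f (δ i)
      simpa [f] using hδ i).mul_mul_conjTranspose_same _
  have hdet : (f W.det) = R.det := RingHom.map_det f W
  set ev := hpsd.1.eigenvalues with hev
  have hev0 : ∀ i, 0 ≤ ev i := hpsd.eigenvalues_nonneg
  have hsum : ∑ i, ev i ≤ (l : ℝ) * f (K * c) := by
    have h := hpsd.1.trace_eq_sum_eigenvalues
    simp only [RCLike.ofReal_real_eq_id, id] at h
    rw [← h, Matrix.trace]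
    refine le_trans (Finset.sum_le_sum fun i _ => (?_ : R.diag i ≤ f (K * c))) (le_of_eq ?_)
    · show f (W i i) ≤ f (K * c)
      simp only [f, eq_intCast, Int.cast_le, hW, Matrix.smul_apply, smul_eq_mul]
      exact mul_le_mul_of_nonneg_left (hV i) hK.le
    · rw [Finset.sum_const, Finset.card_univ, Fintype.card_fin, nsmul_eq_mul]
  have hl' : (0 : ℝ) < l := by exact_mod_cast Nat.pos_of_ne_zero hl
  have ham : ∏ i, ev i ≤ (f (K * c)) ^ l := by
    have h := Real.geom_mean_le_arith_mean_weighted Finset.univ (fun _ => (l : ℝ)⁻¹) ev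
      (fun _ _ => by positivity) (by rw [Finset.sum_const, Finset.card_univ, Fintype.card_fin, nsmul_eq_mul,
        mul_inv_cancel₀ hl'.ne']) (fun i _ => hev0 i)
    rw [← Finset.mul_sum, Real.finsetProd_rpow _ _ (fun i _ => hev0 i)] at h
    have h2 : ((∏ i, ev i) ^ (l : ℝ)⁻¹) ≤ f (K * c) := h.trans (by
      rw [inv_mul_le_iff₀ hl']; exact hsum)
    have h3 := pow_le_pow_left₀ (Real.rpow_nonneg (Finset.prod_nonneg fun i _ => hev0 i) _) h2 l
    rwa [Real.rpow_inv_natCast_pow (Finset.prod_nonneg fun i _ => hev0 i) hl] at h3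
  have hdet' : f W.det ≤ f ((K * c) ^ l) := by
    rw [hdet, map_pow, hpsd.1.det_eq_prod_eigenvalues]
    simpa using ham
  have h4 : W.det ≤ (K * c) ^ l := by simpa [f] using (Int.cast_le (R := ℝ)).mp (by simpa [f] using hdet')
  have h5 : W.det = K ^ l * (V.det ^ 2 * B.det) := by
    rw [hW, Matrix.det_smul, Fintype.card_fin, Matrix.det_mul, Matrix.det_mul, Matrix.det_transpose]
    ring
  rw [h5, mul_pow] at h4
  exact le_of_mul_le_mul_left h4 (pow_pos hK l)

end Cfsg.Agent.Chars2.SingerTorus
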