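import Mathlib

/-!
Integer matrices of finite order with an eigenvalue of maximal order modulo a prime: the characteristic
polynomial is cyclotomic, every nonzero vector is cyclic, and the solutions of a linear system modulo `n`.
-/

set_option autoImplicit false

namespace Cfsg.Agent.Chars2.SingerTorus

open Polynomial Matrix

variable {l : ℕ}

theorem castMat_mulVec {R : Type*} [CommRing R] (A : Matrix (Fin l) (Fin l) ℤ) (w : Fin l → ℤ) :
    A.map (Int.castRingHom R) *ᵥ (fun i => (w i : R)) = fun i => ((A *ᵥ w) i : R) := by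
  funext i
  simp [Matrix.mulVec, dotProduct]

/-- The characteristic polynomial of an integer matrix of finite order divides a power of `X ^ M - 1`. -/
theorem charpoly_dvd_pow (A : Matrix (Fin l) (Fin l) ℤ) {M : ℕ} (hM : M ≠ 0) (hA : A ^ M = 1) :
    A.charpoly ∣ ((X : ℤ[X]) ^ M - 1) ^ l := by
  classical
  let f : ℤ →+* ℂ := Int.castRingHom ℂ
  refine (Polynomial.map_dvd_map f f.injective_int (Matrix.charpoly_monic A)).mp ?_
  set B := A.map f with hB
  rw [← Matrix.charpoly_map, Polynomial.map_pow, Polynomial.map_sub, Polynomial.map_pow, Polynomial.map_X,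
    Polynomial.map_one, ← hB]
  set g : ℂ[X] := X ^ M - 1 with hg
  have hg0 : g ≠ 0 := (monic_X_pow_sub_C (1 : ℂ) hM).ne_zero
  have hsplit : B.charpoly.Splits := IsAlgClosed.splits _
  rw [hsplit.eq_prod_roots_of_monic (Matrix.charpoly_monic B),
    Multiset.prod_X_sub_C_dvd_iff_le_roots (pow_ne_zero _ hg0), roots_pow, Multiset.le_iff_count]
  intro μ
  by_cases hμ : μ ∈ B.charpoly.roots
  · have h0 : (Matrix.scalar (Fin l) μ - B).det = 0 := by
      rw [← Matrix.eval_charpoly]; exact (mem_roots'.mp hμ).2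
    obtain ⟨v, hv, hv'⟩ := Matrix.exists_mulVec_eq_zero_iff.mpr h0
    rw [Matrix.sub_mulVec, sub_eq_zero] at hv'
    have hk : ∀ k : ℕ, (B ^ k) *ᵥ v = μ ^ k • v := by
      intro k
      induction k with
      | zero => simp
      | succ k ih =>
        rw [pow_succ' B, ← Matrix.mulVec_mulVec, ih, Matrix.mulVec_smul, ← hv', pow_succ, mul_smul]
        simp [Matrix.scalar_apply, Matrix.mulVec_diagonal, funext_iff]
    have h1 := hk M
    rw [hB, ← Matrix.map_pow, hA, Matrix.map_one _ (map_zero f) (map_one f), Matrix.one_mulVec] at h1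
    have hμM : μ ^ M = 1 := by
      obtain ⟨i, hi⟩ := Function.ne_iff.mp hv
      have h2 := congrFun h1 i
      rw [Pi.smul_apply, smul_eq_mul] at h2
      exact (mul_eq_right₀ hi).mp h2.symm
    have hmem : μ ∈ g.roots := by rw [mem_roots hg0]; simp [hg, hμM]
    have h3 : 1 ≤ g.roots.count μ := Multiset.one_le_count_iff_mem.mpr hmem
    calc B.charpoly.roots.count μ ≤ Multiset.card B.charpoly.roots := Multiset.count_le_card _ _
      _ ≤ B.charpoly.natDegree := card_roots' _
      _ = l := by rw [Matrix.charpoly_natDegree_eq_dim, Fintype.card_fin]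
      _ ≤ _ := by rw [Multiset.count_nsmul]; exact Nat.le_mul_of_pos_right _ h3
  · rw [Multiset.count_eq_zero_of_notMem hμ]; exact Nat.zero_le _

/-- The characteristic polynomial is the cyclotomic one. -/
theorem charpoly_eq_cyclotomic (A : Matrix (Fin l) (Fin l) ℤ) {M d r : ℕ} [Fact r.Prime] (hrM : ¬ r ∣ M)
    (hA : A ^ M = 1) {q : ℕ} (hd : orderOf (q : ZMod r) = d) (hl : d.totient = l) (hd0 : 0 < d)
    {v : Fin l → ZMod r} (hv : v ≠ 0)
    (he : A.map (Int.castRingHom (ZMod r)) *ᵥ v = (q : ZMod r) • v) :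
    A.charpoly = cyclotomic d ℤ := by
  classical
  set f := Int.castRingHom (ZMod r) with hf
  set B := A.map f with hB
  have hM : M ≠ 0 := fun h => hrM (h ▸ dvd_zero r)
  have hk : ∀ k : ℕ, (B ^ k) *ᵥ v = (q : ZMod r) ^ k • v := by
    intro k
    induction k with
    | zero => simp
    | succ k ih => rw [pow_succ' B, ← Matrix.mulVec_mulVec, ih, Matrix.mulVec_smul, he, smul_smul, pow_succ]
  have hdM : d ∣ M := by
    rw [← hd, orderOf_dvd_iff_pow_eq_one]
    have h1 := hk M
    rw [hB, ← Matrix.map_pow, hA, Matrix.map_one _ (map_zero f) (map_one f), Matrix.one_mulVec] at h1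
    obtain ⟨i, hi⟩ := Function.ne_iff.mp hv
    have h2 := congrFun h1 i
    rw [Pi.smul_apply, smul_eq_mul] at h2
    exact (mul_eq_right₀ hi).mp h2.symm
  have heval : (A.charpoly.map f).eval (q : ZMod r) = 0 := by
    rw [← Matrix.charpoly_map, Matrix.eval_charpoly]
    refine Matrix.exists_mulVec_eq_zero_iff.mp ⟨v, hv, ?_⟩
    rw [Matrix.sub_mulVec, he]
    funext i
    simp [Matrix.scalar_apply, Matrix.mulVec_diagonal]
  set P := cyclotomic d ℤ with hP
  have hPp : Prime P := (cyclotomic.irreducible hd0).prime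
  set rest := ∏ i ∈ M.divisors.erase d, cyclotomic i ℤ with hrest
  have hsplit : P * rest = X ^ M - 1 := by
    rw [← prod_cyclotomic_eq_X_pow_sub_one (Nat.pos_of_ne_zero hM) ℤ, hrest, hP]
    exact Finset.mul_prod_erase _ (fun i => cyclotomic i ℤ) (Nat.mem_divisors.mpr ⟨hdM, hM⟩)
  have hdvd : A.charpoly ∣ P ^ l * rest ^ l := by
    rw [← mul_pow, hsplit]; exact charpoly_dvd_pow A hM hA
  have hrest0 : ((rest ^ l).map f).eval (q : ZMod r) ≠ 0 := by
    rw [Polynomial.map_pow, eval_pow]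
    refine pow_ne_zero _ ?_
    rw [hrest, Polynomial.map_prod, eval_prod, Finset.prod_ne_zero_iff]
    intro i hi h0
    obtain ⟨hne, hiM⟩ := Finset.mem_erase.mp hi
    haveI : NeZero (i : ZMod r) :=
      ⟨fun h => hrM (((ZMod.natCast_eq_zero_iff _ _).mp h).trans (Nat.dvd_of_mem_divisors hiM))⟩
    rw [map_cyclotomic] at h0
    exact hne ((isRoot_cyclotomic_iff.mp h0).eq_orderOf.trans hd)
  have hPc : P ∣ A.charpoly := by
    by_contra hnd
    obtain ⟨k, hk⟩ := hdvd
    have h1 : P ^ l ∣ k := hPp.pow_dvd_of_dvd_mul_left l hnd ⟨_, hk.symm⟩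
    obtain ⟨k', rfl⟩ := h1
    have h2 : A.charpoly * k' = rest ^ l := by
      refine mul_left_cancel₀ (pow_ne_zero l hPp.ne_zero) ?_
      rw [hk]; ring
    refine hrest0 ?_
    rw [← h2, Polynomial.map_mul, eval_mul, heval, zero_mul]
  refine (eq_of_monic_of_dvd_of_natDegree_le (cyclotomic.monic d ℤ) (Matrix.charpoly_monic A) hPc ?_)
  rw [Matrix.charpoly_natDegree_eq_dim, Fintype.card_fin, natDegree_cyclotomic, hl]

/-- The orbit matrix of a row vector. -/
def orbitMat (A : Matrix (Fin l) (Fin l) ℤ) (w : Fin l → ℤ) : Matrix (Fin l) (Fin l) ℤ :=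
  Matrix.of fun j => w ᵥ* A ^ (j : ℕ)

/-- Every nonzero vector is cyclic when the characteristic polynomial is irreducible. -/
theorem det_orbitMat_ne_zero (A : Matrix (Fin l) (Fin l) ℤ) (hirr : Irreducible A.charpoly)
    {w : Fin l → ℤ} (hw : w ≠ 0) : (orbitMat A w).det ≠ 0 := by
  intro h0
  obtain ⟨c, hc, hc'⟩ := Matrix.exists_vecMul_eq_zero_iff.mpr h0
  let f : ℤ →+* ℚ := Int.castRingHom ℚ
  set B := A.map f
  let w' : Fin l → ℚ := fun i => (w i : ℚ)
  let p : ℚ[X] := ∑ j : Fin l, C (c j : ℚ) * X ^ (j : ℕ)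
  have hp0 : p ≠ 0 := by
    obtain ⟨i, hi⟩ := Function.ne_iff.mp hc
    intro h
    have := congrArg (fun x => x.coeff (i : ℕ)) h
    simp [p, finset_sum_coeff, coeff_C_mul, coeff_X_pow, Fin.val_inj] at this
    exact hi this
  have hdeg : p.degree < l := degree_sum_fin_lt _
  have hmon := Matrix.charpoly_monic A
  have hirr' : Irreducible (A.charpoly.map f) :=
    (IsPrimitive.Int.irreducible_iff_irreducible_map_cast hmon.isPrimitive).mp hirr
  have hcop : IsCoprime (A.charpoly.map f) p := hirr'.coprime_iff_not_dvd.mpr fun hd => by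
    have h1 := Polynomial.degree_le_of_dvd hd hp0
    rw [hmon.degree_map f, degree_eq_natDegree hmon.ne_zero, Matrix.charpoly_natDegree_eq_dim,
      Fintype.card_fin] at h1
    exact absurd (lt_of_le_of_lt h1 hdeg) (lt_irrefl _)
  obtain ⟨a, b, hab⟩ := hcop
  have hwp : w' ᵥ* aeval B p = 0 := by
    have e : ∀ k : ℕ, w' ᵥ* B ^ k = fun i => ((w ᵥ* A ^ k) i : ℚ) := by
      intro k
      funext i
      rw [← Matrix.map_pow]
      simp [Matrix.vecMul, dotProduct, w', f]
    funext i
    have hz := congrFun hc' i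
    simp only [p, map_sum, map_mul, aeval_C, aeval_X_pow, Matrix.vecMul_sum, Finset.sum_apply,
      ← Algebra.smul_def, Matrix.vecMul_smul, Pi.smul_apply, e, smul_eq_mul, Pi.zero_apply]
    simp only [Matrix.vecMul, dotProduct, orbitMat, Matrix.of_apply, Pi.zero_apply] at hz
    exact_mod_cast hz
  have h1 : (a * A.charpoly.map f + b * p) = 1 := hab
  have h2 := congrArg (fun x => w' ᵥ* aeval B x) h1
  simp only [map_add, map_mul, map_one, Matrix.vecMul_one] at h2
  rw [← Matrix.charpoly_map, Matrix.aeval_self_charpoly, mul_zero, zero_add,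
    ← map_mul, mul_comm b p, map_mul, ← Matrix.vecMul_vecMul, hwp, Matrix.zero_vecMul] at h2
  exact hw (funext fun i => by have := congrFun h2 i; simpa [w'] using this.symm)

/-- A vector killed by a matrix modulo `n` is killed by its determinant. -/
theorem det_mul_eq_zero {R : Type*} [CommRing R] (V : Matrix (Fin l) (Fin l) R) {v : Fin l → R}
    (h : V *ᵥ v = 0) (i : Fin l) : V.det * v i = 0 := by
  have h1 : (Matrix.adjugate V * V) *ᵥ v = 0 := by rw [← Matrix.mulVec_mulVec, h, Matrix.mulVec_zero]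
  rw [Matrix.adjugate_mul, Matrix.smul_mulVec, Matrix.one_mulVec] at h1
  exact congrFun h1 i

/-- The orbit matrix annihilates an eigenvector orthogonal to `w`. -/
theorem orbitMat_mulVec {R : Type*} [CommRing R] (A : Matrix (Fin l) (Fin l) ℤ) (w : Fin l → ℤ)
    {v : Fin l → R} {c : R} (he : A.map (Int.castRingHom R) *ᵥ v = c • v)
    (h0 : ∑ i, (w i : R) * v i = 0) : (orbitMat A w).map (Int.castRingHom R) *ᵥ v = 0 := by
  have hk : ∀ k : ℕ, (A ^ k).map (Int.castRingHom R) *ᵥ v = c ^ k • v := by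
    intro k
    induction k with
    | zero => simp [Matrix.map_one]
    | succ k ih =>
      rw [pow_succ' A, Matrix.map_mul, ← Matrix.mulVec_mulVec, ih, Matrix.mulVec_smul, he, smul_smul, pow_succ]
  funext j
  have h1 : ((orbitMat A w).map (Int.castRingHom R) *ᵥ v) j =
      ∑ i, (w i : R) * (((A ^ (j : ℕ)).map (Int.castRingHom R) *ᵥ v) i) := by
    simp only [Matrix.mulVec, dotProduct, Matrix.map_apply, orbitMat, Matrix.of_apply, Matrix.vecMul,
      eq_intCast, Int.cast_sum, Int.cast_mul, Finset.sum_mul, Finset.mul_sum]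
    rw [Finset.sum_comm]
    exact Finset.sum_congr rfl fun i _ => Finset.sum_congr rfl fun k _ => by ring
  rw [h1, hk, Pi.zero_apply]
  simp only [Pi.smul_apply, smul_eq_mul]
  rw [Finset.sum_congr rfl fun i _ => mul_left_comm (w i : R) (c ^ (j : ℕ)) (v i), ← Finset.mul_sum, h0, mul_zero]

/-- The solutions of `B v = 0` in `(ℤ/n)^l`. -/
def solutions (n : ℕ) (B : Matrix (Fin l) (Fin l) ℤ) : AddSubgroup (Fin l → ZMod n) where
  carrier := {v | B.map (Int.castRingHom (ZMod n)) *ᵥ v = 0}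
  zero_mem' := Matrix.mulVec_zero _
  add_mem' := fun {a b} ha hb => by
    show _ *ᵥ (a + b) = 0
    rw [Matrix.mulVec_add, ha, hb, add_zero]
  neg_mem' := fun {a} ha => by
    show _ *ᵥ (-a) = 0
    rw [Matrix.mulVec_neg, ha, neg_zero]

theorem mem_solutions {n : ℕ} {B : Matrix (Fin l) (Fin l) ℤ} {v : Fin l → ZMod n} :
    v ∈ solutions n B ↔ B.map (Int.castRingHom (ZMod n)) *ᵥ v = 0 := Iff.rfl

/-- There are `|det B|` solutions as soon as `det B` divides `n`. -/
theorem card_solutions (n : ℕ) [NeZero n] (B : Matrix (Fin l) (Fin l) ℤ) (hB : B.det ≠ 0)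
    (hdvd : B.det ∣ (n : ℤ)) : Nat.card (solutions n B) = B.det.natAbs := by
  classical
  set D := B.det with hD
  obtain ⟨k, hk⟩ := hdvd
  let L : (Fin l → ℤ) →+ (Fin l → ℤ) := (Matrix.mulVecLin B).toAddMonoidHom
  let φ : (Fin l → ℤ) →+ (Fin l → ZMod n) :=
    AddMonoidHom.mk' (fun w => fun i => ((k * (B.adjugate *ᵥ w) i : ℤ) : ZMod n)) fun a b => by
      funext i; simp [Matrix.mulVec_add, mul_add]
  have hBadj : ∀ w, B *ᵥ (B.adjugate *ᵥ w) = D • w := fun w => by
    rw [Matrix.mulVec_mulVec, Matrix.mul_adjugate, Matrix.smul_mulVec, Matrix.one_mulVec]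
  have hadjB : ∀ w, B.adjugate *ᵥ (B *ᵥ w) = D • w := fun w => by
    rw [Matrix.mulVec_mulVec, Matrix.adjugate_mul, Matrix.smul_mulVec, Matrix.one_mulVec]
  have hk0 : k ≠ 0 := by
    rintro rfl
    rw [mul_zero] at hk
    exact NeZero.ne n (by exact_mod_cast hk)
  have hrange : φ.range = solutions n B := by
    refine le_antisymm ?_ fun v hv => ?_
    · rintro _ ⟨w, rfl⟩
      show B.map (Int.castRingHom (ZMod n)) *ᵥ (fun i => ((k * (B.adjugate *ᵥ w) i : ℤ) : ZMod n)) = 0
      rw [castMat_mulVec]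
      funext i
      rw [show (fun i => k * (B.adjugate *ᵥ w) i) = k • (B.adjugate *ᵥ w) from rfl, Matrix.mulVec_smul,
        hBadj, Pi.zero_apply, ZMod.intCast_zmod_eq_zero_iff_dvd, Pi.smul_apply, Pi.smul_apply, smul_eq_mul,
        smul_eq_mul, hk]
      exact ⟨w i, by ring⟩
    · let u : Fin l → ℤ := fun i => (v i).cast
      have hu : (fun i => (u i : ZMod n)) = v := funext fun i => ZMod.intCast_zmod_cast (v i)
      have h0 : ∀ i, (n : ℤ) ∣ (B *ᵥ u) i := fun i => by
        rw [← ZMod.intCast_zmod_eq_zero_iff_dvd]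
        have := congrFun (mem_solutions.mp hv) i
        rw [← hu, castMat_mulVec] at this
        exact this
      choose w hw using h0
      refine ⟨w, ?_⟩
      show (fun i => ((k * (B.adjugate *ᵥ w) i : ℤ) : ZMod n)) = v
      rw [← hu]
      funext i
      congr 1
      have h1 := congrFun (hadjB u) i
      rw [show B *ᵥ u = (n : ℤ) • w from funext hw, Matrix.mulVec_smul, Pi.smul_apply, Pi.smul_apply,
        smul_eq_mul, smul_eq_mul, hk, mul_assoc] at h1
      exact mul_left_cancel₀ hB h1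
  have hker : φ.ker = L.range := by
    refine le_antisymm (fun w hw => ?_) ?_
    · have h0 : ∀ i, (n : ℤ) ∣ k * (B.adjugate *ᵥ w) i := fun i => by
        rw [← ZMod.intCast_zmod_eq_zero_iff_dvd]; exact congrFun hw i
      choose u hu using h0
      refine ⟨u, funext fun i => mul_left_cancel₀ hB ?_⟩
      show D * (B *ᵥ u) i = D * w i
      have h1 : B.adjugate *ᵥ w = D • u := funext fun j => mul_left_cancel₀ hk0 (by
        rw [hu, Pi.smul_apply, smul_eq_mul, hk]; ring)
      have h2 := congrFun (hBadj w) i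
      rw [h1, Matrix.mulVec_smul] at h2
      simpa using h2
    · rintro _ ⟨u, rfl⟩
      funext i
      show ((k * (B.adjugate *ᵥ (B *ᵥ u)) i : ℤ) : ZMod n) = 0
      rw [hadjB, ZMod.intCast_zmod_eq_zero_iff_dvd, Pi.smul_apply, smul_eq_mul, hk]
      exact ⟨u i, by ring⟩
  have hinj : Function.Injective L := by
    rw [injective_iff_map_eq_zero]
    intro w hw
    by_contra h
    exact hB (Matrix.exists_mulVec_eq_zero_iff.mp ⟨w, h, hw⟩)
  let e : (Fin l → ℤ) ≃ₗ[ℤ] L.range := (AddMonoidHom.ofInjective hinj).toIntLinearEquiv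
  let bN : Module.Basis (Fin l) ℤ L.range := (Pi.basisFun ℤ (Fin l)).map e
  rw [← hrange, ← Nat.card_congr (QuotientAddGroup.quotientKerEquivRange φ).toEquiv, hker]
  show L.range.index = _
  rw [AddSubgroup.index_eq_natAbs_det (Pi.basisFun ℤ (Fin l)) L.range bN,
    Pi.basisFun_det_apply, hD, ← Matrix.det_transpose]
  congr 2
  ext i j
  rw [Matrix.transpose_apply, Matrix.of_apply]
  show (L (Pi.basisFun ℤ (Fin l) j)) i = B i j
  simp [L]

/-- An abelian group of order `m` with a homomorphism to a cyclic group whose kernel has exponent `2`. -/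
theorem isCyclic_of_hom {S C : Type*} [CommGroup S] [Finite S] [Group C] [IsCyclic C] (ψ : S →* C)
    (hker : ∀ x, ψ x = 1 → x ^ 2 = 1) (h4 : ψ.ker = ⊥ ∨ ¬ 4 ∣ Nat.card S) : IsCyclic S := by
  classical
  by_cases hk : ψ.ker = ⊥
  · exact isCyclic_of_injective ψ ((MonoidHom.ker_eq_bot_iff ψ).mp hk)
  have h4' : ¬ 4 ∣ Nat.card S := h4.resolve_left hk
  have hpg : IsPGroup 2 ψ.ker := fun x => ⟨1, Subtype.ext (by simpa using hker x x.2)⟩
  haveI : Fact (Nat.Prime 2) := ⟨Nat.prime_two⟩
  obtain ⟨k, hcard⟩ := IsPGroup.iff_card.mp hpg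
  have hk1 : k = 1 := by
    have h1 : 2 ^ k ∣ Nat.card S := hcard ▸ Subgroup.card_subgroup_dvd_card _
    have h2 : k ≠ 0 := fun h => hk (Subgroup.card_eq_one.mp (by rw [hcard, h, pow_zero]))
    by_contra h3
    exact h4' ((show 2 ^ 2 ∣ 2 ^ k from pow_dvd_pow 2 (by omega)).trans h1)
  have hS : Nat.card S = Nat.card ψ.range * 2 := by
    rw [← Nat.card_congr (QuotientGroup.quotientKerEquivRange ψ).toEquiv, ← pow_one 2, ← hk1, ← hcard]
    exact Subgroup.card_eq_card_quotient_mul_card_subgroup ψ.ker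
  have hodd : (Nat.card ψ.range).Coprime 2 := by
    refine Nat.Coprime.symm ((Nat.prime_two.coprime_iff_not_dvd).mpr fun h => h4' ?_)
    rw [hS]; exact Nat.mul_dvd_mul h dvd_rfl
  obtain ⟨⟨y, x, rfl⟩, hy⟩ := IsCyclic.exists_ofOrder_eq_natCard (α := ψ.range)
  obtain ⟨z, hz⟩ := exists_prime_orderOf_dvd_card' 2 (G := ψ.ker) (dvd_of_eq (by rw [hcard, hk1, pow_one]))
  refine IsCyclic.iff_exponent_eq_card.mpr (Nat.dvd_antisymm Group.exponent_dvd_nat_card ?_)
  rw [hS]
  refine hodd.mul_dvd_of_dvd_of_dvd ?_ ?_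
  · rw [← hy, ← Subgroup.orderOf_coe]
    have h1 : orderOf (ψ x) ∣ orderOf x := orderOf_map_dvd ψ x
    exact h1.trans (Monoid.order_dvd_exponent x)
  · rw [← hz, ← Subgroup.orderOf_coe z]
    exact Monoid.order_dvd_exponent _

end Cfsg.Agent.Chars2.SingerTorus
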