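import Cfsg.Agent.Chars2.SingerTorus.Congruence
import Cfsg.Agent.Chars2.SingerTorus.Lattice
import Cfsg.Agent.Chars2.SingerTorus.Gram
import Cfsg.Agent.Chev.CoxCheck

/-!
Weyl words of type `E₆` whose characteristic polynomial is divisible by the twelfth cyclotomic one.
-/

set_option autoImplicit false
set_option linter.unusedSectionVars false

universe u

namespace Cfsg.Agent.Chars2.SingerTorus

open Cfsg.Lie Cfsg.Agent.Chev Matrix Polynomial

section Generic

variable {D : ChevalleyDatum} (C : Cert.{u} D)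
include C

/-- Without fixed vector the block minus one is nonsingular, and it kills congruence witnesses. -/
theorem block_eval_one (J : Finset (Fin D.rank)) {L : List (Fin D.rank)} (hL : ∀ a ∈ L, a ∈ J)
    (hfix : ∀ c : Fin D.rank → ℤ, (∀ i ∉ J, c i = 0) → c ᵥ* actMat C (L.map Fin.val) = c → c = 0) :
    ((actMat C (L.map Fin.val)).toSquareBlockProp (fun i => i ∈ J)).charpoly.eval 1 ≠ 0 ∧
      ∀ (n : ℤ) (w : Fin D.rank → ℤ), (∀ i ∉ J, w i = 0) → (∀ a ∈ J, n ∣ ∑ k, w k * cartT D k a) → ∀ i ∈ J,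
        n ∣ ((actMat C (L.map Fin.val)).toSquareBlockProp (fun i => i ∈ J)).charpoly.eval 1 * w i := by
  classical
  obtain ⟨Z, hZ, e⟩ := exists_actMat_sub_one C J hL
  set A := actMat C (L.map Fin.val) with hA
  set AJ := A.toSquareBlockProp fun i => i ∈ J with hAJ
  set Mj : Matrix {i // i ∈ J} {i // i ∈ J} ℤ := Matrix.scalar {i // i ∈ J} (1 : ℤ) - AJ with hMj
  have hev : AJ.charpoly.eval 1 = Mj.det := Matrix.eval_charpoly AJ 1
  have hentry : ∀ a b, Mj a b = - (A - 1) a.1 b.1 := fun a b => by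
    rw [hMj, Matrix.sub_apply, Matrix.scalar_apply, Matrix.sub_apply, Matrix.one_apply]
    simp only [hAJ, Matrix.toSquareBlockProp_def, Matrix.of_apply, Matrix.diagonal_apply, Subtype.ext_iff]
    split_ifs <;> ring
  have hsum : ∀ (c : Fin D.rank → ℤ), (∀ i ∉ J, c i = 0) → ∀ b : {i // i ∈ J},
      ((fun a : {i // i ∈ J} => c a.1) ᵥ* Mj) b = - ∑ k, c k * (A - 1) k b.1 := by
    intro c hc b
    rw [← Finset.sum_subset (Finset.subset_univ J) (fun k _ hk => by rw [hc k hk, zero_mul]),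
      ← Finset.sum_coe_sort, ← Finset.sum_neg_distrib]
    exact Finset.sum_congr rfl fun a _ => by show c a.1 * Mj a b = _; rw [hentry, mul_neg]
  constructor
  · rw [hev]
    intro h0
    obtain ⟨c, hc, hc'⟩ := Matrix.exists_vecMul_eq_zero_iff.mpr h0
    let c' : Fin D.rank → ℤ := fun i => if h : i ∈ J then c ⟨i, h⟩ else 0
    have hsupp : ∀ i ∉ J, c' i = 0 := fun i hi => dif_neg hi
    have hc'' : (fun a : {i // i ∈ J} => c' a.1) = c := funext fun a => dif_pos a.2
    have hz : c' ᵥ* A = c' := by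
      funext b
      have h1 : ∑ k, c' k * (A - 1) k b = 0 := by
        by_cases hb : b ∈ J
        · have := hsum c' hsupp ⟨b, hb⟩
          rw [hc'', hc', Pi.zero_apply] at this
          exact neg_eq_zero.mp this.symm
        · refine Finset.sum_eq_zero fun k _ => ?_
          rw [Matrix.sub_apply, hA]
          show c' k * (C.coef (act D (L.map Fin.val) (D.simple k)) b - _) = 0
          rw [coef_act_of_notMem C J hL (C.simple_lt k k.isLt) hb, C.coef_simple k k.isLt b b.isLt, Matrix.one_apply]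
          simp [Fin.ext_iff, eq_comm]
      simp only [Matrix.sub_apply, mul_sub, Finset.sum_sub_distrib, Matrix.one_apply, mul_ite, mul_one, mul_zero,
        Finset.sum_ite_eq', Finset.mem_univ, if_true, sub_eq_zero] at h1
      exact h1
    have hzero := hfix c' hsupp hz
    exact hc (funext fun a => by rw [← hc'']; exact congrFun hzero a.1)
  · intro n w hw hwB i hi
    rw [hev]
    have h1 : ((fun a : {i // i ∈ J} => w a.1) ᵥ* Mj) ᵥ* Mj.adjugate = Mj.det • fun a : {i // i ∈ J} => w a.1 := by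
      rw [Matrix.vecMul_vecMul, Matrix.mul_adjugate, Matrix.vecMul_smul, Matrix.vecMul_one]
    have h2 := congrFun h1 ⟨i, hi⟩
    rw [Pi.smul_apply, smul_eq_mul] at h2
    rw [← h2]
    refine Finset.dvd_sum fun b _ => dvd_mul_of_dvd_left ?_ _
    rw [hsum w hw b]
    exact (dvd_sum_mul J hZ e hwB b.1).neg_right

theorem actMat_det (L : List ℕ) (hL : ∀ i ∈ L, i < D.rank) : IsUnit (actMat C L).det :=
  IsUnit.of_mul_eq_one (actMat C L.reverse).det (by rw [← Matrix.det_mul, (actMat_mul_reverse C hL).1, Matrix.det_one])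

theorem pairInt_act {L : List ℕ} (hL : ∀ i ∈ L, i < D.rank) {r s : ℕ} (hr : r < D.nroots) (hs : s < D.nroots) :
    pairInt D (act D L r) (act D L s) = pairInt D r s := by
  induction L with
  | nil => rfl
  | cons a L ih =>
    have hL' : ∀ i ∈ L, i < D.rank := fun i hi => hL i (List.mem_cons_of_mem _ hi)
    rw [act_cons, act_cons, C.pairInt_refl (hL a List.mem_cons_self) (C.act_lt hL' hr) (C.act_lt hL' hs), ih hL']

theorem pairInt_neg {r s : ℕ} (hr : r < D.nroots) : pairInt D (D.neg r) s = - pairInt D r s := by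
  rw [Cert.pairInt_eq, Cert.pairInt_eq, ← Finset.sum_neg_distrib]
  exact Finset.sum_congr rfl fun k hk => by rw [C.coroot_neg r hr k (Finset.mem_range.mp hk), neg_mul]

omit C in
/-- An orbit of a vector outside two coprime irreducible factors spans. -/
theorem det_orbitMat_ne_zero_of_two {l : ℕ} (A : Matrix (Fin l) (Fin l) ℤ) (P Q : ℤ[X]) (hP : P.Monic) (hQ : Q.Monic)
    (hPi : Irreducible P) (hQi : Irreducible Q) (hPQ : Polynomial.aeval A (P * Q) = 0)
    (hdeg : l = P.natDegree + Q.natDegree) {w : Fin l → ℤ} (hwP : w ᵥ* Polynomial.aeval A P ≠ 0)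
    (hwQ : w ᵥ* Polynomial.aeval A Q ≠ 0) : (orbitMat A w).det ≠ 0 := by
  classical
  intro h0
  obtain ⟨c, hc, hc'⟩ := Matrix.exists_vecMul_eq_zero_iff.mpr h0
  let p : ℤ[X] := ∑ j : Fin l, Polynomial.C (c j) * X ^ (j : ℕ)
  have hp0 : p ≠ 0 := by
    obtain ⟨i, hi⟩ := Function.ne_iff.mp hc
    intro h
    have := congrArg (fun x => x.coeff (i : ℕ)) h
    simp [p, coeff_X_pow, Fin.val_inj] at this
    exact hi this
  have hdp : p.degree < (l : WithBot ℕ) := degree_sum_fin_lt _
  have hwp : w ᵥ* Polynomial.aeval A p = 0 := by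
    funext i
    have hz := congrFun hc' i
    simp only [p, map_sum, map_mul, aeval_C, aeval_X_pow, Matrix.vecMul_sum, Finset.sum_apply,
      ← Algebra.smul_def, Matrix.vecMul_smul, Pi.smul_apply, smul_eq_mul, Pi.zero_apply]
    simpa [Matrix.vecMul, dotProduct, orbitMat] using hz
  let f : ℤ →+* ℚ := Int.castRingHom ℚ
  let B := A.map f
  let w' : Fin l → ℚ := fun i => (w i : ℚ)
  have hmapP : ∀ R : ℤ[X], w' ᵥ* Polynomial.aeval B (R.map f) = fun i => ((w ᵥ* Polynomial.aeval A R) i : ℚ) := by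
    intro R
    have e : Polynomial.aeval B (R.map f) = (Polynomial.aeval A R).map f := by
      induction R using Polynomial.induction_on' with
      | add a b ha hb => rw [Polynomial.map_add, map_add, map_add, Matrix.map_add _ (map_add f), ha, hb]
      | monomial n a =>
        rw [Polynomial.map_monomial, aeval_monomial, aeval_monomial, Matrix.map_mul, Matrix.map_pow,
          Matrix.algebraMap_eq_diagonal, Matrix.algebraMap_eq_diagonal, Matrix.diagonal_map (map_zero f)]
        congr 1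
    rw [e]
    funext i
    simp [Matrix.vecMul, dotProduct, w', f]
  have hne : ∀ R : ℤ[X], w ᵥ* Polynomial.aeval A R ≠ 0 → w' ᵥ* Polynomial.aeval B (R.map f) ≠ 0 := fun R h h' => by
    rw [hmapP] at h'
    exact h (funext fun i => by simpa using congrFun h' i)
  set P' := P.map f with hP'
  set Q' := Q.map f with hQ'
  set p' := p.map f with hp'
  have hp'0 : p' ≠ 0 := by rw [hp']; exact (Polynomial.map_ne_zero_iff f.injective_int).mpr hp0
  have hzp : w' ᵥ* Polynomial.aeval B p' = 0 := by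
    rw [hp', hmapP, hwp]; funext i; simp
  have hzPQ : ∀ R, w' ᵥ* Polynomial.aeval B (P' * Q' * R) = 0 := fun R => by
    have h0 : w' ᵥ* Polynomial.aeval B (P' * Q') = 0 := by
      rw [hP', hQ', ← Polynomial.map_mul, hmapP, hPQ]
      funext i
      simp
    rw [map_mul, ← Matrix.vecMul_vecMul, h0, Matrix.zero_vecMul]
  have hstep : ∀ {S T : ℚ[X]}, Irreducible T → (∀ R, w' ᵥ* Polynomial.aeval B (S * T * R) = 0) →
      w' ᵥ* Polynomial.aeval B S ≠ 0 → S ∣ p' → T.natDegree + S.natDegree = l → False := by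
    intro S T hT hST hS hdvd hl
    obtain ⟨s, hs⟩ := hdvd
    have hs0 : S ≠ 0 ∧ s ≠ 0 := mul_ne_zero_iff.mp (hs ▸ hp'0)
    have hdeg' : p'.natDegree < l := by
      rw [hp', natDegree_map_eq_of_injective f.injective_int]
      exact (natDegree_lt_iff_degree_lt hp0).mpr hdp
    have hcop : IsCoprime T s := hT.coprime_iff_not_dvd.mpr fun hd => by
      have h1 := natDegree_le_of_dvd hd hs0.2
      rw [hs, natDegree_mul hs0.1 hs0.2] at hdeg'
      omega
    obtain ⟨a, b, hab⟩ := hcop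
    refine hS ?_
    have h1 : S = S * T * a + p' * b := by rw [hs]; linear_combination (-S) * hab
    rw [h1, map_add, Matrix.vecMul_add, hST, map_mul, ← Matrix.vecMul_vecMul, hzp, Matrix.zero_vecMul, zero_add]
  have hPi' : Irreducible P' := (IsPrimitive.Int.irreducible_iff_irreducible_map_cast hP.isPrimitive).mp hPi
  have hQi' : Irreducible Q' := (IsPrimitive.Int.irreducible_iff_irreducible_map_cast hQ.isPrimitive).mp hQi
  have hdP : P'.natDegree = P.natDegree := hP.natDegree_map f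
  have hdQ : Q'.natDegree = Q.natDegree := hQ.natDegree_map f
  by_cases hPd : P' ∣ p'
  · exact hstep hQi' hzPQ (hne P hwP) hPd (by
      show (Q.map f).natDegree + (P.map f).natDegree = l
      rw [hP.natDegree_map f, hQ.natDegree_map f]; omega)
  by_cases hQd : Q' ∣ p'
  · exact hstep hPi' (fun R => by rw [mul_comm Q' P']; exact hzPQ R) (hne Q hwQ) hQd (by
      show (P.map f).natDegree + (Q.map f).natDegree = l
      rw [hP.natDegree_map f, hQ.natDegree_map f]; omega)
  obtain ⟨a, b, hab⟩ := (hPi'.coprime_iff_not_dvd.mpr hPd).mul_left (hQi'.coprime_iff_not_dvd.mpr hQd)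
  refine hwP ?_
  have h1 : (1 : ℚ[X]) = P' * Q' * a + p' * b := by linear_combination -hab
  have h2 := congrArg (fun x => w' ᵥ* Polynomial.aeval B x) h1
  simp only [map_one, Matrix.vecMul_one, map_add, Matrix.vecMul_add, hzPQ, map_mul _ p' b, ← Matrix.vecMul_vecMul,
    hzp, Matrix.zero_vecMul, zero_add] at h2
  have hw0 : w = 0 := funext fun i => by simpa [w'] using congrFun h2 i
  rw [hw0, Matrix.zero_vecMul]

end Generic

/-- Congruence witnesses for the subsets of at least four nodes. -/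
def e6Wit : List (ℕ × List ℕ) :=
  [(5, [4, 1, 3, 2, 0, 0]), (3, [2, 0, 1, 0, 0, 0]), (4, [0, 3, 0, 2, 1, 0]), (3, [0, 2, 0, 1, 0, 0]),
   (3, [0, 0, 0, 0, 2, 1]), (5, [4, 0, 3, 2, 1, 0]), (4, [3, 0, 2, 1, 0, 0]), (4, [0, 0, 0, 3, 2, 1]),
   (2, [0, 0, 1, 0, 1, 0]), (4, [0, 3, 1, 2, 0, 0]), (5, [0, 4, 0, 3, 2, 1]), (5, [0, 0, 4, 3, 2, 1]),
   (4, [2, 1, 0, 2, 3, 0]), (3, [2, 0, 1, 0, 2, 1]), (4, [0, 1, 3, 2, 0, 2]), (3, [1, 0, 2, 0, 1, 2])]

/-- The nodes of the subsystem of type `D₄`. -/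
def e6D4 : Finset (Fin chevE6.rank) := Finset.univ.filter fun i => 1 ≤ (i : ℕ) ∧ (i : ℕ) ≤ 4

theorem e6_witness : ∀ J : Finset (Fin chevE6.rank), 4 ≤ J.card → ∃ e ∈ e6Wit,
    (∀ a ∈ J, (e.1 : ℤ) ∣ ∑ k : Fin chevE6.rank, (if k ∈ J then ((e.2.getD k 0 : ℕ) : ℤ) else 0) * cartT chevE6 k a) ∧
    (J.card = 6 → e.1 = 3) ∧
    ∃ i ∈ J, ¬ (e.1 : ℤ) ∣ ((e.2.getD i 0 : ℕ) : ℤ) ∧ (J = e6D4 ∨ ¬ (e.1 : ℤ) ∣ 2 * ((e.2.getD i 0 : ℕ) : ℤ)) := by
  decide +kernel

theorem cyclotomic_twelve : cyclotomic 12 ℤ = X ^ 4 - X ^ 2 + 1 := by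
  have h := cyclotomic_expand_eq_cyclotomic (p := 2) (n := 6) Nat.prime_two (by norm_num) ℤ
  have h6 : cyclotomic 6 ℤ = X ^ 2 - X + 1 := by
    have h := cyclotomic_expand_eq_cyclotomic_mul (p := 3) (n := 2) Nat.prime_three (by norm_num) ℤ
    rw [cyclotomic_two, map_add, expand_X, map_one, show (2 * 3 : ℕ) = 6 by norm_num] at h
    refine mul_right_cancel₀ (monic_X_add_C (1 : ℤ)).ne_zero ?_
    rw [map_one, ← h]; ring
  rw [h6, map_add, map_sub, map_pow, expand_X, map_one, show (6 * 2 : ℕ) = 12 by norm_num] at h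
  rw [← h]; ring

theorem cyclotomic_three_Z : cyclotomic 3 ℤ = X ^ 2 + X + 1 := by
  rw [cyclotomic_prime]; simp [Finset.sum_range_succ]; ring

theorem abs_coeff_one_le {p : ℤ[X]} (hp : p.Monic) (h2 : p.natDegree = 2) (h0 : IsUnit (p.coeff 0)) {N l : ℕ}
    (hN : N ≠ 0) (hdvd : p ∣ (X ^ N - 1) ^ l) : |p.coeff 1| ≤ 2 := by
  set q := p.map (Int.castRingHom ℂ) with hq
  have hqd : q.natDegree = 2 := by rw [hq, hp.natDegree_map, h2]
  obtain ⟨μ, hμ⟩ := IsAlgClosed.exists_root q (fun h => by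
    rw [degree_eq_natDegree (hp.map _).ne_zero, hqd] at h
    exact absurd h (by norm_num))
  have hμ1 : ‖μ‖ = 1 := by
    refine Complex.norm_eq_one_of_pow_eq_one (n := N) ?_ hN
    have h1 := eval_dvd (x := μ) (Polynomial.map_dvd (Int.castRingHom ℂ) hdvd)
    rw [hμ.eq_zero, zero_dvd_iff, Polynomial.map_pow, eval_pow] at h1
    have h3 := pow_eq_zero_iff'.mp h1
    simp only [Polynomial.map_sub, Polynomial.map_pow, map_X, Polynomial.map_one, eval_sub, eval_pow, eval_X,
      eval_one, sub_eq_zero] at h3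
    exact h3.1
  have he : μ ^ 2 + (p.coeff 1 : ℂ) * μ + (p.coeff 0 : ℂ) = 0 := by
    have h := hμ.eq_zero
    rw [eval_eq_sum_range, hqd] at h
    simp only [Finset.sum_range_succ, Finset.sum_range_zero, zero_add, hq, coeff_map, eq_intCast, pow_zero,
      mul_one, pow_one] at h
    have h2c : p.coeff 2 = 1 := by rw [← h2]; exact hp.coeff_natDegree
    rw [h2c, Int.cast_one, one_mul] at h
    linear_combination h
  have hb : ‖(p.coeff 0 : ℂ)‖ = 1 := by
    rcases Int.isUnit_iff.mp h0 with h | h <;> simp [h]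
  have hle : ‖(p.coeff 1 : ℂ)‖ ≤ 2 := by
    have e : (p.coeff 1 : ℂ) * μ = -(μ ^ 2 + (p.coeff 0 : ℂ)) := by linear_combination he
    have h1 := congrArg (fun z : ℂ => ‖z‖) e
    simp only [norm_mul, norm_neg, hμ1, mul_one] at h1
    rw [h1]
    refine (norm_add_le _ _).trans (le_of_eq ?_)
    rw [norm_pow, hμ1, hb]; norm_num
  rw [Complex.norm_intCast] at hle
  exact_mod_cast hle

section E6

variable (C : Cert.{u} chevE6)
include C

/-- The characteristic polynomial of such a word. -/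
theorem charpoly_E6 (L : List (Fin chevE6.rank)) {N : ℕ} (hN0 : N ≠ 0)
    (hN : actMat C (L.map Fin.val) ^ N = 1)
    (hdvd : cyclotomic 12 ℤ ∣ (actMat C (L.map Fin.val)).charpoly) :
    (actMat C (L.map Fin.val)).charpoly = cyclotomic 12 ℤ * (X ^ 2 + X + 1) := by
  classical
  obtain ⟨Lw, L', J, hL', e, hfix⟩ := exists_parabolic C coxE6 L hN0 hN
  obtain ⟨hne, hcon⟩ := block_eval_one C J hL' hfix
  set cJ := ((actMat C (L'.map Fin.val)).toSquareBlockProp fun i => i ∈ J).charpoly with hcJ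
  have hchar : (actMat C (L.map Fin.val)).charpoly = cJ * (X - 1) ^ (chevE6.rank - J.card) := by
    rw [hcJ, ← charpoly_block C J hL', e, Matrix.mul_assoc, Matrix.charpoly_mul_comm, Matrix.mul_assoc,
      (actMat_mul_reverse C (valMap_lt C Lw)).2, Matrix.mul_one]
  have hprime : Prime (cyclotomic 12 ℤ) := (cyclotomic.irreducible (by norm_num)).prime
  have hmon12 := cyclotomic.monic 12 ℤ
  have hd12 : (cyclotomic 12 ℤ).natDegree = 4 := by rw [natDegree_cyclotomic]; decide
  have hnot : ¬ cyclotomic 12 ℤ ∣ (X - 1) ^ (chevE6.rank - J.card) := fun h => by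
    have h1 := natDegree_le_of_dvd (hprime.dvd_of_dvd_pow h) (monic_X_sub_C (1 : ℤ)).ne_zero
    rw [hd12, show (X - 1 : ℤ[X]) = X - Polynomial.C 1 by rw [map_one], natDegree_X_sub_C] at h1
    omega
  obtain ⟨p, hp⟩ : cyclotomic 12 ℤ ∣ cJ := ((hprime.dvd_mul).mp (hchar ▸ hdvd)).resolve_right hnot
  have hcmon : cJ.Monic := Matrix.charpoly_monic _
  have hpmon : p.Monic := hmon12.of_mul_monic_left (hp ▸ hcmon)
  have hdeg : 4 + p.natDegree = J.card := by
    rw [← hd12, ← natDegree_mul hmon12.ne_zero hpmon.ne_zero, ← hp, hcJ, Matrix.charpoly_natDegree_eq_dim,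
      Fintype.card_coe]
  have hc0 : IsUnit ((actMat C (L.map Fin.val)).charpoly.eval 0) := by
    rw [Matrix.eval_charpoly, map_zero, zero_sub, Matrix.det_neg]
    exact IsUnit.mul ((isUnit_one.neg).pow _) (actMat_det C _ (valMap_lt C L))
  have hpunit : IsUnit (p.coeff 0) := by
    rw [hchar, hp, eval_mul, eval_mul, ← coeff_zero_eq_eval_zero p] at hc0
    exact isUnit_of_mul_isUnit_right (isUnit_of_mul_isUnit_left hc0)
  have hev : cJ.eval 1 = p.eval 1 := by rw [hp, eval_mul, cyclotomic_twelve]; simp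
  obtain ⟨w, hwm, hwB, hw6, i, hi, hwi, hwi2⟩ := e6_witness J (by omega)
  have hcon' : (w.1 : ℤ) ∣ p.eval 1 * ((w.2.getD i 0 : ℕ) : ℤ) := by
    have := hcon (w.1 : ℤ) (fun k => if k ∈ J then ((w.2.getD k 0 : ℕ) : ℤ) else 0) (fun k hk => if_neg hk) hwB i hi
    simpa only [if_pos hi, hev] using this
  rw [hev] at hne
  have hJ6 : J.card ≤ 6 := le_trans (Finset.card_le_univ J) (le_of_eq (by simp; rfl))
  have hm : p.natDegree = 0 ∨ p.natDegree = 1 ∨ p.natDegree = 2 := by omega
  rcases hm with h | h | h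
  · rw [eq_one_of_monic_natDegree_zero hpmon h, eval_one, one_mul] at hcon'
    exact absurd hcon' hwi
  · rw [hpmon.eq_X_add_C h, eval_add, eval_X, eval_C] at hne hcon'
    have hne6 : J ≠ e6D4 := fun h' => by
      rw [h', show e6D4.card = 4 by decide +kernel] at hdeg
      omega
    rcases Int.isUnit_iff.mp hpunit with h1 | h1 <;> rw [h1] at hne hcon'
    · exact absurd hcon' (hwi2.resolve_left hne6)
    · exact absurd (by norm_num) hne
  · have hJ : J.card = 6 := by omega
    have hn3 := hw6 hJ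
    have hpd : p ∣ ((X : ℤ[X]) ^ N - 1) ^ chevE6.rank :=
      (Dvd.intro_left _ hp.symm).trans ((Dvd.intro _ hchar.symm).trans (charpoly_dvd_pow _ hN0 hN))
    have ha := abs_coeff_one_le hpmon h hpunit hN0 hpd
    have hp2 : p = X ^ 2 + Polynomial.C (p.coeff 1) * X + Polynomial.C (p.coeff 0) := by
      conv_lhs => rw [hpmon.as_sum, h]
      simp [Finset.sum_range_succ]; ring
    rw [hp2] at hne hcon'
    simp only [eval_add, eval_pow, eval_X, eval_mul, eval_C, one_pow, mul_one] at hne hcon'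
    have h3 : (3 : ℤ) ∣ 1 + p.coeff 1 + p.coeff 0 := by
      rw [hn3] at hcon' hwi
      exact ((Int.prime_iff_natAbs_prime.mpr (by norm_num : Nat.Prime (3 : ℤ).natAbs)).dvd_mul.mp hcon').resolve_right
        (by exact_mod_cast hwi)
    rw [abs_le] at ha
    have hab : p.coeff 1 = 1 ∧ p.coeff 0 = 1 := by
      rcases Int.isUnit_iff.mp hpunit with h1 | h1 <;> omega
    rw [hchar, show chevE6.rank - J.card = 0 by rw [hJ]; rfl, pow_zero, mul_one, hp, hp2, hab.1, hab.2]
    simp

end E6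

end Cfsg.Agent.Chars2.SingerTorus
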