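import Cfsg.Agent.Chars2.SingerTorus.E6Weyl
import Cfsg.Agent.KnownA.Cover.EmbedCases

/-!
Roots of `E₆` inside `E₇` and the three roots orthogonal to the subsystem of type `D₄`.
-/

set_option autoImplicit false
set_option linter.unusedSectionVars false
set_option Elab.async false

universe u

namespace Cfsg.Agent.Chars2.SingerTorus

open Cfsg.Lie Cfsg.Agent.Chev Cfsg.Agent.KnownA.Cover Matrix

/-- With a symmetric Cartan matrix the coefficients of a root are those of its coroot. -/
theorem coefVec_eq_corootC {D : ChevalleyDatum} (C : Cert.{u} D)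
    (hsym : ∀ i j : Fin D.rank, D.cartan i (D.simple j) = D.cartan j (D.simple i)) {s : ℕ} (hs : s < D.nroots) :
    coefVec C s = fun k : Fin D.rank => corootC D s k := by
  refine C.induction_simple (fun s => coefVec C s = fun k : Fin D.rank => corootC D s k) (fun i hi => ?_) ?_ s hs
  · funext k
    show C.coef (D.simple i) k = corootC D (D.simple i) k
    rw [C.coef_simple i hi k k.isLt, C.coroot_simple i hi k k.isLt]
  · intro i hi r hr ih
    funext k
    show C.coef (D.reflectRoot i r) k = corootC D (D.reflectRoot i r) k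
    have e : D.cartan i r = ∑ j ∈ Finset.range D.rank, corootC D r j * D.cartan j (D.simple i) := by
      rw [C.cartan_linear i hi r hr]
      refine Finset.sum_congr rfl fun j hj => ?_
      have hj' := Finset.mem_range.mp hj
      rw [← hsym ⟨i, hi⟩ ⟨j, hj'⟩]
      exact congrArg (· * _) (congrFun ih ⟨j, hj'⟩)
    rw [C.coef_refl i hi r hr k k.isLt, C.coroot_refl i hi r hr k k.isLt, ← e]
    exact congrArg (· - _) (congrFun ih k)

theorem coefVec_E6 (C : Cert.{u} chevE6) {s : ℕ} (hs : s < chevE6.nroots) :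
    coefVec C s = fun k : Fin chevE6.rank => corootC chevE6 s k :=
  coefVec_eq_corootC C (by decide +kernel) hs

theorem coefVec_E7 (C : Cert.{u} chevE7) {s : ℕ} (hs : s < chevE7.nroots) :
    coefVec C s = fun k : Fin chevE7.rank => corootC chevE7 s k :=
  coefVec_eq_corootC C (by decide +kernel) hs

theorem coef_E7 (C : Cert.{u} chevE7) {s : ℕ} (hs : s < chevE7.nroots) (k : Fin chevE7.rank) :
    C.coef s k = corootC chevE7 s k := congrFun (coefVec_E7 C hs) k

theorem coef_E6 (C : Cert.{u} chevE6) {s : ℕ} (hs : s < chevE6.nroots) (k : Fin chevE6.rank) :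
    C.coef s k = corootC chevE6 s k := congrFun (coefVec_E6 C hs) k

/-- Twice the inverse of the Cartan matrix. -/
def e7Inv : Matrix (Fin chevE7.rank) (Fin chevE7.rank) ℤ := fun i j => (([[4, 4, 6, 8, 6, 4, 2], [4, 7, 8, 12, 9, 6, 3], [6, 8, 12, 16, 12, 8, 4], [8, 12, 16, 24, 18, 12, 6], [6, 9, 12, 18, 15, 10, 5], [4, 6, 8, 12, 10, 8, 4], [2, 3, 4, 6, 5, 4, 3]] : List (List ℤ)).getD i []).getD j 0

theorem e7Inv_cartT : e7Inv * cartT chevE7 = (2 : ℤ) • 1 ∧ cartT chevE7 * e7Inv = (2 : ℤ) • 1 := by decide +kernel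

theorem det_cartT_E7 : (cartT chevE7).det ≠ 0 := by
  intro h
  have h1 := congrArg Matrix.det e7Inv_cartT.1
  rw [Matrix.det_mul, h, mul_zero, Matrix.det_smul, Matrix.det_one, mul_one] at h1
  exact pow_ne_zero _ (by norm_num) h1.symm

/-- The inclusion of the nodes. -/
def i67 (i : Fin chevE6.rank) : Fin chevE7.rank := ⟨i, Nat.lt_of_lt_of_le i.isLt (by decide)⟩

/-- The inclusion of the roots. -/
def e67 (s : ℕ) : ℕ :=
  (#[6, 10, 13, 15, 16, 19, 21, 22, 24, 25, 26, 28, 29, 30, 31, 32, 35, 37, 38, 40, 41, 42, 44, 45, 46, 47, 49, 50, 51, 52, 54, 55, 56, 58, 59, 61, 64, 66, 67, 69, 70, 71, 73, 74, 75, 76, 78, 79, 80, 81, 83, 84, 85, 87, 88, 90, 93, 94, 95, 96, 97, 99, 100, 101, 103, 104, 106, 109, 110, 112, 115, 119] : Array ℕ).getD s 0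

theorem e67_lt {s : ℕ} (hs : s < chevE6.nroots) : e67 s < chevE7.nroots := by
  have h : ∀ s : Fin chevE6.nroots, e67 s < chevE7.nroots := by decide +kernel
  exact h ⟨s, hs⟩

theorem e67_refl {s : ℕ} (hs : s < chevE6.nroots) (i : Fin chevE6.rank) :
    e67 (chevE6.reflectRoot i s) = chevE7.reflectRoot i (e67 s) := by
  have h : ∀ s : Fin chevE6.nroots, ∀ i : Fin chevE6.rank,
      e67 (chevE6.reflectRoot i s) = chevE7.reflectRoot i (e67 s) := by decide +kernel
  exact h ⟨s, hs⟩ i

theorem e67_cartan {s : ℕ} (hs : s < chevE6.nroots) (i : Fin chevE6.rank) :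
    chevE7.cartan i (e67 s) = chevE6.cartan i s := by
  have h : ∀ s : Fin chevE6.nroots, ∀ i : Fin chevE6.rank, chevE7.cartan i (e67 s) = chevE6.cartan i s := by
    decide +kernel
  exact h ⟨s, hs⟩ i

theorem e67_coroot {s : ℕ} (hs : s < chevE6.nroots) :
    (∀ i : Fin chevE6.rank, corootC chevE7 (e67 s) i = corootC chevE6 s i) ∧ corootC chevE7 (e67 s) 6 = 0 := by
  have h : ∀ s : Fin chevE6.nroots,
      (∀ i : Fin chevE6.rank, corootC chevE7 (e67 s) i = corootC chevE6 s i) ∧ corootC chevE7 (e67 s) 6 = 0 := by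
    decide +kernel
  exact h ⟨s, hs⟩

theorem e67_simple (i : Fin chevE6.rank) : e67 (chevE6.simple i) = chevE7.simple i := by
  revert i; decide +kernel

theorem map_i67 (L : List (Fin chevE6.rank)) : (L.map i67).map Fin.val = L.map Fin.val := by
  rw [List.map_map]; rfl

theorem e67_act (C : Cert.{u} chevE6) (L : List (Fin chevE6.rank)) {s : ℕ} (hs : s < chevE6.nroots) :
    e67 (act chevE6 (L.map Fin.val) s) = act chevE7 (L.map Fin.val) (e67 s) := by
  induction L with
  | nil => rfl
  | cons a L ih =>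
    rw [List.map_cons, act_cons, act_cons, e67_refl (C.act_lt (valMap_lt C L) hs) a, ih]

/-- The roots orthogonal to the nodes of type `D₄`. -/
def e7Orth : List ℕ := [0, 33, 62, 63, 92, 125]

/-- The three positive ones. -/
def e7Beta : List ℕ := [63, 92, 125]

/-- The index of a node of type `D₄`. -/
def e7n4 (j : Fin 4) : Fin chevE7.rank := i67 ⟨(j : ℕ) + 1, Nat.lt_trans (Nat.succ_lt_succ j.isLt) (by decide)⟩

theorem e7Orth_iff : ∀ s : Fin chevE7.nroots,
    ((∀ j : Fin 4, chevE7.cartan (e7n4 j) s = 0) ↔ (s : ℕ) ∈ e7Orth) := by decide +kernel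

theorem e7Orth_six : ∀ s ∈ e7Orth, s < chevE7.nroots ∧
    ((corootC chevE7 s 6 = 1 ∧ s ∈ e7Beta) ∨ (corootC chevE7 s 6 = -1 ∧ chevE7.neg s ∈ e7Beta)) := by
  decide +kernel

theorem e7Beta_facts : ∀ s ∈ e7Beta, s < chevE7.nroots ∧ s ∈ e7Orth ∧ chevE7.neg s ∈ e7Orth ∧
    corootC chevE7 s 6 = 1 := by decide +kernel

/-- Distinct positive roots among them commute. -/
theorem e7Beta_comm : ∀ s ∈ e7Beta, ∀ t ∈ e7Beta, s ≠ t →
    (t ≠ chevE7.neg s ∧ chevE7.commTerms s t = [] ∧ chevE7.commTerms (chevE7.neg s) (chevE7.neg t) = [] ∧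
      chevE7.commTerms (chevE7.neg s) t = [] ∧ chevE7.commTerms s (chevE7.neg t) = [] ∧
      chevE7.neg t ≠ chevE7.neg s ∧ chevE7.neg t ≠ s) := by decide +kernel

theorem e7Beta_refl : ∀ s ∈ [92, 125],
    chevE7.reflectRoot 6 s = s ∧ chevE7.reflectRoot 6 (chevE7.neg s) = chevE7.neg s := by decide +kernel

theorem e7Node_refl : ∀ j : Fin 4, chevE7.reflectRoot 6 (chevE7.simple (e7n4 j)) = chevE7.simple (e7n4 j) := by
  decide +kernel

theorem e7Orth_refl : ∀ j : Fin 4, ∀ s ∈ e7Orth, chevE7.reflectRoot (e7n4 j) s = s := by decide +kernel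

/-- The projection of a root on the nodes of type `D₄` is that of a root of `E₆`. -/
theorem e7proj : ∀ s : Fin chevE7.nroots, (s : ℕ) ∈ e7Orth ∨ ∃ t : Fin chevE6.nroots,
    ∀ j : Fin 4, chevE7.cartan (e7n4 j) (e67 t) = chevE7.cartan (e7n4 j) s := by decide +kernel

/-- The coefficient of the node `i` in the projection. -/
def d4Two (j i : Fin 4) : ℤ := ([[2, 1, 2, 1], [1, 2, 2, 1], [2, 2, 4, 2], [1, 1, 2, 2]].getD j []).getD i 0

/-- The two parts of twice a root. -/
def e7Parts (s : ℕ) (k : Fin chevE7.rank) : ℤ :=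
  (∑ j : Fin 4, ∑ i : Fin 4, chevE7.cartan (e7n4 j) s * d4Two j i * (if k = e7n4 i then 1 else 0)) +
    (pairInt chevE7 63 s * corootC chevE7 63 k + pairInt chevE7 92 s * corootC chevE7 92 k +
      pairInt chevE7 125 s * corootC chevE7 125 k)

theorem e7Parts_simple : ∀ a k : Fin chevE7.rank,
    2 * (if k = a then 1 else 0) = e7Parts (chevE7.simple a) k := by decide +kernel

/-- Twice a root is the sum of its parts along the nodes and along the three roots. -/
theorem e7decomp (C : Cert.{u} chevE7) {s : ℕ} (hs : s < chevE7.nroots) (k : Fin chevE7.rank) :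
    2 * corootC chevE7 s k = e7Parts s k := by
  classical
  have hc : ∀ i : Fin chevE7.rank, chevE7.cartan i s =
      ∑ a : Fin chevE7.rank, corootC chevE7 s a * chevE7.cartan i (chevE7.simple a) := fun i => by
    rw [C.cartan_linear i i.isLt s hs, Finset.sum_range]
    exact Finset.sum_congr rfl fun a _ => congrArg (· * _) (coef_E7 C hs a)
  have hp : ∀ b, pairInt chevE7 b s =
      ∑ a : Fin chevE7.rank, corootC chevE7 s a * pairInt chevE7 b (chevE7.simple a) := fun b => by
    simp only [Cert.pairInt_eq, Finset.sum_range, Finset.mul_sum, hc]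
    rw [Finset.sum_comm]
    exact Finset.sum_congr rfl fun a _ => Finset.sum_congr rfl fun i _ => mul_left_comm _ _ _
  have key : e7Parts s k = ∑ a : Fin chevE7.rank, corootC chevE7 s a * e7Parts (chevE7.simple a) k := by
    simp only [e7Parts, mul_add, Finset.sum_add_distrib, Finset.mul_sum]
    refine congrArg₂ (· + ·) ?_ (congrArg₂ (· + ·) (congrArg₂ (· + ·) ?_ ?_) ?_)
    · symm
      rw [Finset.sum_comm]
      refine Finset.sum_congr rfl fun j _ => ?_
      rw [Finset.sum_comm]
      refine Finset.sum_congr rfl fun i _ => ?_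
      rw [hc, Finset.sum_mul, Finset.sum_mul]
      exact Finset.sum_congr rfl fun a _ => by ring
    all_goals
      rw [hp, Finset.sum_mul]
      exact Finset.sum_congr rfl fun a _ => by ring
  rw [key, Finset.sum_congr rfl fun a _ => by rw [← e7Parts_simple a k], Finset.sum_eq_single k
    (fun a _ ha => by rw [if_neg (Ne.symm ha), mul_zero, mul_zero]) (by simp), if_pos rfl]
  ring

/-- The parities that detect a torus element killed by the seven roots. -/
theorem e7parity : ∀ s : Fin chevE7.nroots,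
    pairInt chevE7 63 s = 2 * corootC chevE7 s 6 - corootC chevE7 s 5 ∧
      pairInt chevE7 92 s = corootC chevE7 s 5 - corootC chevE7 s 0 ∧
        pairInt chevE7 125 s = corootC chevE7 s 0 := by decide +kernel

theorem e7Beta_coroot :
    ([0, 0, 0, 0, 0, 0, 1] : List ℤ) = (List.range 7).map (corootC chevE7 63) ∧
      ([0, 1, 1, 2, 2, 2, 1] : List ℤ) = (List.range 7).map (corootC chevE7 92) ∧
        ([2, 2, 3, 4, 3, 2, 1] : List ℤ) = (List.range 7).map (corootC chevE7 125) := by decide +kernel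

end Cfsg.Agent.Chars2.SingerTorus
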