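import Cfsg.Agent.Chars2.SingerTorus.E7Torus

/-!
Pairings of the roots of `E₇` with vectors.
-/

set_option autoImplicit false
set_option linter.unusedSectionVars false

universe u

namespace Cfsg.Agent.Chars2.SingerTorus

open Cfsg.Lie Cfsg.Agent.Chev Matrix Polynomial

/-- The pairing of a root with a vector. -/
def pr {D : ChevalleyDatum} (C : Cert.{u} D) {R : Type*} [CommRing R] (a : Fin D.rank → R) (s : ℕ) : R :=
  ∑ k : Fin D.rank, (coefVec C s k : R) * a k

section Generic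

variable {D : ChevalleyDatum} (C : Cert.{u} D) {R : Type*} [CommRing R]
include C

theorem pr_act {L : List ℕ} (hL : ∀ i ∈ L, i < D.rank) {a : Fin D.rank → R} {c : R}
    (h : (actMat C L).map (Int.castRingHom R) *ᵥ a = c • a) {s : ℕ} (hs : s < D.nroots) :
    pr C a (act D L s) = c * pr C a s := by
  simp only [pr, coefVec_act C hL hs, Finset.mul_sum]
  have h1 : ∀ k, ((coefVec C s ᵥ* actMat C L) k : R) = ∑ i, (coefVec C s i : R) * (actMat C L i k : R) := fun k => by
    simp [Matrix.vecMul, dotProduct]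
  simp only [h1, Finset.sum_mul]
  rw [Finset.sum_comm]
  refine Finset.sum_congr rfl fun i _ => ?_
  have h2 := congrFun h i
  simp only [Matrix.mulVec, dotProduct, Matrix.map_apply, eq_intCast, Pi.smul_apply, smul_eq_mul] at h2
  rw [← mul_left_comm, ← h2, Finset.mul_sum]
  exact Finset.sum_congr rfl fun k _ => mul_assoc _ _ _

theorem pr_simple (a : Fin D.rank → R) (k : Fin D.rank) : pr C a (D.simple k) = a k := by
  rw [pr, Finset.sum_eq_single k]
  · rw [coefVec, C.coef_simple k k.isLt k k.isLt, if_pos rfl, Int.cast_one, one_mul]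
  · intro b _ hb
    rw [coefVec, C.coef_simple k k.isLt b b.isLt, if_neg fun e => hb (Fin.ext e), Int.cast_zero, zero_mul]
  · simp

theorem pr_neg (a : Fin D.rank → R) {s : ℕ} (hs : s < D.nroots) : pr C a (D.neg s) = - pr C a s := by
  rw [pr, pr, ← Finset.sum_neg_distrib]
  exact Finset.sum_congr rfl fun k _ => by rw [coefVec, coefVec, C.coef_neg s hs k k.isLt, Int.cast_neg, neg_mul]

end Generic

variable (C : Cert.{u} chevE7) {R : Type*} [CommRing R]
include C

theorem pr_sixtythree (a : Fin chevE7.rank → R) : pr C a 63 = a ⟨6, by decide⟩ :=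
  pr_simple C a ⟨6, by decide⟩

/-- Twice a pairing through the nodes and the three roots. -/
theorem two_pr (a : Fin chevE7.rank → R) {s : ℕ} (hs : s < chevE7.nroots) :
    2 * pr C a s = (∑ j : Fin 4, ∑ i : Fin 4, ((chevE7.cartan (e7n4 j) s * d4Two j i : ℤ) : R) * a (e7n4 i)) +
      ((pairInt chevE7 63 s : R) * pr C a 63 + (pairInt chevE7 92 s : R) * pr C a 92 +
        (pairInt chevE7 125 s : R) * pr C a 125) := by
  have h : ∀ k : Fin chevE7.rank, (2 : R) * (coefVec C s k : R) = ((e7Parts s k : ℤ) : R) := fun k => by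
    rw [← e7decomp C hs k, Int.cast_mul, coefVec, coef_E7 C hs k]
    norm_num
  have hlt : ∀ b ∈ e7Beta, b < chevE7.nroots := fun b hb => (e7Beta_facts b hb).1
  have hc : ∀ b ∈ e7Beta, ∀ k : Fin chevE7.rank, (corootC chevE7 b k : R) = (coefVec C b k : R) := fun b hb k => by
    rw [coefVec, coef_E7 C (hlt b hb) k]
  simp only [pr, Finset.mul_sum, ← mul_assoc, h]
  simp only [e7Parts, Int.cast_add, Int.cast_sum, Int.cast_mul, add_mul, Finset.sum_add_distrib, Finset.sum_mul]
  refine congrArg₂ (· + ·) ?_ (congrArg₂ (· + ·) (congrArg₂ (· + ·) ?_ ?_) ?_)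
  · rw [Finset.sum_comm]
    refine Finset.sum_congr rfl fun j _ => ?_
    rw [Finset.sum_comm]
    refine Finset.sum_congr rfl fun i _ => ?_
    rw [Finset.sum_eq_single (e7n4 i) (fun k _ hk => by rw [if_neg hk, Int.cast_zero, mul_zero, zero_mul]) (by simp),
      if_pos rfl, Int.cast_one, mul_one]
  · exact Finset.sum_congr rfl fun k _ => by rw [hc 63 (by simp [e7Beta]) k]
  · exact Finset.sum_congr rfl fun k _ => by rw [hc 92 (by simp [e7Beta]) k]
  · exact Finset.sum_congr rfl fun k _ => by rw [hc 125 (by simp [e7Beta]) k]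

/-- A two-torsion vector vanishing on the nodes, by parities. -/
theorem pr_parity (a : Fin chevE7.rank → R) (h2 : ∀ k, 2 * a k = 0) (hn : ∀ j : Fin 4, a (e7n4 j) = 0)
    (h6 : a ⟨6, by decide⟩ = 0) {s : ℕ} (hs : s < chevE7.nroots) :
    pr C a s = (pairInt chevE7 125 s : R) * a ⟨0, by decide⟩ + (pairInt chevE7 63 s : R) * a ⟨5, by decide⟩ := by
  obtain ⟨p63, -, p125⟩ := e7parity ⟨s, hs⟩
  have e : ∀ k : Fin chevE7.rank, (coefVec C s k : R) = (corootC chevE7 s k : R) := fun k => by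
    rw [coefVec, coef_E7 C hs k]
  simp only [pr, e]
  show ∑ k : Fin 7, (corootC chevE7 s k : R) * a k = _
  rw [Fin.sum_univ_seven, show a (1 : Fin 7) = 0 from hn 0, show a (2 : Fin 7) = 0 from hn 1,
    show a (3 : Fin 7) = 0 from hn 2, show a (4 : Fin 7) = 0 from hn 3, show a (6 : Fin 7) = 0 from h6, p125, p63]
  simp only [mul_zero, add_zero, Int.cast_sub, Int.cast_mul, Int.cast_ofNat, sub_mul]
  show (corootC chevE7 s 0 : R) * a ⟨0, by decide⟩ + (corootC chevE7 s 5 : R) * a ⟨5, by decide⟩ = _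
  have := h2 ⟨5, by decide⟩
  linear_combination ((corootC chevE7 s 5 : R) - (corootC chevE7 s 6 : R)) * this

variable (C6 : Cert.{u} chevE6) (L : List (Fin chevE6.rank)) {b₂ b₃ : ℕ}
  (hb : (b₂ = 92 ∧ b₃ = 125) ∨ (b₂ = 125 ∧ b₃ = 92))
  (w1 : act chevE7 (L.map Fin.val) 63 = b₂) (w2 : act chevE7 (L.map Fin.val) b₂ = b₃)
  (w3 : act chevE7 (L.map Fin.val) b₃ = 63)
include C6 hb w1 w2 w3

/-- The three roots along an eigenvector. -/
theorem pr_chain {a : Fin chevE7.rank → R} {c : R}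
    (h : (actMat C ((twistWord L).reverse.map Fin.val)).map (Int.castRingHom R) *ᵥ a = c • a) :
    pr C a b₂ = c * pr C a b₃ ∧ pr C a 63 = c * pr C a b₂ ∧ - pr C a b₃ = c * pr C a 63 := by
  obtain ⟨r2, r3, r1⟩ := rho_inv C6 C L hb w1 w2 w3
  have hlt : ∀ s ∈ [63, 92, 125], s < chevE7.nroots := by decide +kernel
  have m2 : b₂ ∈ [63, 92, 125] := by rcases hb with ⟨rfl, -⟩ | ⟨rfl, -⟩ <;> simp
  have m3 : b₃ ∈ [63, 92, 125] := by rcases hb with ⟨-, rfl⟩ | ⟨-, rfl⟩ <;> simp
  have p2 := pr_act C (valMap_lt C _) h (hlt _ m2)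
  have p3 := pr_act C (valMap_lt C _) h (hlt _ m3)
  have p1 := pr_act C (valMap_lt C _) h (hlt 63 (by simp))
  rw [r2] at p2
  rw [r3] at p3
  rw [r1, pr_neg C a (hlt _ m3)] at p1
  exact ⟨p3, p2, p1⟩

/-- A two-torsion vector fixed by the twisted word and vanishing on the nodes vanishes. -/
theorem eq_zero_of_parity {a : Fin chevE7.rank → R} (h2 : ∀ k, 2 * a k = 0) (hn : ∀ j : Fin 4, a (e7n4 j) = 0)
    (h6 : a ⟨6, by decide⟩ = 0)
    (h : (actMat C ((twistWord L).reverse.map Fin.val)).map (Int.castRingHom R) *ᵥ a = (1 : R) • a) : a = 0 := by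
  obtain ⟨r2, r3, r1⟩ := rho_inv C6 C L hb w1 w2 w3
  set M := (twistWord L).reverse.map Fin.val with hM
  have hMlt : ∀ i ∈ M, i < chevE7.rank := valMap_lt C _
  have hb3 : b₃ < chevE7.nroots := by rcases hb with ⟨-, rfl⟩ | ⟨-, rfl⟩ <;> decide +kernel
  have hlt : ∀ s ∈ [63, 92, 125], s < chevE7.nroots := by decide +kernel
  have key : ∀ s < chevE7.nroots, ∀ b < chevE7.nroots, ∀ b', act chevE7 M b = b' →
      pairInt chevE7 b' (act chevE7 M s) = pairInt chevE7 b s := fun s hs b hb b' e => by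
    rw [← e, pairInt_act C hMlt hb hs]
  have hneg : ∀ t, pairInt chevE7 (chevE7.neg b₃) t = - pairInt chevE7 b₃ t := by
    intro t
    rw [Cert.pairInt_eq, Cert.pairInt_eq, ← Finset.sum_neg_distrib]
    exact Finset.sum_congr rfl fun k hk => by rw [C.coroot_neg _ hb3 k (Finset.mem_range.mp hk), neg_mul]
  have hfix : ∀ s < chevE7.nroots, pr C a (act chevE7 M s) = pr C a s := fun s hs => by
    rw [pr_act C hMlt h hs, one_mul]
  set x := a ⟨0, by decide⟩ with hx
  set y := a ⟨5, by decide⟩ with hy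
  have h0 : (93 : ℕ) < chevE7.nroots := by decide +kernel
  have h5 : (64 : ℕ) < chevE7.nroots := by decide +kernel
  have ev : pairInt chevE7 63 93 = 0 ∧ pairInt chevE7 92 93 = -1 ∧ pairInt chevE7 125 93 = 1 ∧
      pairInt chevE7 63 64 = -1 ∧ pairInt chevE7 92 64 = 1 ∧ pairInt chevE7 125 64 = 0 := by decide +kernel
  obtain ⟨v1, v2, v3, v4, v5, v6⟩ := ev
  have eqn : ∀ s < chevE7.nroots, (pairInt chevE7 125 (act chevE7 M s) : R) * x +
      (pairInt chevE7 63 (act chevE7 M s) : R) * y =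
      (pairInt chevE7 125 s : R) * x + (pairInt chevE7 63 s : R) * y := fun s hs => by
    rw [hx, hy, ← pr_parity C a h2 hn h6 (C.act_lt hMlt hs), ← pr_parity C a h2 hn h6 hs, hfix s hs]
  have h2x : 2 * x = 0 := h2 _
  have h2y : 2 * y = 0 := h2 _
  suffices hxy : x = 0 ∧ y = 0 by
    funext k
    show a k = 0
    have : ∀ k : Fin chevE7.rank, k = ⟨0, by decide⟩ ∨ k = ⟨5, by decide⟩ ∨ k = ⟨6, by decide⟩ ∨ ∃ j, e7n4 j = k := by
      decide +kernel
    rcases this k with rfl | rfl | rfl | ⟨j, rfl⟩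
    exacts [hxy.1, hxy.2, h6, hn j]
  have e0 := eqn 93 h0
  have e5 := eqn 64 h5
  rw [v3, v1] at e0
  rw [v6, v4] at e5
  rcases hb with ⟨rfl, rfl⟩ | ⟨rfl, rfl⟩
  · -- `125 ↦ 92`, `63 ↦ -125`
    have k1 : ∀ s < chevE7.nroots, pairInt chevE7 63 (act chevE7 M s) = pairInt chevE7 92 s := fun s hs =>
      key s hs 92 (hlt _ (by simp)) 63 r2
    have k2 : ∀ s < chevE7.nroots, pairInt chevE7 125 (act chevE7 M s) = - pairInt chevE7 63 s := fun s hs => by
      have h3 := key s hs 63 (hlt _ (by simp)) (chevE7.neg 125) r1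
      rw [hneg] at h3
      exact neg_eq_iff_eq_neg.mp h3
    rw [k1 93 h0, k2 93 h0, v1, v2] at e0
    rw [k1 64 h5, k2 64 h5, v4, v5] at e5
    push_cast at e0 e5
    have hyx : y = -x := by linear_combination -e0
    have hx0 : x = 0 := by linear_combination e5 - h2y
    exact ⟨hx0, by rw [hyx, hx0, neg_zero]⟩
  · -- `92 ↦ 125`, `125 ↦ 63`
    have k1 : ∀ s < chevE7.nroots, pairInt chevE7 63 (act chevE7 M s) = pairInt chevE7 125 s := fun s hs =>
      key s hs 125 (hlt _ (by simp)) 63 r2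
    have k2 : ∀ s < chevE7.nroots, pairInt chevE7 125 (act chevE7 M s) = pairInt chevE7 92 s := fun s hs =>
      key s hs 92 (hlt _ (by simp)) 125 r3
    rw [k1 93 h0, k2 93 h0, v2, v3] at e0
    rw [k1 64 h5, k2 64 h5, v5, v6] at e5
    push_cast at e0 e5
    have hy0 : y = 0 := by linear_combination e0 + h2x
    exact ⟨by linear_combination e5 - hy0, hy0⟩

end Cfsg.Agent.Chars2.SingerTorus
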