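import Cfsg.Agent.Chars2.SingerTorus.E7Twist
import Cfsg.Agent.Chars2.SingerTorus.E7Pair
import Cfsg.Agent.Chars2.SingerTorus.RegularInt

/-!
A cyclic self-centralising torus of `E₇(q)` of order `Φ₁₂(q) (q³ + 1) / (2, q - 1)`.
-/

set_option autoImplicit false
set_option linter.unusedSectionVars false

universe u v

namespace Cfsg.Agent.Chars2.SingerTorus

open Cfsg.Lie Cfsg.Agent.Chev Cfsg.Agent.Chars2.Homocyclic Cfsg.Agent.KnownA.Cover Matrix Polynomial
open scoped MatrixGroups

theorem torusHom_inj_E7 {K : Type} [Field K] : Function.Injective (torusHom (K := K) certE7 cornerE7) :=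
  torusHom_inj (K := K) certE7 certE8 cornerE7 embE78 (by decide +kernel)
    (!![0, -1, 1, 2, 0, 0, -2; -1, -1, 1, 3, 0, 0, -3; -1, -2, 2, 4, 0, 0, -4; -2, -3, 2, 6, 0, 0, -6; -2, -3, 1, 4, 0, 0, -5; -2, -3, 0, 2, -1, 0, -4; -2, -3, -1, 0, -2, -1, -3; -2, -3, -2, -2, -3, -2, -3] : Matrix (Fin 8) (Fin 7) ℤ)
    (by decide +kernel)

/-- Small differences of signed powers are not multiples of the order of the middle part. -/
theorem arith_distinct {q : ℕ} (hq : 2 ≤ q) :
    ∀ x ∈ [(1 : ℤ), -1, q, -q, (q : ℤ) ^ 2, -(q : ℤ) ^ 2], ∀ y ∈ [(1 : ℤ), -1, q, -q, (q : ℤ) ^ 2, -(q : ℤ) ^ 2],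
      (((q ^ 3 + 1) / Nat.gcd 2 (q - 1) : ℕ) : ℤ) ∣ x - y → x = y := by
  have hbound : ∀ x ∈ [(1 : ℤ), -1, q, -q, (q : ℤ) ^ 2, -(q : ℤ) ^ 2], x.natAbs ≤ q ^ 2 := by
    have h1 : 1 ≤ q ^ 2 := Nat.one_le_pow _ _ (by omega)
    have h2 : q ≤ q ^ 2 := Nat.le_self_pow (by norm_num) q
    intro x hx
    simp only [List.mem_cons, List.not_mem_nil, or_false] at hx
    rcases hx with rfl | rfl | rfl | rfl | rfl | rfl <;> simp [Int.natAbs_pow] <;> omega
  by_cases hq4 : 5 ≤ q
  · intro x hx y hy hd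
    by_contra hne
    have h1 := Nat.le_of_dvd (Int.natAbs_pos.mpr (sub_ne_zero.mpr hne)) (Int.natCast_dvd.mp hd)
    have h2 : (x - y).natAbs ≤ q ^ 2 + q ^ 2 := (Int.natAbs_sub_le x y).trans (add_le_add (hbound x hx) (hbound y hy))
    have hg : Nat.gcd 2 (q - 1) ≤ 2 := Nat.le_of_dvd (by norm_num) (Nat.gcd_dvd_left _ _)
    have hg0 : 0 < Nat.gcd 2 (q - 1) := Nat.gcd_pos_of_pos_left _ (by norm_num)
    have h3 : 5 * q ^ 2 ≤ q ^ 3 := by
      rw [pow_succ q 2, mul_comm (q ^ 2)]; exact Nat.mul_le_mul_right _ hq4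
    have h4 : q ^ 3 + 1 < Nat.gcd 2 (q - 1) * ((q ^ 3 + 1) / Nat.gcd 2 (q - 1) + 1) :=
      Nat.lt_mul_div_succ _ hg0
    have h5 : Nat.gcd 2 (q - 1) * ((q ^ 3 + 1) / Nat.gcd 2 (q - 1) + 1) ≤ 2 * (q ^ 2 + q ^ 2 + 1) :=
      Nat.mul_le_mul hg (by omega)
    have h6 : 25 ≤ q ^ 2 := Nat.pow_le_pow_left hq4 2
    omega
  · interval_cases q <;> decide

/-- The two parts of the order are coprime. -/
theorem exists_bezout_E7 {q : ℕ} :
    ∃ x y : ℤ, x * ((cyclotomic 12 ℤ).eval (q : ℤ)) + y * ((q : ℤ) ^ 3 + 1) = 1 := by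
  rw [cyclotomic_twelve]
  obtain ⟨k, hk⟩ : Odd ((q : ℤ) ^ 4 - (q : ℤ) ^ 2 + 1) := by
    rcases Int.even_or_odd (q : ℤ) with h | h
    · exact ((h.pow_of_ne_zero (by norm_num)).sub (h.pow_of_ne_zero (by norm_num))).add_one
    · exact ((h.pow).sub_odd (h.pow)).add_one
  refine ⟨1 - k * ((q : ℤ) ^ 2 + 1), k * ((q : ℤ) ^ 3 - 1), ?_⟩
  simp only [eval_add, eval_sub, eval_pow, eval_X, eval_one]
  linear_combination hk

/-- The orbit of a node spans with index at most two. -/
theorem d4_orbit (C6 : Cert.{u} chevE6) (C7 : Cert.{u} chevE7) (L L₆ : List (Fin chevE6.rank))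
    (hchar : (actMat C6 (L.reverse.map Fin.val)).charpoly = cyclotomic 12 ℤ * (X ^ 2 + X + 1))
    (hpow : actMat C6 (L.reverse.map Fin.val) ^ 6 = actMat C6 (L₆.map Fin.val))
    (hL₆ : ∀ i ∈ L₆, i ∈ e6D4)
    (hblock : ∀ i ∈ e6D4, ∀ k, actMat C6 (L₆.map Fin.val) i k = if i = k then -1 else 0)
    (hc4 : (d4Block C6 L).charpoly = cyclotomic 12 ℤ) :
    (orbitMat (d4Block C6 L) (Pi.single 0 1)).det ≠ 0 ∧
      (orbitMat (d4Block C6 L) (Pi.single 0 1)).det.natAbs ≤ 2 := by
  classical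
  set V := orbitMat (d4Block C6 L) (Pi.single (0 : Fin 4) (1 : ℤ)) with hV
  refine ⟨det_orbitMat_ne_zero _ (hc4 ▸ cyclotomic.irreducible (by norm_num)) (fun h => by
    simpa using congrFun h 0), ?_⟩
  let Cm : Matrix (Fin 4) (Fin 4) ℤ := fun i k => chevE6.cartan (e6n4 k) (chevE6.simple (e6n4 i))
  let M₀ : Matrix (Fin 4) (Fin 4) ℤ := fun i j =>
    ([[2, 0, -1, 0], [0, 2, -1, 0], [0, 0, 1, -1], [0, 0, 0, 1]].getD i []).getD j 0
  let δ₀ : Fin 4 → ℤ := fun i => [1, 1, 2, 2].getD i 0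
  have hle := det_sq_mul_det_le (l := 4) (by norm_num) Cm M₀ V (K := 2) (by norm_num) δ₀ (by decide +kernel)
    (by decide +kernel) (c := 2) fun j => by
      set s := act chevE6 (wordPow (L.reverse.map Fin.val) (j : ℕ)) (chevE6.simple (e6n4 0)) with hs
      have hslt : s < chevE6.nroots :=
        C6.act_lt (wordPow_lt (valMap_lt C6 L.reverse) _) (C6.simple_lt (e6n4 0) (e6n4 0).isLt)
      obtain ⟨hsupp, hblk⟩ := block_pow C6 C7 L L₆ hchar hpow hL₆ hblock (j : ℕ) 0
      have hrow : ∀ k, coefVec C6 s k = (actMat C6 (L.reverse.map Fin.val) ^ (j : ℕ)) (e6n4 0) k := fun k => by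
        rw [← actMat_wordPow C6 (valMap_lt C6 L.reverse)]
        rfl
      have hVrow : ∀ i, V j i = coefVec C6 s (e6n4 i) := fun i => by
        rw [hrow, hblk]
        show (Pi.single (0 : Fin 4) (1 : ℤ) ᵥ* d4Block C6 L ^ (j : ℕ)) i = _
        rw [Matrix.single_one_vecMul]
        rfl
      refine le_trans (le_of_eq ?_) (norm_le C6 (fun _ => 1)
        (fun a b => by rw [one_mul, one_mul]; exact e6Cartan_symm a b) (fun _ => le_rfl) hslt)
      rw [sum_supp C6 C7 L L₆ hchar hpow hL₆ hblock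
        (fun i : Fin chevE6.rank => (1 : ℤ) * (C6.coef s i * chevE6.cartan i s)) fun k hk => by
          show (1 : ℤ) * (coefVec C6 s k * _) = 0
          rw [hrow, hsupp k hk, zero_mul, mul_zero]]
      simp only [Matrix.mul_apply, Matrix.transpose_apply, hVrow]
      refine Finset.sum_congr rfl fun i _ => ?_
      rw [one_mul, C6.cartan_linear (e6n4 i) (e6n4 i).isLt s hslt, Finset.sum_range,
        sum_supp C6 C7 L L₆ hchar hpow hL₆ hblock
          (fun m : Fin chevE6.rank => C6.coef s m * chevE6.cartan (e6n4 i) (chevE6.simple m)) fun k hk => by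
            show coefVec C6 s k * _ = 0
            rw [hrow, hsupp k hk, zero_mul], mul_comm]
      rfl
  have hd : Cm.det = 4 := by decide +kernel
  rw [hd] at hle
  have h8 : |V.det| ≤ 2 := abs_le_of_sq_le_sq (by norm_num at hle ⊢; linarith) (by norm_num)
  rw [abs_le] at h8
  omega

set_option maxHeartbeats 4000000 in
set_option maxRecDepth 8000 in
/-- A cyclic self-centralising subgroup of `E₇(q)`. -/
theorem selfCentralizingE7 {F : Type u} [Field F] [Fintype F] :
    ∃ H : Subgroup ↥(chevE7.group F), IsCyclic ↥H ∧ Nat.card ↥H =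
        (Fintype.card F ^ 4 - Fintype.card F ^ 2 + 1) * (Fintype.card F ^ 3 + 1) /
          Nat.gcd 2 (Fintype.card F - 1) ∧
      Subgroup.centralizer (H : Set ↥(chevE7.group F)) = H := by
  classical
  obtain ⟨r, hrf, hr, hd, K, _, _, ι, φ, hφ, ⟨m, hm, hK⟩, gt, L, L₆, v, b₂, b₃, hgtT, hchar, hpow, hL₆, hblock,
    hv, heig, hregv, hb, w1, w2, w3⟩ := exists_twist_E7 (F := F)
  set q := Fintype.card F with hqdef
  have hq : 2 ≤ q := Fintype.one_lt_card
  have h24 : q ^ 2 ≤ q ^ 4 := Nat.pow_le_pow_right (by omega) (by norm_num)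
  have hev : ((cyclotomic 12 ℤ).eval (q : ℤ)) = ((q ^ 4 - q ^ 2 + 1 : ℕ) : ℤ) := by
    rw [cyclotomic_twelve]; push_cast [Nat.cast_sub h24]; simp
  obtain ⟨bx, by', hbez⟩ := exists_bezout_E7 (q := q)
  let C₀ : Cert.{u} chevE7 := certE7
  let C : Cert.{0} chevE7 := certE7
  let C6 : Cert.{0} chevE6 := certE6
  have hm0 : m ≠ 0 := fun h => by
    have := Fintype.one_lt_card (α := K)
    rw [hK, h, pow_zero] at this
    omega
  have hKpos : 0 < Fintype.card K - 1 := by have := Fintype.one_lt_card (α := K); omega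
  haveI : NeZero (Fintype.card K - 1) := ⟨hKpos.ne'⟩
  have hrq : ¬ r ∣ q := fun h => by
    rw [(ZMod.natCast_eq_zero_iff _ _).mpr h, orderOf_zero] at hd
    exact absurd hd (by norm_num)
  have hrW : ¬ r ∣ [2, 6, 8, 10, 12, 14, 18].prod := fun h => by
    rw [show [2, 6, 8, 10, 12, 14, 18].prod = 2 ^ 10 * 3 ^ 4 * 5 * 7 by norm_num] at h
    have hrp : r.Prime := Fact.out
    rcases hrp.dvd_mul.mp h with h | h
    · rcases hrp.dvd_mul.mp h with h | h
      · rcases hrp.dvd_mul.mp h with h | h <;> have := Nat.le_of_dvd (by norm_num) (hrp.dvd_of_dvd_pow h) <;> omega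
      · have := Nat.le_of_dvd (by norm_num) h; omega
    · have := Nat.le_of_dvd (by norm_num) h; omega
  have hdeg : ∀ i ∈ [2, 6, 8, 10, 12, 14, 18], ¬ r ∣ i := fun i hi h => hrW (h.trans (List.dvd_prod hi))
  have hr2 : r ≠ 2 := by omega
  have hrd2 : ¬ r ∣ 2 := fun h => by have := Nat.le_of_dvd (by norm_num) h; omega
  have hdvd : ∀ i, orderOf (q : ZMod r) ∣ m * i := fun i => hd ▸ Dvd.dvd.mul_right hm i
  have hvK : padicValNat r (Nat.card (chevE7.group K)) = padicValNat r (Nat.card (chevE7.diagonalSubgroup K)) := by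
    obtain ⟨eK, heK, hTK'⟩ := (dataE7 (F := K) hrd2).2
    rw [val_group (dataE7 hrd2) hq hrq hr2 hm0 hK hdeg (fun _ => True) (fun i _ => iff_true_intro (hdvd i)),
      val_eq_of_mul heK Nat.card_pos.ne' hTK', hK, padicValNat.pow,
      val_pow_sub_one hq hrq hr2 hm0 (by simpa using hdvd 1)]
    rw [show chevE7.rank = 7 from rfl]
    simp
  have hKr : r ∣ Fintype.card K - 1 := by
    rw [hK]; exact (dvd_pow_sub_one_iff (by omega) _).mpr (by simpa using hdvd 1)
  obtain ⟨P⟩ := nonempty_logCoord C (K := K)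
  set n := Fintype.card K - 1 with hn
  let cs : ℤ →+* ZMod n := Int.castRingHom _
  set LW := twistWord L with hLW
  set A := actMat C (LW.reverse.map Fin.val) with hA
  have hA' : actMat C (LW.map Fin.val).reverse = A := by rw [hA, List.map_reverse]
  -- the torus of Steinberg's group
  obtain ⟨R, Z, hR, hRB, hRZ⟩ := exists_conj_mat (K := K) C cornerE7 LW
  set ψφ := stMap chevE7 φ with hψφ
  set dt := ψφ gt * gt⁻¹ with hdt
  have hdconj : ∀ c, dt * torusHom C cornerE7 c * dt⁻¹ = torusHom C cornerE7 (torusMap Kˣ R c) := by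
    intro c
    set W := toSt chevE7 K (wordW (K := K) LW : chevE7.SteinbergCover K) with hW
    obtain ⟨c₁, hc₁⟩ := exists_torus_of_diag C cornerE7 coxE7 (z := W⁻¹ * dt) (by
      rw [map_mul (thetaSt C), map_inv (thetaSt C), Subgroup.coe_mul, Subgroup.coe_inv, hW, theta_wordW C cornerE7]
      exact hgtT)
    rw [show dt = W * torusHom C cornerE7 c₁ by rw [hc₁, mul_inv_cancel_left], ← hR c, _root_.mul_inv_rev]
    have hcm : torusHom C cornerE7 c₁ * torusHom C cornerE7 c * (torusHom C cornerE7 c₁)⁻¹ = torusHom C cornerE7 c := by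
      rw [← map_inv, ← map_mul, ← map_mul, mul_comm c₁ c, mul_inv_cancel_right]
    calc _ = W * (torusHom C cornerE7 c₁ * torusHom C cornerE7 c * (torusHom C cornerE7 c₁)⁻¹) * W⁻¹ := by
          simp only [mul_assoc]
      _ = _ := by rw [hcm]
  let eT : Multiplicative (Fin chevE7.rank → ZMod n) →* (Fin chevE7.rank → Kˣ) :=
    MonoidHom.mk' (fun a i => P.ex (Multiplicative.ofAdd (a.toAdd i))) fun a b => funext fun i => by
      show P.ex _ = P.ex _ * P.ex _
      rw [← map_mul, ← ofAdd_add, toAdd_mul, Pi.add_apply]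
  have heT : Function.Bijective eT := by
    refine ⟨fun a b h => Multiplicative.toAdd.injective (funext fun i => ?_), fun c => ?_⟩
    · exact Multiplicative.ofAdd.injective (P.ex.injective (congrFun h i))
    · exact ⟨Multiplicative.ofAdd fun i => (P.ex.symm (c i)).toAdd, funext fun i => P.ex.apply_symm_apply (c i)⟩
  have heTmap : ∀ (T : Matrix (Fin chevE7.rank) (Fin chevE7.rank) ℤ) a, torusMap Kˣ T (eT a) =
      eT (Multiplicative.ofAdd (Tᵀ.map cs *ᵥ a.toAdd)) := by
    intro T a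
    funext i
    show ∏ k, P.ex (Multiplicative.ofAdd (a.toAdd k)) ^ T k i =
      P.ex (Multiplicative.ofAdd (∑ k, (T k i : ZMod n) * a.toAdd k))
    rw [ofAdd_sum, map_prod]
    exact Finset.prod_congr rfl fun k _ => by rw [← zsmul_eq_mul, ofAdd_zsmul, map_zpow]
  let T0 : Multiplicative (Fin chevE7.rank → ZMod n) →* ↥(chevE7.diagonalSubgroup K) :=
    MonoidHom.codRestrict ((chevE7.group K).subtype.comp ((thetaSt C).comp ((torusHom C cornerE7).comp eT))) _
      fun a => theta_torus_mem C cornerE7 (eT a)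
  have hT0 : ∀ a, (T0 a : GL chevE7.Idx K) = thetaSt C (torusHom C cornerE7 (eT a)) := fun a => rfl
  have hcartT : (cartMat chevE7)ᵀ = cartT chevE7 := by ext a b; rfl
  have hlgT : ∀ a, (P.lg (T0 a)).toAdd = (cartT chevE7).map cs *ᵥ a.toAdd := by
    intro a
    funext i
    have hs := C.simple_lt i i.isLt
    obtain ⟨χ, hch, -, e⟩ := C.diagonal_char (T0 a).2
    have h1 : C.xu (chevE7.simple i) (χ (chevE7.simple i)) =
        C.xu (chevE7.simple i) ((∏ k : Fin chevE7.rank, ((eT a k : K) ^ chevE7.cartan k (chevE7.simple i))) * 1) := by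
      have h2 := congrArg (fun w => (thetaSt C w : GL chevE7.Idx K))
        (torusHom_conj C cornerE7 (eT a) hs (1 : K))
      simp only [map_mul, map_inv, Subgroup.coe_mul, Subgroup.coe_inv, thetaSt_gen, ← hT0] at h2
      rw [← h2, eq_mul_inv_iff_mul_eq]
      refine Units.ext ?_
      rw [Units.val_mul, Units.val_mul, e, C.coe_xu, C.coe_xu, C.dMat_conj hch hs, mul_one]
    have hne : χ (chevE7.simple i) ≠ 0 := by
      rw [P.spec (T0 a) χ e _ hs]; exact Units.ne_zero _
    have h3 := (xu_eq C hs hs hne h1).2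
    rw [mul_one, P.spec (T0 a) χ e _ hs, Finset.sum_eq_single i (fun b _ hb => by
      rw [coefVec, C.coef_simple i i.isLt b b.isLt, if_neg fun e => hb (Fin.ext e), Int.cast_zero, zero_mul])
      (by simp), coefVec, C.coef_simple i i.isLt i i.isLt, if_pos rfl, Int.cast_one, one_mul] at h3
    have h4 : P.ex (Multiplicative.ofAdd ((P.lg (T0 a)).toAdd i)) = torusMap Kˣ (cartMat chevE7) (eT a) i := by
      refine Units.ext (h3.symm.trans ?_)
      rw [torusMap_apply, Units.coe_prod]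
      exact Finset.prod_congr rfl fun k _ => by simp [cartMat]
    rw [heTmap, hcartT] at h4
    exact Multiplicative.ofAdd.injective (P.ex.injective h4)
  have hψT : ∀ a, ψφ (torusHom C cornerE7 (eT a)) =
      torusHom C cornerE7 (eT (Multiplicative.ofAdd ((q : ZMod n) • a.toAdd))) := by
    intro a
    rw [hψφ, stMap_torusHom C C]
    congr 1
    funext i
    refine Units.ext ?_
    show φ (P.ex _ : K) = (P.ex (Multiplicative.ofAdd ((q : ZMod n) * a.toAdd i)) : K)
    rw [hφ, ← nsmul_eq_mul, ofAdd_nsmul, map_pow, Units.val_pow_eq_pow_val]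
  have hfixiff : ∀ a, ψφ (gt⁻¹ * torusHom C cornerE7 (eT a) * gt) = gt⁻¹ * torusHom C cornerE7 (eT a) * gt ↔
      Rᵀ.map cs *ᵥ a.toAdd = (q : ZMod n) • a.toAdd := by
    intro a
    have e1 : ψφ gt = dt * gt := by rw [hdt, inv_mul_cancel_right]
    rw [map_mul, map_mul, map_inv, e1, hψT]
    have e2 := hdconj (eT a)
    rw [heTmap] at e2
    constructor
    · intro h
      have h2 : torusHom C cornerE7 (eT (Multiplicative.ofAdd ((q : ZMod n) • a.toAdd))) =
          dt * torusHom C cornerE7 (eT a) * dt⁻¹ := by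
        calc _ = dt * gt * ((dt * gt)⁻¹ * torusHom C cornerE7
              (eT (Multiplicative.ofAdd ((q : ZMod n) • a.toAdd))) * (dt * gt)) * (dt * gt)⁻¹ := by
              group
          _ = dt * gt * (gt⁻¹ * torusHom C cornerE7 (eT a) * gt) * (dt * gt)⁻¹ := by rw [h]
          _ = _ := by group
      rw [e2] at h2
      exact (Multiplicative.ofAdd.injective (heT.1 (torusHom_inj_E7 h2))).symm
    · intro h
      rw [← h, ← e2]
      group
  -- the subgroup
  set g' : GL chevE7.Idx K := (thetaSt C gt : GL chevE7.Idx K) with hg'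
  have hgG : g' ∈ chevE7.group K := (thetaSt C gt).2
  let cj : ↥(chevE7.group F) →* GL chevE7.Idx K :=
    (MulAut.conj g').toMonoidHom.comp ((gmap chevE7 ι).comp (chevE7.group F).subtype)
  set H := (chevE7.diagonalSubgroup K).comap cj with hH
  have hcj : ∀ z : ↥(chevE7.group F), cj z = g' * gmap chevE7 ι (z : GL chevE7.Idx F) * g'⁻¹ := fun z => rfl
  let τ : ↥H →* ↥(chevE7.diagonalSubgroup K) := MonoidHom.codRestrict (cj.comp H.subtype) _ fun z => z.2
  have hcjinj : Function.Injective cj := fun a b h =>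
    Subtype.ext (gmap_injective ι (mul_left_cancel (mul_right_cancel h)))
  have hτ : Function.Injective τ := fun a b h => Subtype.ext (hcjinj (congrArg Subtype.val h))
  have hHcomm : ∀ a b : ↥H, a * b = b * a := fun a b => hτ (by
    rw [map_mul, map_mul]; exact Subtype.ext (C.diagonal_comm (τ a).2 (τ b).2))
  set Bq : Matrix (Fin chevE7.rank) (Fin chevE7.rank) ℤ := Matrix.scalar (Fin chevE7.rank) (q : ℤ) - Rᵀ with hBq
  set S := AddSubgroup.toSubgroup (solutions n Bq) with hS
  have hBq' : ∀ a : Fin chevE7.rank → ZMod n, Bq.map cs *ᵥ a = (q : ZMod n) • a - Rᵀ.map cs *ᵥ a := by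
    intro a
    rw [hBq, Matrix.map_sub _ (map_sub cs), Matrix.sub_mulVec]
    congr 1
    rw [Matrix.scalar_apply, Matrix.diagonal_map (map_zero _)]
    funext i
    simp [cs, Matrix.mulVec_diagonal]
  have hmemS : ∀ a, a ∈ S ↔ Rᵀ.map cs *ᵥ a.toAdd = (q : ZMod n) • a.toAdd := fun a => by
    show Bq.map cs *ᵥ a.toAdd = 0 ↔ _
    rw [hBq', sub_eq_zero, eq_comm]
  let Θ : ↥S →* ↥(chevE7.diagonalSubgroup K) := T0.comp S.subtype
  have hrange : τ.range = Θ.range := by
    ext t
    constructor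
    · rintro ⟨z, rfl⟩
      obtain ⟨w, hw⟩ := thetaSt_surjective C₀ (z : ↥(chevE7.group F))
      obtain ⟨c, hc⟩ := exists_torus_of_diag C cornerE7 coxE7 (z := gt * stMap chevE7 ι w * gt⁻¹) (by
        rw [map_mul, map_mul, map_inv, Subgroup.coe_mul, Subgroup.coe_mul, Subgroup.coe_inv,
          theta_stMap C₀ C, hw, ← hcj]
        exact z.2)
      obtain ⟨a, rfl⟩ := heT.2 c
      have haS : a ∈ S := by
        rw [hmemS, ← hfixiff, hc]
        rw [show gt⁻¹ * (gt * stMap chevE7 ι w * gt⁻¹) * gt = stMap chevE7 ι w by group, hψφ, stMap_stMap]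
        congr 2
        exact RingHom.ext fun t => by
          show φ (ι t) = ι t
          rw [hφ, ← map_pow, hqdef, FiniteField.pow_card]
      refine ⟨⟨a, haS⟩, Subtype.ext ?_⟩
      show (T0 a : GL chevE7.Idx K) = cj z
      rw [hT0, hc, hcj, map_mul, map_mul, map_inv, Subgroup.coe_mul, Subgroup.coe_mul, Subgroup.coe_inv,
        theta_stMap C₀ C, hw]
    · rintro ⟨⟨a, ha⟩, rfl⟩
      have hfix := (hfixiff a).mpr ((hmemS a).mp ha)
      obtain ⟨w, hw⟩ := exists_preimage_of_fixed C cornerE7 C₀ coxE7 torusHom_inj_E7 ι φ hφ hfix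
      have ez : cj (thetaSt C₀ w) = T0 a := by
        rw [hcj, ← theta_stMap C₀ C, hw, map_mul, map_mul, map_inv, Subgroup.coe_mul, Subgroup.coe_mul,
          Subgroup.coe_inv, hT0, ← hg']
        group
      have hzH : thetaSt C₀ w ∈ H := by
        show cj _ ∈ chevE7.diagonalSubgroup K
        rw [ez]; exact (T0 a).2
      exact ⟨⟨_, hzH⟩, Subtype.ext ez⟩
  -- the order
  have hBM : cartT chevE7 * Rᵀ = A * cartT chevE7 := by
    have h1 := congrArg Matrix.transpose hRB
    rwa [Matrix.transpose_mul, Matrix.transpose_mul, Matrix.transpose_transpose, hcartT, hA'] at h1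
  have hc4 : (d4Block C6 L).charpoly = cyclotomic 12 ℤ :=
    d4Block_charpoly C6 C L L₆ hchar hpow hL₆ hblock hr hd heig hregv
  have hdet : Bq.det = (((q ^ 4 - q ^ 2 + 1) * (q ^ 3 + 1) : ℕ) : ℤ) := by
    have h1 : (Matrix.scalar (Fin chevE7.rank) (q : ℤ) - A) * cartT chevE7 = cartT chevE7 * Bq := by
      rw [hBq, Matrix.sub_mul, Matrix.mul_sub, hBM,
        (Matrix.scalar_commute (q : ℤ) (fun r => mul_comm _ r) (cartT chevE7)).eq]
    have h2 := congrArg Matrix.det h1
    rw [Matrix.det_mul, Matrix.det_mul, hA, det_twist C6 C L L₆ hchar hpow hL₆ hblock hb w1 w2 w3 _ hc4,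
      mul_comm] at h2
    rw [← mul_left_cancel₀ det_cartT_E7 h2, hev]
    push_cast
    ring
  have hdvdK : Bq.det ∣ ((n : ℕ) : ℤ) := by
    have h12 : (X : ℤ[X]) ^ 12 - 1 ∣ X ^ m - 1 := by
      obtain ⟨k', hk'⟩ := hm
      rw [hk', pow_mul]
      simpa using sub_dvd_pow_sub_pow ((X : ℤ[X]) ^ 12) 1 k'
    have h1 := Polynomial.eval_dvd (x := (q : ℤ)) ((show cyclotomic 12 ℤ * (X ^ 3 + 1) ∣ (X : ℤ[X]) ^ 12 - 1 from
      ⟨(X ^ 3 - 1) * (X ^ 2 + 1), by rw [cyclotomic_twelve]; ring⟩).trans h12)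
    rw [eval_mul, hev, Polynomial.eval_sub, Polynomial.eval_pow, Polynomial.eval_X, Polynomial.eval_one] at h1
    rw [hdet, hn, hK, Nat.cast_sub (Nat.one_le_pow _ _ (by omega)), Nat.cast_pow, Nat.cast_one]
    refine dvd_trans (dvd_of_eq ?_) h1
    push_cast
    simp
  have hne : Bq.det ≠ 0 := by
    rw [hdet]
    exact Int.natCast_ne_zero.mpr (mul_ne_zero (by omega) (by positivity))
  have hcardS : Nat.card ↥S = (q ^ 4 - q ^ 2 + 1) * (q ^ 3 + 1) := by
    show Nat.card (solutions n Bq) = _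
    rw [card_solutions _ Bq hne hdvdK, hdet, Int.natAbs_natCast]
  have hkerfix : ∀ a : Fin chevE7.rank → ZMod n, (cartT chevE7).map cs *ᵥ a = 0 → Rᵀ.map cs *ᵥ a = a := by
    intro a ha
    have h1 := congrArg Matrix.transpose hRZ
    rw [Matrix.transpose_sub, Matrix.transpose_one, Matrix.transpose_mul, hcartT, sub_eq_iff_eq_add] at h1
    rw [h1, Matrix.map_add _ (map_add cs), Matrix.map_mul, Matrix.map_one _ (map_zero cs) (map_one cs),
      Matrix.add_mulVec, ← Matrix.mulVec_mulVec, ha, Matrix.mulVec_zero, Matrix.one_mulVec, zero_add]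
  have hkerΘ : ∀ a : ↥S, a ∈ Θ.ker ↔ (cartT chevE7).map cs *ᵥ a.1.toAdd = 0 := by
    intro a
    rw [MonoidHom.mem_ker, ← map_eq_one_iff _ P.inj, ← toAdd_eq_zero]
    show (P.lg (T0 a)).toAdd = 0 ↔ _
    rw [hlgT]
  have hcardker : Nat.card Θ.ker = Nat.gcd 2 (q - 1) := by
    have htwo : ∀ a : Fin chevE7.rank → ZMod n, (cartT chevE7).map cs *ᵥ a = 0 → 2 • a = 0 := by
      intro a ha
      have h1 := congrArg (fun w => e7Inv.map cs *ᵥ w) ha
      simp only [Matrix.mulVec_mulVec, ← Matrix.map_mul, e7Inv_cartT.1, Matrix.mulVec_zero] at h1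
      rw [← h1]
      funext i
      simp [cs, Matrix.mulVec, dotProduct, Matrix.one_apply, nsmul_eq_mul, apply_ite, Matrix.ofNat_apply]
    by_cases h2 : 2 ∣ q - 1
    · rw [Nat.gcd_eq_left h2]
      have hn2 : 2 ∣ n := h2.trans (by rw [hn, hK]; exact Nat.sub_one_dvd_pow_sub_one q _)
      have hcz : Nat.card (torusMap Kˣ (cartMat chevE7)).ker = 2 := by
        rw [Nat.card_congr (Subgroup.equivMapOfInjective _ _ torusHom_inj_E7).toEquiv,
          ← center_eq_map certE7 cornerE7 coxE7, card_centerE7, ← hn, Nat.gcd_eq_right hn2]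
      rw [← hcz]
      refine Nat.card_eq_of_bijective (fun a => ⟨eT ((a : ↥S) : Multiplicative _), ?_⟩) ⟨?_, ?_⟩
      · rw [MonoidHom.mem_ker, heTmap, hcartT, (hkerΘ a).mp a.2]
        exact map_one eT
      · intro a b h
        exact Subtype.ext (Subtype.ext (heT.1 (congrArg Subtype.val h)))
      · rintro ⟨c, hc⟩
        obtain ⟨a, rfl⟩ := heT.2 c
        rw [MonoidHom.mem_ker, heTmap, hcartT, ← map_one eT] at hc
        have h0 : (cartT chevE7).map cs *ᵥ a.toAdd = 0 := congrArg Multiplicative.toAdd (heT.1 hc)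
        have haS : a ∈ S := by
          rw [hmemS, hkerfix _ h0, Nat.cast_smul_eq_nsmul]
          obtain ⟨k, hk⟩ := h2
          rw [show q = 2 * k + 1 by omega, succ_nsmul, mul_nsmul, htwo _ h0, smul_zero, zero_add]
        exact ⟨⟨⟨a, haS⟩, (hkerΘ _).mpr h0⟩, rfl⟩
    · rw [Nat.Coprime.gcd_eq_one ((Nat.prime_two.coprime_iff_not_dvd).mpr h2), Subgroup.card_eq_one,
        Subgroup.eq_bot_iff_forall]
      intro a ha
      have h0 := (hkerΘ a).mp ha
      have hqa := (hmemS _).mp a.2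
      rw [hkerfix _ h0, Nat.cast_smul_eq_nsmul] at hqa
      have h1 : (q - 1) • a.1.toAdd = 0 := by
        rw [show q = q - 1 + 1 by omega, succ_nsmul] at hqa
        exact add_eq_right.mp hqa.symm
      have h3 := Nat.dvd_gcd (addOrderOf_dvd_of_nsmul_eq_zero (htwo _ h0)) (addOrderOf_dvd_of_nsmul_eq_zero h1)
      rw [Nat.Coprime.gcd_eq_one ((Nat.prime_two.coprime_iff_not_dvd).mpr h2), Nat.dvd_one,
        AddMonoid.addOrderOf_eq_one_iff] at h3
      exact Subtype.ext (Multiplicative.toAdd.injective h3)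
  have hmul : Nat.card ↥H * Nat.gcd 2 (q - 1) = (q ^ 4 - q ^ 2 + 1) * (q ^ 3 + 1) := by
    rw [Nat.card_congr (MonoidHom.ofInjective hτ).toEquiv, hrange, ← hcardker, ← hcardS,
      ← Nat.card_congr (QuotientGroup.quotientKerEquivRange Θ).toEquiv]
    exact (Subgroup.card_eq_card_quotient_mul_card_subgroup Θ.ker).symm
  have hgpos : 0 < Nat.gcd 2 (q - 1) := Nat.gcd_pos_of_pos_left _ (by norm_num)
  have hcard : Nat.card ↥H = (q ^ 4 - q ^ 2 + 1) * (q ^ 3 + 1) / Nat.gcd 2 (q - 1) := by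
    rw [← hmul, Nat.mul_div_cancel _ hgpos]
  -- coordinates of the elements of `H`
  let ev : ↥H → (Fin chevE7.rank → ZMod n) := fun z => (P.lg (τ z)).toAdd
  have hevinj : ∀ z, ev z = 0 → z = 1 := fun z hz =>
    (P.inj.comp hτ) (by
      show P.lg (τ z) = P.lg (τ 1)
      rw [map_one, map_one]
      exact Multiplicative.toAdd.injective hz)
  have heigev : ∀ z, A.map cs *ᵥ ev z = (q : ZMod n) • ev z := by
    intro z
    obtain ⟨⟨a, ha⟩, ea⟩ : τ z ∈ Θ.range := hrange ▸ ⟨z, rfl⟩
    show A.map cs *ᵥ (P.lg (τ z)).toAdd = (q : ZMod n) • (P.lg (τ z)).toAdd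
    rw [← ea]
    show A.map cs *ᵥ (P.lg (T0 a)).toAdd = (q : ZMod n) • (P.lg (T0 a)).toAdd
    rw [hlgT, Matrix.mulVec_mulVec, ← Matrix.map_mul, ← hBM, Matrix.map_mul, ← Matrix.mulVec_mulVec,
      (hmemS a).mp ha, Matrix.mulVec_smul]
  let Pn : ZMod n := (((cyclotomic 12 ℤ).eval (q : ℤ) : ℤ) : ZMod n)
  let Rn : ZMod n := (q : ZMod n) ^ 3 + 1
  have hbezn : (bx : ZMod n) * Pn + (by' : ZMod n) * Rn = 1 := by
    have := congrArg (fun x : ℤ => (x : ZMod n)) hbez
    push_cast at this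
    exact this
  have hnode : ∀ z j, Pn * ev z (e7n4 j) = 0 := by
    intro z j
    have h1 : (Matrix.scalar (Fin 4) (q : ℤ) - d4Block C6 L).map cs *ᵥ (fun i => ev z (e7n4 i)) = 0 := by
      funext i
      have h := congrFun (heigev z) (e7n4 i)
      simp only [Matrix.mulVec, dotProduct, Matrix.map_apply, Pi.smul_apply, smul_eq_mul] at h
      have hinj : Function.Injective e7n4 := by decide +kernel
      rw [← Finset.sum_subset (Finset.subset_univ (Finset.univ.image e7n4)) (fun k _ hk => by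
        have hk' : ∀ j, e7n4 j ≠ k := fun j e => hk (Finset.mem_image.mpr ⟨j, Finset.mem_univ _, e⟩)
        rw [show A (e7n4 i) k = 0 from node_row_supp C6 C L L₆ hchar hpow hL₆ hblock i k hk', map_zero, zero_mul]),
        Finset.sum_image fun a _ b _ e => hinj e] at h
      rw [Matrix.map_sub _ (map_sub cs), Matrix.sub_mulVec, Pi.sub_apply, Pi.zero_apply, Matrix.scalar_apply,
        Matrix.diagonal_map (map_zero _), Matrix.mulVec_diagonal]
      simp only [Matrix.mulVec, dotProduct, Matrix.map_apply]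
      rw [Finset.sum_congr rfl fun x _ => by
        rw [← node_row_block C6 C L L₆ hchar hpow hL₆ hblock i x], ]
      rw [← hA, h]
      simp [cs]
    have h2 := det_mul_eq_zero _ h1 j
    rw [← RingHom.mapMatrix_apply, ← RingHom.map_det, ← Matrix.eval_charpoly, hc4] at h2
    exact h2
  have hbeta : ∀ z, pr C (ev z) b₂ = (q : ZMod n) * pr C (ev z) b₃ ∧
      ev z ⟨6, by decide⟩ = (q : ZMod n) * pr C (ev z) b₂ ∧
      - pr C (ev z) b₃ = (q : ZMod n) * ev z ⟨6, by decide⟩ ∧ Rn * ev z ⟨6, by decide⟩ = 0 := by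
    intro z
    obtain ⟨c1, c2, c3⟩ := pr_chain C C6 L hb w1 w2 w3 (heigev z)
    rw [pr_sixtythree C] at c2 c3
    refine ⟨c1, c2, c3, ?_⟩
    show ((q : ZMod n) ^ 3 + 1) * _ = 0
    linear_combination -(q : ZMod n) ^ 2 * c3 + (q : ZMod n) * c1 + c2
  obtain ⟨hV0, hV2⟩ := d4_orbit C6 C L L₆ hchar hpow hL₆ hblock hc4
  have hPodd : ∀ x : ZMod n, Pn * x = 0 → 2 * x = 0 → x = 0 := by
    intro x h1 h2
    obtain ⟨k, hk⟩ : Odd ((cyclotomic 12 ℤ).eval (q : ℤ)) := by
      rw [cyclotomic_twelve]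
      simp only [eval_add, eval_sub, eval_pow, eval_X, eval_one]
      rcases Int.even_or_odd (q : ℤ) with h | h
      · exact ((h.pow_of_ne_zero (by norm_num)).sub (h.pow_of_ne_zero (by norm_num))).add_one
      · exact ((h.pow).sub_odd (h.pow)).add_one
    simp only [Pn, hk] at h1
    push_cast at h1
    linear_combination h1 - (k : ZMod n) * h2
  have hfull : ∀ z, ev z (e7n4 0) = 0 → ev z ⟨6, by decide⟩ = 0 → z = 1 := by
    intro z h0 h6
    set a := ev z with ha
    obtain ⟨c1, c2, c3, -⟩ := hbeta z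
    have hu : ∀ j, a (e7n4 j) = 0 := by
      have heu : (d4Block C6 L).map (Int.castRingHom (ZMod n)) *ᵥ (fun i => a (e7n4 i)) =
          (q : ZMod n) • fun i => a (e7n4 i) := by
        funext i
        have h := congrFun (heigev z) (e7n4 i)
        simp only [Matrix.mulVec, dotProduct, Matrix.map_apply, Pi.smul_apply, smul_eq_mul] at h ⊢
        have hinj : Function.Injective e7n4 := by decide +kernel
        rw [← Finset.sum_subset (Finset.subset_univ (Finset.univ.image e7n4)) (fun k _ hk => by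
          have hk' : ∀ j, e7n4 j ≠ k := fun j e => hk (Finset.mem_image.mpr ⟨j, Finset.mem_univ _, e⟩)
          rw [show A (e7n4 i) k = 0 from node_row_supp C6 C L L₆ hchar hpow hL₆ hblock i k hk', map_zero, zero_mul]),
          Finset.sum_image fun a _ b _ e => hinj e] at h
        refine Eq.trans (Finset.sum_congr rfl fun x _ => ?_) h
        rw [← node_row_block C6 C L L₆ hchar hpow hL₆ hblock i x]
      intro j
      have h2 := det_mul_eq_zero _ (orbitMat_mulVec (d4Block C6 L) (Pi.single (0 : Fin 4) (1 : ℤ)) heu (by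
        rw [Finset.sum_eq_single (0 : Fin 4) (fun b _ hb => by rw [Pi.single_eq_of_ne hb, Int.cast_zero, zero_mul])
          (by simp), Pi.single_eq_same, Int.cast_one, one_mul]
        exact h0)) j
      rw [← RingHom.mapMatrix_apply, ← RingHom.map_det, eq_intCast] at h2
      set d := (orbitMat (d4Block C6 L) (Pi.single (0 : Fin 4) (1 : ℤ))).det
      have hd4 : d = 1 ∨ d = -1 ∨ d = 2 ∨ d = -2 := by omega
      rcases hd4 with e | e | e | e <;> rw [e] at h2 <;> push_cast at h2
      · simpa using h2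
      · simpa using h2
      · exact hPodd _ (hnode z j) h2
      · exact hPodd _ (hnode z j) (by linear_combination -h2)
    have hb3 : pr C a b₃ = 0 := by linear_combination -c3 - (q : ZMod n) * h6
    have hb2 : pr C a b₂ = 0 := by rw [c1, hb3, mul_zero]
    have hb63 : pr C a 63 = 0 := by rw [pr_sixtythree C]; exact h6
    have h92 : pr C a 92 = 0 := by rcases hb with ⟨rfl, rfl⟩ | ⟨rfl, rfl⟩ <;> assumption
    have h125 : pr C a 125 = 0 := by rcases hb with ⟨rfl, rfl⟩ | ⟨rfl, rfl⟩ <;> assumption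
    have h2a : ∀ k, 2 * a k = 0 := by
      intro k
      rw [← pr_simple C a k, two_pr C a (C.simple_lt k k.isLt)]
      simp [hu, hb63, h92, h125]
    refine hevinj z ?_
    rcases Nat.even_or_odd q with hqe | hqo
    · have hodd : Odd n := by
        rw [hn, hK]
        exact Nat.Even.sub_odd (Nat.one_le_pow _ _ (by omega)) (hqe.pow_of_ne_zero hm0) odd_one
      funext k
      have h1 := addOrderOf_dvd_of_nsmul_eq_zero (x := a k) (n := 2) (by rw [nsmul_eq_mul]; exact_mod_cast h2a k)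
      have h2 := addOrderOf_dvd_of_nsmul_eq_zero (x := a k) (n := n) (by
        rw [nsmul_eq_mul, ZMod.natCast_self, zero_mul])
      have h3 := Nat.dvd_gcd h1 h2
      rw [Nat.Coprime.gcd_eq_one (Nat.coprime_two_left.mpr hodd), Nat.dvd_one, AddMonoid.addOrderOf_eq_one_iff] at h3
      exact h3
    · refine eq_zero_of_parity C C6 L hb w1 w2 w3 h2a hu h6 ?_
      refine (heigev z).trans ?_
      obtain ⟨k, hk⟩ := hqo
      funext i
      rw [Pi.smul_apply, Pi.smul_apply, smul_eq_mul, smul_eq_mul, one_mul, hk]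
      push_cast
      linear_combination (k : ZMod n) * h2a i
  letI : CommGroup ↥H := { (inferInstance : Group ↥H) with mul_comm := hHcomm }
  let ψ : ↥H →* Multiplicative (ZMod n) :=
    MonoidHom.mk' (fun z => Multiplicative.ofAdd (ev z (e7n4 0) + ev z ⟨6, by decide⟩)) fun a b => by
      simp only [ev, map_mul, toAdd_mul, Pi.add_apply, ← ofAdd_add]
      congr 1
      abel
  have hψ : Function.Injective ψ := (injective_iff_map_eq_one ψ).mpr fun z hz => by
    have h : ev z (e7n4 0) + ev z ⟨6, by decide⟩ = 0 := hz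
    have hA0 : ev z (e7n4 0) = 0 := by
      linear_combination (bx : ZMod n) * hnode z 0 - (by' : ZMod n) * (hbeta z).2.2.2 +
        (by' : ZMod n) * Rn * h - ev z (e7n4 0) * hbezn
    refine hfull z hA0 ?_
    rw [hA0, zero_add] at h
    exact h
  haveI hcyc : IsCyclic ↥H := isCyclic_of_injective ψ hψ
  refine ⟨H, hcyc, hcard, ?_⟩
  refine le_antisymm ?_ fun z hz => by
    rw [Subgroup.mem_centralizer_iff]
    intro a ha
    exact congrArg Subtype.val (hHcomm ⟨a, ha⟩ ⟨z, hz⟩)
  intro z hz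
  -- a generator
  obtain ⟨η, hη⟩ := IsCyclic.exists_ofOrder_eq_natCard (α := ↥H)
  have hgen : ∀ y : ↥H, ∃ k : ℕ, η ^ k = y := by
    intro y
    have hy : y ∈ Submonoid.powers η := by
      rw [mem_powers_iff_mem_zpowers, Subgroup.eq_top_of_card_eq (Subgroup.zpowers η) (by
        rw [Nat.card_zpowers, hη])]
      trivial
    exact hy
  set ω := ev η ⟨6, by decide⟩ with hω
  set R' := (q ^ 3 + 1) / Nat.gcd 2 (q - 1) with hR'
  have hgR : Nat.gcd 2 (q - 1) ∣ q ^ 3 + 1 := by
    by_cases h2 : 2 ∣ q - 1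
    · rw [Nat.gcd_eq_left h2]
      have ho : Odd q := by obtain ⟨k, hk⟩ := h2; exact ⟨k, by omega⟩
      exact even_iff_two_dvd.mp (Odd.add_one ho.pow)
    · rw [Nat.Coprime.gcd_eq_one ((Nat.prime_two.coprime_iff_not_dvd).mpr h2)]
      exact one_dvd _
  have hev_pow : ∀ (y : ↥H) (k : ℕ) i, ev (y ^ k) i = (k : ZMod n) * ev y i := fun y k i => by
    simp only [ev, map_pow, toAdd_pow, Pi.smul_apply, nsmul_eq_mul]
  have hωord : ∀ k : ℕ, (k : ZMod n) * ω = 0 → R' ∣ k := by
    intro k hk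
    have h1 : η ^ ((q ^ 4 - q ^ 2 + 1) * k) = 1 := by
      refine hfull _ ?_ ?_
      · rw [hev_pow, Nat.cast_mul]
        have := hnode η 0
        simp only [Pn, hev, Int.cast_natCast] at this
        linear_combination (k : ZMod n) * this
      · rw [hev_pow, Nat.cast_mul, mul_assoc, hk, mul_zero]
    have h2 := orderOf_dvd_of_pow_eq_one h1
    rw [hη, hcard, Nat.mul_div_assoc _ hgR] at h2
    exact Nat.dvd_of_mul_dvd_mul_left (by omega) h2
  have hωint : ∀ d : ℤ, (d : ZMod n) * ω = 0 → (R' : ℤ) ∣ d := by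
    intro d hd'
    refine Int.natCast_dvd.mpr (hωord _ ?_)
    rcases Int.natAbs_eq d with e | e
    · rw [e, Int.cast_natCast] at hd'; exact hd'
    · rw [e, Int.cast_neg, Int.cast_natCast, neg_mul, neg_eq_zero] at hd'; exact hd'
  have hR2 : 1 < R' := by
    by_contra h
    have h1 : R' ∣ 2 := by
      rcases Nat.eq_zero_or_pos R' with h0 | h0
      · exfalso
        have := Nat.div_pos (Nat.le_of_dvd (by positivity) hgR) hgpos
        omega
      · rw [show R' = 1 by omega]; exact one_dvd _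
    have h2 := arith_distinct hq 1 (by simp) (-1) (by simp) (by
      rw [show (1 : ℤ) - -1 = ((2 : ℕ) : ℤ) by norm_num]; exact Int.natCast_dvd_natCast.mpr h1)
    norm_num at h2
  -- the regular element of prime order
  haveI : NeZero r := ⟨(Fact.out : r.Prime).ne_zero⟩
  obtain ⟨j, hj, -⟩ := exists_torsionHom hKpos hKr
  let v7 : Fin chevE7.rank → ZMod r := fun k => if h : (k : ℕ) < chevE6.rank then v ⟨k, h⟩ else 0
  have hv67 : ∀ i : Fin chevE6.rank, v7 (i67 i) = v i := fun i => dif_pos i.isLt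
  have hv76 : v7 ⟨6, by decide⟩ = 0 := dif_neg (by decide)
  have hinj67 : Function.Injective i67 := by decide +kernel
  have hnot67 : ∀ k : Fin chevE7.rank, k ∉ Finset.univ.image i67 → k = ⟨6, by decide⟩ := by decide +kernel
  have hpr6 : ∀ s < chevE7.nroots, pr C v7 s = ∑ i : Fin chevE6.rank, (C.coef s (i67 i) : ZMod r) * v i := by
    intro s hs
    rw [pr, ← Finset.sum_subset (Finset.subset_univ (Finset.univ.image i67)) (fun k _ hk => by
      rw [hnot67 k hk, hv76, mul_zero]), Finset.sum_image fun a _ b _ h => hinj67 h]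
    exact Finset.sum_congr rfl fun i _ => by rw [hv67]; rfl
  have hpre : ∀ t < chevE6.nroots, pr C v7 (e67 t) = pr C6 v t := by
    intro t ht
    rw [hpr6 _ (e67_lt ht), pr]
    refine Finset.sum_congr rfl fun i _ => ?_
    rw [coef_E7 C (e67_lt ht) (i67 i), coefVec, coef_E6 C6 ht i,
      show corootC chevE7 (e67 t) (i67 i) = corootC chevE6 t i from (e67_coroot ht).1 i]
  have hB6v : (actMat C6 (L₆.map Fin.val)).map (Int.castRingHom (ZMod r)) *ᵥ v = - v := by
    have hq6 : (q : ZMod r) ^ 6 = -1 := by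
      have h12 : ((q : ZMod r) ^ 6) ^ 2 = 1 := by
        rw [← pow_mul]; show (q : ZMod r) ^ 12 = 1; rw [← hd]; exact pow_orderOf_eq_one _
      refine (sq_eq_one_iff.mp h12).resolve_left fun h => ?_
      have := orderOf_dvd_of_pow_eq_one h
      rw [hd] at this
      norm_num at this
    have hk : ∀ k : ℕ, (actMat C6 (L.reverse.map Fin.val) ^ k).map (Int.castRingHom (ZMod r)) *ᵥ v =
        (q : ZMod r) ^ k • v := by
      intro k
      induction k with
      | zero => simp [Matrix.map_one]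
      | succ k ih =>
        rw [pow_succ' (actMat C6 _), Matrix.map_mul, ← Matrix.mulVec_mulVec, ih, Matrix.mulVec_smul, heig, smul_smul,
          pow_succ]
    rw [← hpow, hk, hq6, neg_one_smul]
  have hL6orth : ∀ s ∈ e7Orth, act chevE7 (L₆.map Fin.val) s = s := by
    intro s hs
    clear hblock hpow hB6v
    induction L₆ with
    | nil => rw [List.map_nil, act_nil]
    | cons a M ih =>
      obtain ⟨j, hj⟩ := (mem_e6D4_iff a).mp (hL₆ a List.mem_cons_self)
      rw [List.map_cons, act_cons, ih (fun i hi => hL₆ i (List.mem_cons_of_mem _ hi)), ← hj]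
      exact e7Orth_refl j s hs
  have hv7b : ∀ b ∈ e7Beta, pr C v7 b = 0 := by
    intro b hb'
    obtain ⟨hblt, hbP, -, -⟩ := e7Beta_facts b hb'
    set A7 := actMat C (L₆.map Fin.val) with hA7
    have h1 : pr C v7 (act chevE7 (L₆.map Fin.val) b) = - pr C v7 b := by
      have h2 : A7.map (Int.castRingHom (ZMod r)) *ᵥ v7 = (-1 : ZMod r) • v7 := by
        funext k
        show ∑ l, (A7 k l : ZMod r) * v7 l = -1 * v7 k
        have h3 : ∑ l, (A7 k l : ZMod r) * v7 l = pr C v7 (act chevE7 (L₆.map Fin.val) (chevE7.simple k)) := rfl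
        rw [h3]
        by_cases hk : (k : ℕ) < chevE6.rank
        · rw [show chevE7.simple (k : ℕ) = e67 (chevE6.simple (⟨k, hk⟩ : Fin chevE6.rank)) from
              (e67_simple ⟨k, hk⟩).symm,
            ← e67_act C6 L₆ (C6.simple_lt _ hk), hpre _ (C6.act_lt (valMap_lt C6 L₆) (C6.simple_lt _ hk)),
            pr_act C6 (valMap_lt C6 L₆) (hB6v.trans (neg_one_smul _ v).symm) (C6.simple_lt _ hk),
            pr_simple C6 v ⟨k, hk⟩]
          congr 1
          exact (hv67 ⟨k, hk⟩).symm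
        · have e7 : chevE7.rank = 7 := rfl
          have e6 : chevE6.rank = 6 := rfl
          have hk6 : k = ⟨6, by decide⟩ := Fin.ext (show (k : ℕ) = 6 by have := k.isLt; omega)
          subst hk6
          rw [show chevE7.simple ((⟨6, by decide⟩ : Fin chevE7.rank) : ℕ) = 63 from rfl,
            hL6orth 63 (by simp [e7Orth]), pr_sixtythree C, hv76, mul_zero]
      rw [pr_act C (fun i hi => lt_rank_E7 C6 C L₆ i hi) h2 hblt, neg_one_mul]
    rw [hL6orth b hbP] at h1
    have h3 : (2 : ZMod r) * pr C v7 b = 0 := by linear_combination h1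
    refine (mul_eq_zero.mp h3).resolve_left fun h => hrd2 ?_
    exact (ZMod.natCast_eq_zero_iff 2 r).mp (by exact_mod_cast h)
  have m2 : b₂ ∈ e7Beta := by rcases hb with ⟨rfl, -⟩ | ⟨rfl, -⟩ <;> simp [e7Beta]
  have m3 : b₃ ∈ e7Beta := by rcases hb with ⟨-, rfl⟩ | ⟨-, rfl⟩ <;> simp [e7Beta]
  have hAv7 : A.map (Int.castRingHom (ZMod r)) *ᵥ v7 = (q : ZMod r) • v7 := by
    set A0 := actMat C (L.reverse.map Fin.val) with hA0
    have h0 : ∀ s < chevE7.nroots, pr C v7 (act chevE7 (L.reverse.map Fin.val) s) =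
        ∑ i : Fin chevE7.rank, (C.coef s i : ZMod r) * pr C v7 (act chevE7 (L.reverse.map Fin.val) (chevE7.simple i)) := by
      intro s hs
      rw [pr, coefVec_act C (fun i hi => lt_rank_E7 C6 C L.reverse i hi) hs]
      simp only [Matrix.vecMul, dotProduct, Int.cast_sum, Int.cast_mul, Finset.sum_mul, pr, Finset.mul_sum]
      rw [Finset.sum_comm]
      exact Finset.sum_congr rfl fun i _ => Finset.sum_congr rfl fun k _ => mul_assoc _ _ _
    funext k
    show ∑ l, (A k l : ZMod r) * v7 l = (q : ZMod r) * v7 k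
    have h3 : ∑ l, (A k l : ZMod r) * v7 l =
        pr C v7 (act chevE7 ((twistWord L).reverse.map Fin.val) (chevE7.simple k)) := rfl
    have hk := C.simple_lt k k.isLt
    rw [h3, rev_twistWord, act_append, show act chevE7 [6] (chevE7.simple k) = chevE7.reflectRoot 6 (chevE7.simple k)
      from rfl, h0 _ (C.refl_lt 6 (by decide) _ hk)]
    rw [← Finset.sum_subset (Finset.subset_univ (Finset.univ.image i67)) (fun l _ hl => by
      rw [hnot67 l hl, show chevE7.simple ((⟨6, by decide⟩ : Fin chevE7.rank) : ℕ) = 63 from rfl]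
      have h63 : act chevE7 (L.reverse.map Fin.val) 63 = b₃ := by
        conv_lhs => rw [← w3]
        rw [List.map_reverse, act_reverse_left C (lt_rank_E7 C6 C L) (e7Beta_facts _ m3).1]
      rw [h63, hv7b b₃ m3, mul_zero]), Finset.sum_image fun a _ b _ h => hinj67 h]
    rw [Finset.sum_congr rfl fun i _ => by
      rw [show chevE7.simple (i67 i : ℕ) = e67 (chevE6.simple i) from (e67_simple i).symm,
        ← e67_act C6 L.reverse (C6.simple_lt i i.isLt),
        hpre _ (C6.act_lt (valMap_lt C6 L.reverse) (C6.simple_lt i i.isLt)),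
        pr_act C6 (valMap_lt C6 L.reverse) heig (C6.simple_lt i i.isLt), pr_simple C6 v i,
        C.coef_refl 6 (by decide) _ hk (i67 i) (i67 i).isLt,
        if_neg (fun e : ((i67 i : Fin chevE7.rank) : ℕ) = 6 => by
          have h6 : (i : ℕ) = 6 := e
          have e6 : chevE6.rank = 6 := rfl
          have := i.isLt
          omega), sub_zero, C.coef_simple k k.isLt (i67 i) (i67 i).isLt]]
    by_cases hk6 : (k : ℕ) < chevE6.rank
    · rw [Finset.sum_eq_single (⟨k, hk6⟩ : Fin chevE6.rank) (fun b _ hb => by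
        rw [if_neg (fun e : ((i67 b : Fin chevE7.rank) : ℕ) = k => hb (Fin.ext e)), Int.cast_zero, zero_mul]) (by simp),
        if_pos (show ((i67 ⟨k, hk6⟩ : Fin chevE7.rank) : ℕ) = k from rfl), Int.cast_one, one_mul]
      congr 1
      exact (hv67 ⟨k, hk6⟩).symm
    · rw [Finset.sum_eq_zero fun b _ => by
        rw [if_neg (fun e : ((i67 b : Fin chevE7.rank) : ℕ) = k => hk6 (e ▸ b.isLt)), Int.cast_zero, zero_mul],
        show v7 k = 0 from dif_neg hk6, mul_zero]
  have hregv7 : ∀ s < chevE7.nroots, s ∉ e7Orth → pr C v7 s ≠ 0 := by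
    intro s hs hsP h0
    obtain ⟨t, ht⟩ := (e7proj ⟨s, hs⟩).resolve_left hsP
    refine hregv t t.isLt ?_
    show pr C6 v t = 0
    rw [← hpre t t.isLt]
    have h1 := two_pr C v7 hs
    have h2 := two_pr C v7 (e67_lt t.isLt)
    simp only [ht, hv7b 63 (by simp [e7Beta]), hv7b 92 (by simp [e7Beta]), hv7b 125 (by simp [e7Beta]), mul_zero,
      add_zero, h0] at h1 h2
    rw [← h1] at h2
    refine (mul_eq_zero.mp h2).resolve_left fun h => hrd2 ?_
    exact (ZMod.natCast_eq_zero_iff 2 r).mp (by exact_mod_cast h)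
  -- that element inside `H`
  have h2r : (2 : ZMod r) ≠ 0 := fun h => hrd2 ((ZMod.natCast_eq_zero_iff 2 r).mp (by exact_mod_cast h))
  let csr : ℤ →+* ZMod r := Int.castRingHom _
  obtain ⟨c, hc⟩ : ∃ c, c = (2 : ZMod r)⁻¹ • (e7Inv.map csr *ᵥ v7) := ⟨_, rfl⟩
  have htwo1 : ((2 : ℤ) • (1 : Matrix (Fin chevE7.rank) (Fin chevE7.rank) ℤ)).map csr =
      (2 : ZMod r) • (1 : Matrix (Fin chevE7.rank) (Fin chevE7.rank) (ZMod r)) := by
    ext a b
    rw [Matrix.map_apply, Matrix.smul_apply, Matrix.smul_apply, Matrix.one_apply, Matrix.one_apply]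
    split_ifs <;> simp [csr]
  have hBc : (cartT chevE7).map csr *ᵥ c = v7 := by
    rw [hc, Matrix.mulVec_smul, Matrix.mulVec_mulVec, ← Matrix.map_mul, e7Inv_cartT.2, htwo1, Matrix.smul_mulVec,
      Matrix.one_mulVec, smul_smul, inv_mul_cancel₀ h2r, one_smul]
  have hMc : Rᵀ.map csr *ᵥ c = (q : ZMod r) • c := by
    have h1 : (cartT chevE7).map csr *ᵥ (Rᵀ.map csr *ᵥ c - (q : ZMod r) • c) = 0 := by
      rw [Matrix.mulVec_sub, Matrix.mulVec_smul, hBc, Matrix.mulVec_mulVec, ← Matrix.map_mul, hBM, Matrix.map_mul,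
        ← Matrix.mulVec_mulVec, hBc]
      exact sub_eq_zero.mpr hAv7
    have h2 := congrArg (fun w => e7Inv.map csr *ᵥ w) h1
    simp only [Matrix.mulVec_mulVec, ← Matrix.map_mul, e7Inv_cartT.1, Matrix.mulVec_zero] at h2
    rw [htwo1, Matrix.smul_mulVec, Matrix.one_mulVec] at h2
    exact sub_eq_zero.mp ((smul_eq_zero.mp h2).resolve_left h2r)
  have hjmat : ∀ (T : Matrix (Fin chevE7.rank) (Fin chevE7.rank) ℤ) (w : Fin chevE7.rank → ZMod r),
      T.map cs *ᵥ (fun i => j (w i)) = fun i => j ((T.map csr *ᵥ w) i) := by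
    intro T w
    funext i
    simp only [Matrix.mulVec, dotProduct, Matrix.map_apply, cs, csr, eq_intCast, map_sum]
    exact Finset.sum_congr rfl fun k _ => by rw [← zsmul_eq_mul, ← zsmul_eq_mul, map_zsmul]
  set a₀ : Multiplicative (Fin chevE7.rank → ZMod n) := Multiplicative.ofAdd fun i => j (c i) with ha₀
  have ha₀S : a₀ ∈ S := by
    rw [hmemS, ha₀, toAdd_ofAdd, hjmat, hMc]
    funext i
    rw [Pi.smul_apply, Pi.smul_apply, smul_eq_mul, smul_eq_mul, ← nsmul_eq_mul, ← nsmul_eq_mul, map_nsmul]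
  obtain ⟨y, hy⟩ : Θ ⟨a₀, ha₀S⟩ ∈ τ.range := hrange ▸ ⟨_, rfl⟩
  have hevy : ev y = fun i => j (v7 i) := by
    show (P.lg (τ y)).toAdd = _
    rw [hy]
    show (P.lg (T0 a₀)).toAdd = _
    rw [hlgT, ha₀, toAdd_ofAdd, hjmat, hBc]
  have hjpr : ∀ s, pr C (ev y) s = j (pr C v7 s) := fun s => by
    simp only [pr, hevy, map_sum]
    exact Finset.sum_congr rfl fun k _ => by rw [← zsmul_eq_mul, ← zsmul_eq_mul, map_zsmul]
  -- regularity of the generator
  set a := ev η with ha
  obtain ⟨k0, hk0⟩ := hgen y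
  obtain ⟨c1, c2, c3, -⟩ := hbeta η
  have hω0 : ω ≠ 0 := fun h => by
    have h1 := Nat.le_of_dvd Nat.one_pos (hωord 1 (by rw [Nat.cast_one, one_mul]; exact h))
    omega
  have hpb3 : pr C a b₃ = - ((q : ZMod n) * ω) := by linear_combination -c3
  have hpb2 : pr C a b₂ = - ((q : ZMod n) ^ 2 * ω) := by rw [c1, hpb3]; ring
  have horth : ∀ s ∈ e7Orth, ∃ e ∈ [(1 : ℤ), -1, q, -q, (q : ℤ) ^ 2, -(q : ℤ) ^ 2],
      pr C a s = (e : ZMod n) * ω ∧ ∀ t ∈ e7Orth, pr C a t = (e : ZMod n) * ω → t = s := by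
    have hdec : ∀ s ∈ e7Orth, s = 63 ∨ s = b₂ ∨ s = b₃ ∨ s = chevE7.neg 63 ∨ s = chevE7.neg b₂ ∨ s = chevE7.neg b₃ := by
      rcases hb with ⟨rfl, rfl⟩ | ⟨rfl, rfl⟩ <;> decide +kernel
    have hval : ∀ s ∈ e7Orth, ∃ e ∈ [(1 : ℤ), -1, q, -q, (q : ℤ) ^ 2, -(q : ℤ) ^ 2],
        pr C a s = (e : ZMod n) * ω ∧
          (e = 1 → s = 63) ∧ (e = -(q : ℤ) ^ 2 → s = b₂) ∧ (e = -q → s = b₃) ∧ (e = -1 → s = chevE7.neg 63) ∧
          (e = (q : ℤ) ^ 2 → s = chevE7.neg b₂) ∧ (e = (q : ℤ) → s = chevE7.neg b₃) := by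
      have hqq : (q : ℤ) ≠ 1 ∧ (q : ℤ) ≠ -1 ∧ (q : ℤ) ^ 2 ≠ 1 ∧ (q : ℤ) ^ 2 ≠ q ∧ 0 < (q : ℤ) ∧ 4 ≤ (q : ℤ) ^ 2 := by
        have h2 : (2 : ℤ) ≤ q := by exact_mod_cast hq
        refine ⟨by omega, by omega, ?_, ?_, by omega, ?_⟩ <;> nlinarith
      obtain ⟨q1, q2, q3, q4, q5, q6⟩ := hqq
      intro s hs
      have h63lt : (63 : ℕ) < chevE7.nroots := by decide +kernel
      have p63 : pr C a 63 = ω := pr_sixtythree C a
      rcases hdec s hs with rfl | rfl | rfl | rfl | rfl | rfl
      · exact ⟨1, by simp, by rw [p63, Int.cast_one, one_mul], fun _ => rfl, by omega, by omega, by omega, by omega,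
          by omega⟩
      · exact ⟨-(q : ℤ) ^ 2, by simp, by rw [hpb2]; push_cast; ring, by omega, fun _ => rfl, by omega, by omega,
          by omega, by omega⟩
      · exact ⟨-q, by simp, by rw [hpb3]; push_cast; ring, by omega, by omega, fun _ => rfl, by omega, by omega,
          by omega⟩
      · exact ⟨-1, by simp, by rw [pr_neg C a h63lt, p63]; push_cast; ring, by omega, by omega, by omega,
          fun _ => rfl, by omega, by omega⟩
      · exact ⟨(q : ℤ) ^ 2, by simp, by rw [pr_neg C a (e7Beta_facts _ m2).1, hpb2]; push_cast; ring, by omega,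
          by omega, by omega, by omega, fun _ => rfl, by omega⟩
      · exact ⟨q, by simp, by rw [pr_neg C a (e7Beta_facts _ m3).1, hpb3]; push_cast; ring, by omega, by omega,
          by omega, by omega, by omega, fun _ => rfl⟩
    intro s hs
    obtain ⟨e, he, hpe, s1, s2, s3, s4, s5, s6⟩ := hval s hs
    refine ⟨e, he, hpe, fun t ht hte => ?_⟩
    obtain ⟨e', he', hpe', t1, t2, t3, t4, t5, t6⟩ := hval t ht
    have hee : e = e' := arith_distinct hq e he e' he' (hωint _ (by
      push_cast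
      rw [sub_mul, ← hte, ← hpe', sub_self]))
    subst hee
    simp only [List.mem_cons, List.not_mem_nil, or_false] at he
    rcases he with h | h | h | h | h | h
    · rw [s1 h, t1 h]
    · rw [s4 h, t4 h]
    · rw [s6 h, t6 h]
    · rw [s3 h, t3 h]
    · rw [s5 h, t5 h]
    · rw [s2 h, t2 h]
  have hreg : ∀ s < chevE7.nroots, pr C a s ≠ 0 := by
    intro s hs h0
    by_cases hsP : s ∈ e7Orth
    · obtain ⟨e, he, hpe, -⟩ := horth s hsP
      rw [h0] at hpe
      have he0 : (e.natAbs : ZMod n) * ω = 0 := by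
        rcases Int.natAbs_eq e with h | h
        · rw [h, Int.cast_natCast] at hpe; exact hpe.symm
        · rw [h, Int.cast_neg, Int.cast_natCast, neg_mul] at hpe; linear_combination hpe
      -- the six values are units modulo `R'`
      have h1 := hωint e (hpe.symm)
      have h2 : ∀ x ∈ [(1 : ℤ), -1, q, -q, (q : ℤ) ^ 2, -(q : ℤ) ^ 2], (R' : ℤ) ∣ x → (R' : ℤ) ∣ (q : ℤ) ^ 3 := by
        intro x hx hxd
        simp only [List.mem_cons, List.not_mem_nil, or_false] at hx
        rcases hx with rfl | rfl | rfl | rfl | rfl | rfl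
        · exact hxd.trans (one_dvd _)
        · exact ((dvd_neg).mp hxd).trans (one_dvd _)
        · exact hxd.trans (dvd_pow_self _ (by norm_num))
        · exact ((dvd_neg).mp hxd).trans (dvd_pow_self _ (by norm_num))
        · exact hxd.trans (pow_dvd_pow _ (by norm_num))
        · exact ((dvd_neg).mp hxd).trans (pow_dvd_pow _ (by norm_num))
      have h3 : R' ∣ q ^ 3 := Int.natCast_dvd_natCast.mp (by exact_mod_cast h2 e he h1)
      have h4 : R' ∣ 1 := (Nat.dvd_add_right h3).mp (Nat.div_dvd_of_dvd hgR)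
      have := Nat.le_of_dvd Nat.one_pos h4
      omega
    · refine hregv7 s hs hsP (hj ?_)
      rw [map_zero, ← hjpr, ← hk0]
      simp only [pr, hev_pow]
      rw [show (∑ i, (coefVec C s i : ZMod n) * ((k0 : ZMod n) * a i)) = (k0 : ZMod n) * pr C a s by
        simp only [pr, Finset.mul_sum]; exact Finset.sum_congr rfl fun i _ => mul_left_comm _ _ _, h0, mul_zero]
  -- the centraliser
  have hcomm : ∀ w : ↥H, (τ w : GL chevE7.Idx K) * cj z = cj z * (τ w : GL chevE7.Idx K) := fun w => by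
    show cj (w : ↥(chevE7.group F)) * cj z = cj z * cj (w : ↥(chevE7.group F))
    rw [← map_mul, ← map_mul, Subgroup.mem_centralizer_iff.mp hz w w.2]
  show cj z ∈ chevE7.diagonalSubgroup K
  have hcz : cj z ∈ chevE7.group K :=
    mul_mem (mul_mem hgG (map_group_le ι ⟨_, z.2, rfl⟩)) (inv_mem hgG)
  obtain ⟨Lz, ua, hua, h, hh, uu, huu, eg⟩ := exists_canon C coxE7 hcz
  set nz := C.nWordElt K (Lz.map Fin.val) with hnz
  have hnN : nz ∈ chevE7.monomialSubgroup K := C.nWordElt_mem (C.fin_word_lt Lz)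
  have huU : uu ∈ chevE7.posUnipotent K := C.span_mono (fun x hx => hx.1) huu
  have hcanon : ∀ w : ↥H, (τ w : GL chevE7.Idx K) * ua * (τ w : GL chevE7.Idx K)⁻¹ = ua ∧
      (τ w : GL chevE7.Idx K) * uu * (τ w : GL chevE7.Idx K)⁻¹ = uu ∧
      nz * (τ w : GL chevE7.Idx K) * nz⁻¹ = (τ w : GL chevE7.Idx K) := by
    intro w
    set yy := (τ w : GL chevE7.Idx K) with hyy
    have hyT : yy ∈ chevE7.diagonalSubgroup K := (τ w).2
    have h1 : yy * ua * yy⁻¹ ∈ chevE7.posUnipotent K :=
      (Subgroup.mem_normalizer_iff.mp (C.posUnipotent_normalised hyT) ua).mp hua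
    have h2 : yy * uu * yy⁻¹ ∈ spanGroup chevE7 K (Inverts chevE7 K nz) :=
      (Subgroup.mem_normalizer_iff.mp (C.diag_normalises (Inverts chevE7 K nz) (fun x hx => hx.1.1) hyT) uu).mp huu
    have hnc : nz * yy⁻¹ * nz⁻¹ ∈ chevE7.diagonalSubgroup K := C.monomial_conj_diagonal hnN (inv_mem hyT)
    have e1 : yy * ua * yy⁻¹ * (yy * h * (nz * yy⁻¹ * nz⁻¹)) * nz * (yy * uu * yy⁻¹) = ua * h * nz * uu := by
      calc _ = yy * (ua * h * nz * uu) * yy⁻¹ := by group
        _ = yy * cj z * yy⁻¹ := by rw [← eg]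
        _ = cj z := by rw [hyy, hcomm w, mul_inv_cancel_right]
        _ = _ := eg
    obtain ⟨r1, r2, r3⟩ := canon_unique C h1 hua (mul_mem (mul_mem hyT hh) hnc) hh h2 huu e1
    refine ⟨r1, r3, ?_⟩
    rw [C.diagonal_comm hyT hh, mul_assoc h yy] at r2
    have h3 := mul_eq_left.mp r2
    have h4 := congrArg Inv.inv (eq_inv_of_mul_eq_one_right h3)
    rw [inv_inv, ← conj_inv, inv_inv] at h4
    exact h4
  obtain ⟨χ, hch, -, eχ⟩ := C.diagonal_char (τ η).2
  have hregχ : ∀ s < chevE7.nroots, χ s ≠ 1 := fun s hs => P.char_ne_one eχ hs (hreg s hs)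
  have ha1 := eq_one_of_regular C hch eχ hregχ hua (hcanon η).1
  have hu1 := eq_one_of_regular C hch eχ hregχ huU (hcanon η).2.1
  -- the word fixes the coordinates
  set rz := (Lz.map Fin.val).reverse with hrz
  have hrzlt : ∀ i ∈ rz, i < chevE7.rank := fun i hi => C.fin_word_lt Lz i (List.mem_reverse.mp hi)
  have hfix : ∀ w : ↥H, (actMat C rz).map cs *ᵥ ev w = (1 : ZMod n) • ev w := by
    intro w
    have hm1 : nz * 1 * (τ w : GL chevE7.Idx K) * (nz * 1)⁻¹ ∈ chevE7.diagonalSubgroup K := by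
      rw [mul_one, (hcanon w).2.2]; exact (τ w).2
    have h5 := P.lg_conj (C.fin_word_lt Lz) (one_mem (chevE7.diagonalSubgroup K)) (τ w) hm1
    have h6 : (⟨_, hm1⟩ : ↥(chevE7.diagonalSubgroup K)) = τ w := Subtype.ext
      (show nz * 1 * (τ w : GL chevE7.Idx K) * (nz * 1)⁻¹ = τ w by rw [mul_one]; exact (hcanon w).2.2)
    rw [h6] at h5
    rw [one_smul]
    exact h5.symm
  set wz := act chevE7 rz with hwz
  have hwfix : ∀ w : ↥H, ∀ s < chevE7.nroots, pr C (ev w) (wz s) = pr C (ev w) s := fun w s hs => by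
    rw [hwz, pr_act C hrzlt (hfix w) hs, one_mul]
  have hworth : ∀ s ∈ e7Orth, wz s = s := by
    intro s hs
    obtain ⟨hslt, -⟩ := e7Orth_six s hs
    have hwlt : wz s < chevE7.nroots := C.act_lt hrzlt hslt
    have hwP : wz s ∈ e7Orth := by
      by_contra hP
      refine hregv7 _ hwlt hP (hj ?_)
      rw [map_zero, ← hjpr, hwfix y s hslt, hjpr]
      have h0 : pr C v7 s = 0 := by
        rcases (e7Orth_six s hs).2 with ⟨-, h⟩ | ⟨-, h⟩
        · exact hv7b s h
        · have := hv7b _ h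
          rw [pr_neg C v7 hslt, neg_eq_zero] at this
          exact this
      rw [h0, map_zero]
    obtain ⟨e, -, hpe, huniq⟩ := horth s hs
    exact huniq _ hwP ((hwfix η s hslt).trans hpe)
  -- an integral regular vector fixed by the word
  obtain ⟨N, hrN, hN⟩ := exists_pow_mem_diagonal C r hvK
  have hrz' : rz = Lz.reverse.map Fin.val := List.map_reverse.symm
  have hAz : actMat C rz ^ N = 1 := by
    rw [hrz']
    exact actMat_pow_eq_one C (F := K) (C.fin_word_lt Lz.reverse) (hN _ (C.nWordElt_mem (C.fin_word_lt Lz.reverse)))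
  let ũ : Fin chevE7.rank → ℤ := fun k => ((v7 k).cast : ℤ)
  have hu : (fun i => (ũ i : ZMod r)) = v7 := funext fun i => ZMod.intCast_zmod_cast (v7 i)
  set fr : Fin chevE7.rank → ℤ := ∑ i ∈ Finset.range N, actMat C rz ^ i *ᵥ ũ with hfr
  have hAf : actMat C rz *ᵥ fr = fr := by
    rw [hfr, Matrix.mulVec_sum]
    have h1 := Finset.sum_range_succ (fun i => actMat C rz ^ i *ᵥ ũ) N
    have h2 := Finset.sum_range_succ' (fun i => actMat C rz ^ i *ᵥ ũ) N
    rw [h1, hAz, pow_zero, add_left_inj] at h2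
    conv_rhs => rw [h2]
    exact Finset.sum_congr rfl fun i _ => by rw [Matrix.mulVec_mulVec, ← pow_succ']
  have hv7fix : (actMat C rz).map csr *ᵥ v7 = v7 := by
    funext i
    refine hj ?_
    have h1 := congrFun (hjmat (actMat C rz) v7) i
    rw [← hevy, hfix y, one_smul, hevy] at h1
    exact h1.symm
  have hfrmod : ∀ i, (fr i : ZMod r) = (N : ZMod r) * v7 i := by
    intro i
    have hk : ∀ k : ℕ, (fun i => ((actMat C rz ^ k *ᵥ ũ) i : ZMod r)) = v7 := by
      intro k
      induction k with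
      | zero => simpa using hu
      | succ k ih =>
        have h1 : ((actMat C rz).map csr *ᵥ fun i => ((actMat C rz ^ k *ᵥ ũ) i : ZMod r)) = v7 := by
          rw [ih]; exact hv7fix
        rw [pow_succ', ← Matrix.mulVec_mulVec]
        conv_rhs => rw [← h1]
        funext i
        simp [csr, Matrix.mulVec, dotProduct]
    rw [hfr, Finset.sum_apply, Int.cast_sum, Finset.sum_congr rfl fun k _ => congrFun (hk k) i, Finset.sum_const,
      Finset.card_range, nsmul_eq_mul]
  let RR : ℤ := (r : ℤ) * (1 + (pr C fr 63).natAbs + (pr C fr 92).natAbs + (pr C fr 125).natAbs)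
  let f2 : Fin chevE7.rank → ℤ := fun k => pairInt chevE7 63 (chevE7.simple k) + pairInt chevE7 92 (chevE7.simple k) +
    pairInt chevE7 125 (chevE7.simple k)
  set f := fr + RR • f2 with hf
  have hpair : ∀ b s, s < chevE7.nroots →
      pairInt chevE7 b s = ∑ a : Fin chevE7.rank, C.coef s a * pairInt chevE7 b (chevE7.simple a) := by
    intro b s hs
    have hc : ∀ i : Fin chevE7.rank, chevE7.cartan i s =
        ∑ a : Fin chevE7.rank, C.coef s a * chevE7.cartan i (chevE7.simple a) := fun i => by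
      rw [C.cartan_linear i i.isLt s hs, Finset.sum_range]
    simp only [Cert.pairInt_eq, Finset.sum_range, Finset.mul_sum, hc]
    rw [Finset.sum_comm]
    exact Finset.sum_congr rfl fun a _ => Finset.sum_congr rfl fun i _ => mul_left_comm _ _ _
  have hφ : ∀ s < chevE7.nroots, coefVec C s ⬝ᵥ f = pr C fr s +
      RR * (pairInt chevE7 63 s + pairInt chevE7 92 s + pairInt chevE7 125 s) := by
    intro s hs
    rw [hpair 63 s hs, hpair 92 s hs, hpair 125 s hs, hf, dotProduct_add, dotProduct_smul, smul_eq_mul]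
    congr 1
    rw [← Finset.sum_add_distrib, ← Finset.sum_add_distrib]
    congr 1
    exact Finset.sum_congr rfl fun k _ => by
      show C.coef s k * f2 k = _
      simp only [f2]; ring
  have hidz : ∀ s < chevE7.nroots, act chevE7 (Lz.reverse.map Fin.val) s = s := by
    refine act_eq_self_of_int C coxE7 Lz.reverse f ?_ ?_
    · rw [← hrz', hf, Matrix.mulVec_add, hAf, Matrix.mulVec_smul]
      congr 1
      congr 1
      funext k
      have hk := C.simple_lt k k.isLt
      have e1 : (actMat C rz *ᵥ f2) k =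
          pairInt chevE7 63 (wz (chevE7.simple k)) + pairInt chevE7 92 (wz (chevE7.simple k)) +
            pairInt chevE7 125 (wz (chevE7.simple k)) := by
        rw [hpair 63 _ (C.act_lt hrzlt hk), hpair 92 _ (C.act_lt hrzlt hk), hpair 125 _ (C.act_lt hrzlt hk),
          ← Finset.sum_add_distrib, ← Finset.sum_add_distrib]
        show ∑ l : Fin chevE7.rank, actMat C rz k l * f2 l = _
        refine Finset.sum_congr rfl fun l _ => ?_
        show C.coef (act chevE7 rz (chevE7.simple k)) l * f2 l = _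
        simp only [f2, hwz]; ring
      have e2 : ∀ b ∈ e7Beta, pairInt chevE7 b (wz (chevE7.simple k)) = pairInt chevE7 b (chevE7.simple k) := by
        intro b hb'
        obtain ⟨hblt, hbP, -, -⟩ := e7Beta_facts b hb'
        conv_lhs => rw [← hworth b hbP]
        rw [hwz]
        exact pairInt_act C hrzlt hblt hk
      rw [e1, e2 63 (by simp [e7Beta]), e2 92 (by simp [e7Beta]), e2 125 (by simp [e7Beta])]
    · intro s hs
      rw [hφ s hs]
      intro h0
      by_cases hsP : s ∈ e7Orth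
      · have hd2 : ∀ t ∈ e7Orth, pairInt chevE7 63 t + pairInt chevE7 92 t + pairInt chevE7 125 t = 2 ∧ t ∈ e7Beta ∨
            pairInt chevE7 63 t + pairInt chevE7 92 t + pairInt chevE7 125 t = -2 ∧ chevE7.neg t ∈ e7Beta := by
          decide +kernel
        have hbd : ∀ b ∈ e7Beta, |pr C fr b| < RR := by
          intro b hb'
          have hr1 : (1 : ℤ) ≤ r := by exact_mod_cast (Fact.out : r.Prime).one_lt.le
          have hrest : |pr C fr b| < 1 + (pr C fr 63).natAbs + (pr C fr 92).natAbs + (pr C fr 125).natAbs := by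
            simp only [e7Beta, List.mem_cons, List.not_mem_nil, or_false] at hb'
            rw [← Int.natCast_natAbs]
            rcases hb' with rfl | rfl | rfl <;> omega
          exact hrest.trans_le (le_mul_of_one_le_left (by positivity) hr1)
        rcases hd2 s hsP with ⟨e, hb'⟩ | ⟨e, hb'⟩
        · have := hbd s hb'
          rw [e] at h0
          rw [abs_lt] at this
          omega
        · have := hbd _ hb'
          rw [pr_neg C fr hs, abs_neg] at this
          rw [e] at h0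
          rw [abs_lt] at this
          omega
      · have h1 := congrArg (fun x : ℤ => (x : ZMod r)) h0
        have hRR : (RR : ZMod r) = 0 := by simp [RR]
        simp only [Int.cast_add, Int.cast_mul, hRR, zero_mul, add_zero, Int.cast_zero, pr, Int.cast_sum, hfrmod] at h1
        rw [Finset.sum_congr rfl fun i _ => mul_left_comm _ (N : ZMod r) (v7 i), ← Finset.mul_sum] at h1
        rcases mul_eq_zero.mp h1 with h | h
        · exact hrN ((ZMod.natCast_eq_zero_iff _ _).mp h)
        · exact hregv7 s hs hsP h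
  have hid' : ∀ s < chevE7.nroots, act chevE7 (Lz.map Fin.val) s = s := fun s hs => by
    have h7 := act_reverse_right C (C.fin_word_lt Lz) hs
    rw [← List.map_reverse, hidz s hs] at h7
    exact h7
  rw [eg, ha1, hu1, one_mul, mul_one]
  exact mul_mem hh (C.nWordElt_mem_diagonal coxE7 hid')

end Cfsg.Agent.Chars2.SingerTorus
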