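import Cfsg.Agent.Chars2.SingerTorus.E7Data

/-!
A Weyl word of `E₆` in standard position permutes cyclically the three positive roots of `E₇` orthogonal to the
subsystem of type `D₄`.
-/

set_option autoImplicit false
set_option linter.unusedSectionVars false

universe u

namespace Cfsg.Agent.Chars2.SingerTorus

open Cfsg.Lie Cfsg.Agent.Chev Matrix Polynomial

section

variable (C6 : Cert.{u} chevE6) (C7 : Cert.{u} chevE7) (L L₆ : List (Fin chevE6.rank))
  (hchar : (actMat C6 (L.reverse.map Fin.val)).charpoly = cyclotomic 12 ℤ * (X ^ 2 + X + 1))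
  (hpow : actMat C6 (L.reverse.map Fin.val) ^ 6 = actMat C6 (L₆.map Fin.val))
  (hL₆ : ∀ i ∈ L₆, i ∈ e6D4)
  (hblock : ∀ i ∈ e6D4, ∀ k, actMat C6 (L₆.map Fin.val) i k = if i = k then -1 else 0)
include C6 C7

omit C6 in
theorem act_neg_root {M : List ℕ} (hM : ∀ i ∈ M, i < chevE7.rank) {s : ℕ} (hs : s < chevE7.nroots) :
    act chevE7 M (chevE7.neg s) = chevE7.neg (act chevE7 M s) := by
  induction M with
  | nil => rw [act_nil, act_nil]
  | cons a M ih =>
    have hM' : ∀ i ∈ M, i < chevE7.rank := fun i hi => hM i (List.mem_cons_of_mem _ hi)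
    rw [act_cons, act_cons, ih hM', C7.refl_neg (hM a List.mem_cons_self) (C7.act_lt hM' hs)]

theorem lt_rank_E7 (M : List (Fin chevE6.rank)) : ∀ i ∈ M.map Fin.val, i < chevE7.rank := fun i hi =>
  Nat.lt_of_lt_of_le (valMap_lt C6 M i hi) (by decide)

theorem coef_six_act (M : List (Fin chevE6.rank)) {s : ℕ} (hs : s < chevE7.nroots) :
    corootC chevE7 (act chevE7 (M.map Fin.val) s) 6 = corootC chevE7 s 6 := by
  classical
  have h6 : (⟨6, by decide⟩ : Fin chevE7.rank) ∉ Finset.univ.image i67 := by decide +kernel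
  have h := coef_act_of_notMem C7 (Finset.univ.image i67) (L := M.map i67)
    (fun a ha => by
      obtain ⟨b, -, rfl⟩ := List.mem_map.mp ha
      exact Finset.mem_image_of_mem _ (Finset.mem_univ b)) hs h6
  rw [map_i67, coef_E7 C7 (C7.act_lt (lt_rank_E7 C6 C7 M) hs) ⟨6, by decide⟩, coef_E7 C7 hs ⟨6, by decide⟩] at h
  exact h

include hchar hpow hL₆ hblock

/-- The inverse word preserves the span of the nodes of type `D₄`. -/
theorem node_image (i : Fin chevE6.rank) (hi : i ∈ e6D4) : ∀ k ∉ e6D4,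
    corootC chevE6 (act chevE6 (L.reverse.map Fin.val) (chevE6.simple i)) k = 0 := by
  intro k hk
  set A := actMat C6 (L.reverse.map Fin.val) with hA
  set B6 := actMat C6 (L₆.map Fin.val) with hB
  have hlt := C6.act_lt (valMap_lt C6 L.reverse) (C6.simple_lt i i.isLt)
  have hrow : coefVec C6 (act chevE6 (L.reverse.map Fin.val) (chevE6.simple i)) = A i := rfl
  have h1 : (A i) ᵥ* B6 = - A i := by
    have hcomm : A * B6 = B6 * A := by rw [← hpow, ← pow_succ, ← pow_succ']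
    funext m
    show (A * B6) i m = - A i m
    rw [hcomm, Matrix.mul_apply, Finset.sum_eq_single i (fun b _ hb => by
      rw [hblock i hi b, if_neg (Ne.symm hb), zero_mul]) (by simp), hblock i hi i, if_pos rfl, neg_one_mul]
  have h2 := congrFun h1 k
  rw [← hrow, ← coefVec_act C6 (valMap_lt C6 L₆) hlt, Pi.neg_apply] at h2
  simp only [coefVec] at h2
  rw [coef_act_of_notMem C6 e6D4 hL₆ hlt hk] at h2
  rw [← coef_E6 C6 hlt]
  omega

theorem orth_act {s : ℕ} (hs : s < chevE7.nroots) (hP : s ∈ e7Orth) :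
    act chevE7 (L.map Fin.val) s ∈ e7Orth := by
  have hlt := C7.act_lt (lt_rank_E7 C6 C7 L) hs
  refine (e7Orth_iff ⟨_, hlt⟩).mp fun j => ?_
  have hj := (e7n4 j).isLt
  set n : Fin chevE6.rank := ⟨(j : ℕ) + 1, Nat.lt_trans (Nat.succ_lt_succ j.isLt) (by decide)⟩ with hn
  have hn4 : n ∈ e6D4 := by
    refine Finset.mem_filter.mpr ⟨Finset.mem_univ _, ?_⟩
    show 1 ≤ (j : ℕ) + 1 ∧ (j : ℕ) + 1 ≤ 4
    omega
  show chevE7.cartan (e7n4 j) (act chevE7 (L.map Fin.val) s) = 0
  set t := act chevE6 (L.reverse.map Fin.val) (chevE6.simple n) with ht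
  have htlt : t < chevE6.nroots := C6.act_lt (valMap_lt C6 L.reverse) (C6.simple_lt n n.isLt)
  have het : act chevE7 (L.map Fin.val) (e67 t) = chevE7.simple (e7n4 j) := by
    rw [← e67_act C6 L htlt, ht, List.map_reverse, act_reverse_right C6 (valMap_lt C6 L) (C6.simple_lt n n.isLt),
      e67_simple]
    rfl
  rw [← C7.pairInt_simple hj, ← het, pairInt_act C7 (lt_rank_E7 C6 C7 L) (e67_lt htlt) hs, Cert.pairInt_eq]
  refine Finset.sum_eq_zero fun k hk => ?_
  rw [Finset.mem_range] at hk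
  by_cases hk6 : k < chevE6.rank
  · by_cases hkD : (⟨k, hk6⟩ : Fin chevE6.rank) ∈ e6D4
    · obtain ⟨j', hj'⟩ : ∃ j' : Fin 4, (e7n4 j' : ℕ) = k := by
        have h14 : 1 ≤ k ∧ k ≤ 4 := (Finset.mem_filter.mp hkD).2
        exact ⟨⟨k - 1, by omega⟩, show k - 1 + 1 = k by omega⟩
      rw [← hj', ((e7Orth_iff ⟨s, hs⟩).mpr hP) j', mul_zero]
    · have h := node_image C6 C7 L L₆ hchar hpow hL₆ hblock n hn4 _ hkD
      rw [← ht, ← (e67_coroot htlt).1] at h
      rw [show corootC chevE7 (e67 t) k = 0 from h, zero_mul]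
  · have h6 : k = 6 := by
      have h7 : chevE7.rank = 7 := rfl
      have h6' : chevE6.rank = 6 := rfl
      omega
    rw [h6, (e67_coroot htlt).2, zero_mul]

theorem beta_act {s : ℕ} (hs : s ∈ e7Beta) : act chevE7 (L.map Fin.val) s ∈ e7Beta := by
  obtain ⟨hlt, hP, -, h6⟩ := e7Beta_facts s hs
  obtain ⟨-, ⟨-, h⟩ | ⟨h, -⟩⟩ := e7Orth_six _ (orth_act C6 C7 L L₆ hchar hpow hL₆ hblock hlt hP)
  · exact h
  · rw [coef_six_act C6 C7 L hlt, h6] at h
    omega

theorem beta_cycle : ∃ b₂ b₃ : ℕ, ((b₂ = 92 ∧ b₃ = 125) ∨ (b₂ = 125 ∧ b₃ = 92)) ∧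
    act chevE7 (L.map Fin.val) 63 = b₂ ∧ act chevE7 (L.map Fin.val) b₂ = b₃ ∧
      act chevE7 (L.map Fin.val) b₃ = 63 := by
  classical
  set w := act chevE7 (L.map Fin.val) with hw
  have hlt : ∀ s ∈ e7Beta, s < chevE7.nroots := fun s hs => (e7Beta_facts s hs).1
  have hinj : ∀ s ∈ e7Beta, ∀ t ∈ e7Beta, w s = w t → s = t := by
    intro s hs t ht h
    have h1 := congrArg (act chevE7 (L.map Fin.val).reverse) h
    rwa [act_reverse_left C7 (lt_rank_E7 C6 C7 L) (hlt s hs),
      act_reverse_left C7 (lt_rank_E7 C6 C7 L) (hlt t ht)] at h1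
  have hfix : ∀ f g h : ℕ, f ∈ e7Beta → g ∈ e7Beta → h ∈ e7Beta →
      corootC chevE7 g 0 + corootC chevE7 h 0 - 2 * corootC chevE7 f 0 ≠ 0 →
      w f = f → ((w g = g ∧ w h = h) ∨ (w g = h ∧ w h = g)) → False := by
    intro f g h hf hg hh h0 ef egh
    set A7 := actMat C7 (L.reverse.map Fin.val) with hA7
    set A6 := actMat C6 (L.reverse.map Fin.val) with hA6
    have hrev : ∀ s ∈ e7Beta, ∀ t, w s = t → coefVec C7 t ᵥ* A7 = coefVec C7 s := by
      intro s hs t e
      rw [← e, hA7, ← coefVec_act C7 (lt_rank_E7 C6 C7 L.reverse) (C7.act_lt (lt_rank_E7 C6 C7 L) (hlt s hs)),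
        List.map_reverse, act_reverse_left C7 (lt_rank_E7 C6 C7 L) (hlt s hs)]
    set U : Fin chevE7.rank → ℤ := coefVec C7 g + coefVec C7 h - (2 : ℤ) • coefVec C7 f with hU
    have hUA : U ᵥ* A7 = U := by
      rw [hU, Matrix.sub_vecMul, Matrix.add_vecMul, Matrix.smul_vecMul, hrev f hf f ef]
      rcases egh with ⟨e1, e2⟩ | ⟨e1, e2⟩
      · rw [hrev g hg g e1, hrev h hh h e2]
      · rw [hrev h hh g e2, hrev g hg h e1, add_comm]
    have hU6 : U ⟨6, by decide⟩ = 0 := by
      simp only [hU, coefVec_E7 C7 (hlt g hg), coefVec_E7 C7 (hlt h hh), coefVec_E7 C7 (hlt f hf), Pi.sub_apply,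
        Pi.add_apply, Pi.smul_apply, smul_eq_mul]
      rw [(e7Beta_facts g hg).2.2.2, (e7Beta_facts h hh).2.2.2, (e7Beta_facts f hf).2.2.2]
      norm_num
    let u : Fin chevE6.rank → ℤ := fun i => U (i67 i)
    have hu : u ᵥ* A6 = u := by
      funext k
      have h1 := congrFun hUA (i67 k)
      refine Eq.trans ?_ h1
      show ∑ i : Fin chevE6.rank, U (i67 i) * A6 i k = ∑ i : Fin chevE7.rank, U i * A7 i (i67 k)
      have hinj67 : Function.Injective i67 := by decide +kernel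
      rw [← Finset.sum_subset (Finset.subset_univ (Finset.univ.image i67)) (fun i _ hi => by
        have h2 : ∀ i : Fin chevE7.rank, i ∉ Finset.univ.image i67 → i = ⟨6, by decide⟩ := by decide +kernel
        rw [h2 i hi, hU6, zero_mul]), Finset.sum_image fun a _ b _ h => hinj67 h]
      refine Finset.sum_congr rfl fun i _ => ?_
      congr 1
      show C6.coef (act chevE6 (L.reverse.map Fin.val) (chevE6.simple i)) k =
        C7.coef (act chevE7 (L.reverse.map Fin.val) (chevE7.simple (i67 i))) (i67 k)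
      rw [show chevE7.simple (i67 i : ℕ) = e67 (chevE6.simple i) from (e67_simple i).symm,
        ← e67_act C6 L.reverse (C6.simple_lt i i.isLt),
        coef_E7 C7 (e67_lt (C6.act_lt (valMap_lt C6 L.reverse) (C6.simple_lt i i.isLt))),
        coef_E6 C6 (C6.act_lt (valMap_lt C6 L.reverse) (C6.simple_lt i i.isLt))]
      exact ((e67_coroot (C6.act_lt (valMap_lt C6 L.reverse) (C6.simple_lt i i.isLt))).1 k).symm
    have hu0 : u ≠ 0 := fun e => h0 (by
      have := congrFun e ⟨0, by decide⟩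
      simp only [u, hU, coefVec_E7 C7 (hlt g hg), coefVec_E7 C7 (hlt h hh), coefVec_E7 C7 (hlt f hf), Pi.sub_apply,
        Pi.add_apply, Pi.smul_apply, smul_eq_mul, Pi.zero_apply] at this
      exact this)
    have hdet : (Matrix.scalar (Fin chevE6.rank) (1 : ℤ) - A6).det = 0 :=
      Matrix.exists_vecMul_eq_zero_iff.mp ⟨u, hu0, by rw [Matrix.vecMul_sub, map_one, Matrix.vecMul_one, hu, sub_self]⟩
    rw [← Matrix.eval_charpoly, hchar, eval_mul, cyclotomic_twelve] at hdet
    norm_num at hdet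
  have m1 : (63 : ℕ) ∈ e7Beta := by simp [e7Beta]
  have m2 : (92 : ℕ) ∈ e7Beta := by simp [e7Beta]
  have m3 : (125 : ℕ) ∈ e7Beta := by simp [e7Beta]
  have hmem : ∀ s ∈ e7Beta, w s = 63 ∨ w s = 92 ∨ w s = 125 := fun s hs => by
    simpa [e7Beta] using beta_act C6 C7 L L₆ hchar hpow hL₆ hblock hs
  have i12 := hinj 63 m1 92 m2
  have i13 := hinj 63 m1 125 m3
  have i23 := hinj 92 m2 125 m3
  have f1 := hfix 63 92 125 m1 m2 m3 (by decide +kernel)
  have f2 := hfix 92 63 125 m2 m1 m3 (by decide +kernel)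
  have f3 := hfix 125 63 92 m3 m1 m2 (by decide +kernel)
  rcases hmem 63 m1 with a | a | a <;> rcases hmem 92 m2 with b | b | b <;>
    rcases hmem 125 m3 with c | c | c <;>
    first
      | exact absurd (i12 (a.trans b.symm)) (by norm_num)
      | exact absurd (i13 (a.trans c.symm)) (by norm_num)
      | exact absurd (i23 (b.trans c.symm)) (by norm_num)
      | exact (f1 a (Or.inl ⟨b, c⟩)).elim
      | exact (f1 a (Or.inr ⟨b, c⟩)).elim
      | exact (f2 b (Or.inl ⟨a, c⟩)).elim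
      | exact (f2 b (Or.inr ⟨a, c⟩)).elim
      | exact (f3 c (Or.inl ⟨a, b⟩)).elim
      | exact (f3 c (Or.inr ⟨a, b⟩)).elim
      | exact ⟨92, 125, Or.inl ⟨rfl, rfl⟩, a, b, c⟩
      | exact ⟨125, 92, Or.inr ⟨rfl, rfl⟩, a, c, b⟩

end

end Cfsg.Agent.Chars2.SingerTorus
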