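import Cfsg.Agent.Chars2.SingerTorus.Main

/-!
Cyclic self-centralising tori of `F₄(q)` and `E₈(q)`.
-/

set_option autoImplicit false

universe u

namespace Cfsg.Agent.Chars2.SingerTorus

open Cfsg.Lie Cfsg.Agent.Chev Cfsg.Agent.Chars2.Homocyclic Polynomial

theorem cyclotomic_eight : cyclotomic 8 ℤ = X ^ 4 + 1 := by
  rw [show 8 = 2 ^ (2 + 1) by norm_num, cyclotomic_prime_pow_eq_geom_sum Nat.prime_two]
  simp [Finset.sum_range_succ, add_comm]

theorem cyclotomic_thirty : cyclotomic 30 ℤ = X ^ 8 + X ^ 7 - X ^ 5 - X ^ 4 - X ^ 3 + X + 1 := by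
  have h6 : cyclotomic 6 ℤ = X ^ 2 - X + 1 := by
    have h := cyclotomic_expand_eq_cyclotomic_mul (p := 3) (n := 2) Nat.prime_three (by norm_num) ℤ
    rw [cyclotomic_two, map_add, expand_X, map_one] at h
    have hne : (X + 1 : ℤ[X]) ≠ 0 := (monic_X_add_C (1 : ℤ)).ne_zero
    refine mul_right_cancel₀ hne ?_
    rw [show (2 * 3 : ℕ) = 6 by norm_num] at h
    rw [← h]; ring
  have h := cyclotomic_expand_eq_cyclotomic_mul (p := 5) (n := 6) (by norm_num) (by norm_num) ℤ
  rw [h6, map_add, map_sub, map_pow, expand_X, map_one, show (6 * 5 : ℕ) = 30 by norm_num] at h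
  have hne : (X ^ 2 - X + 1 : ℤ[X]) ≠ 0 := h6 ▸ cyclotomic_ne_zero 6 ℤ
  refine mul_right_cancel₀ hne ?_
  rw [← h]; ring

/-- A root of the cyclotomic polynomial modulo a prime not dividing the index has that order. -/
theorem orderOf_eq_of_dvd {r d q : ℕ} [Fact r.Prime] (hd : ¬ r ∣ d)
    (h : (r : ℤ) ∣ (cyclotomic d ℤ).eval (q : ℤ)) : orderOf (q : ZMod r) = d := by
  haveI : NeZero (d : ZMod r) := ⟨fun h' => hd ((ZMod.natCast_eq_zero_iff _ _).mp h')⟩
  have h1 : (((cyclotomic d ℤ).eval (q : ℤ) : ℤ) : ZMod r) = 0 := (ZMod.intCast_zmod_eq_zero_iff_dvd _ _).mpr h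
  have h2 : (cyclotomic d (ZMod r)).IsRoot (q : ZMod r) := by
    rw [IsRoot, ← map_cyclotomic d (Int.castRingHom (ZMod r)), ← Int.cast_natCast, eval_intCast_map]
    exact h1
  exact (isRoot_cyclotomic_iff.mp h2).eq_orderOf.symm

theorem one_le_det {l : ℕ} {B M : Matrix (Fin l) (Fin l) ℤ} {k : ℤ} (hk : 0 < k) (δ : Fin l → ℤ)
    (hB : k • B = M.transpose * Matrix.diagonal δ * M) (hM : ∀ i j : Fin l, (i : ℕ) ≤ (j : ℕ) ∨ M i j = 0) (hd : ∀ i, M i i ≠ 0)
    (hδ : ∀ i, 0 < δ i) : 1 ≤ B.det := by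
  have h := congrArg Matrix.det hB
  rw [Matrix.det_smul, Matrix.det_mul, Matrix.det_mul, Matrix.det_transpose, Matrix.det_diagonal,
    Matrix.det_of_upperTriangular (M := M) (fun i j h => (hM i j).resolve_left (Nat.not_le.mpr h)), Fintype.card_fin] at h
  have h1 : (∏ i, M i i) ≠ 0 := Finset.prod_ne_zero_iff.mpr fun i _ => hd i
  have h2 : 0 < (∏ i, M i i) * (∏ i, δ i) * (∏ i, M i i) := by
    have := mul_pos (Finset.prod_pos fun i (_ : i ∈ Finset.univ) => hδ i) (mul_self_pos.mpr h1)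
    linarith
  rw [← h] at h2
  exact pos_of_mul_pos_right h2 (pow_pos hk l).le

theorem le_sixteen {x : ℕ} {b : ℤ} (hb : 1 ≤ b) (h : (x : ℤ) ^ 2 * b ≤ 256) : x ≤ 16 := by
  have h1 : (x : ℤ) ^ 2 ≤ 256 := le_trans (le_mul_of_one_le_right (sq_nonneg _) hb) h
  by_contra hx
  have h2 : (17 : ℤ) ≤ x := by exact_mod_cast (by omega : 17 ≤ x)
  nlinarith

section

variable {F : Type u} [Field F] [Fintype F]

theorem selfCentralizingF4 :
    ∃ H : Subgroup ↥(chevF4.group F), IsCyclic ↥H ∧ Nat.card ↥H = Fintype.card F ^ 4 + 1 ∧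
      Subgroup.centralizer (H : Set ↥(chevF4.group F)) = H := by
  set q := Fintype.card F with hq'
  have hq : 2 ≤ q := Fintype.one_lt_card
  have hev : ((cyclotomic 8 ℤ).eval (q : ℤ)) = ((q ^ 4 + 1 : ℕ) : ℤ) := by
    rw [cyclotomic_eight]; simp
  have hmod : ∀ p ∈ [3, 4, 5, 7, 11, 13], ¬ p ∣ q ^ 4 + 1 := by
    intro p hp hd
    have h : ((q : ZMod p) ^ 4 + 1 : ZMod p) = 0 := by
      rw [← ZMod.natCast_eq_zero_iff, Nat.cast_add, Nat.cast_pow, Nat.cast_one] at hd
      exact hd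
    simp only [List.mem_cons, List.not_mem_nil, or_false] at hp
    revert h
    generalize (q : ZMod p) = a
    revert a
    rcases hp with rfl | rfl | rfl | rfl | rfl | rfl <;> decide
  have hsmall : ∀ p : ℕ, p.Prime → p ≤ 16 → p ∣ q ^ 4 + 1 → p = 2 := by
    intro p hp hle hd
    by_contra hne
    refine hmod p ?_ hd
    interval_cases p <;> revert hp hne <;> norm_num
  obtain ⟨r, hrp, hrm, hr2⟩ : ∃ r : ℕ, r.Prime ∧ r ∣ q ^ 4 + 1 ∧ r ≠ 2 := by
    by_contra hno
    push Not at hno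
    have h := Nat.eq_prime_pow_of_unique_prime_dvd (n := q ^ 4 + 1) (p := 2) (by omega)
      fun {d} hd hdd => hno d hd hdd
    have h16 : 16 ≤ q ^ 4 := by simpa using Nat.pow_le_pow_left hq 4
    rcases Nat.lt_or_ge (q ^ 4 + 1).primeFactorsList.length 2 with hl | hl
    · have := Nat.pow_le_pow_right (show 0 < 2 by norm_num) (show (q ^ 4 + 1).primeFactorsList.length ≤ 1 by omega)
      omega
    · exact hmod 4 (by simp) (h ▸ (show (2 : ℕ) ^ 2 ∣ 2 ^ _ from pow_dvd_pow 2 hl))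
  haveI : Fact r.Prime := ⟨hrp⟩
  have hr16 : 16 < r := by
    by_contra h
    exact hr2 (hsmall r hrp (by omega) hrm)
  have hrW : ¬ r ∣ [2, 6, 8, 12].prod := fun h => by
    rw [show [2, 6, 8, 12].prod = 2 ^ 7 * 3 ^ 2 by norm_num] at h
    rcases hrp.dvd_mul.mp h with h | h <;> have := Nat.le_of_dvd (by norm_num) (hrp.dvd_of_dvd_pow h) <;> omega
  have hd : orderOf (q : ZMod r) = 8 := orderOf_eq_of_dvd
    (fun h => by have := Nat.le_of_dvd (by norm_num) h; omega) (by rw [hev]; exact Int.natCast_dvd_natCast.mpr hrm)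
  have hrq : ¬ r ∣ q := fun h => by
    have h0 : (q : ZMod r) = 0 := (ZMod.natCast_eq_zero_iff _ _).mpr h
    rw [h0, orderOf_zero] at hd
    exact absurd hd (by norm_num)
  let δ : Fin chevF4.rank → ℤ := fun i => [1, 1, 2, 2].getD i 0
  let M₀ : Matrix (Fin chevF4.rank) (Fin chevF4.rank) ℤ :=
    fun i j => ([[2, -1, 0, 0], [0, 3, -4, 0], [0, 0, 2, -3], [0, 0, 0, 1]].getD i []).getD j 0
  let δ₀ : Fin chevF4.rank → ℤ := fun i => [3, 1, 2, 6].getD i 0
  have hB : (6 : ℤ) • (Matrix.of fun i j : Fin chevF4.rank => δ i * chevF4.cartan i (chevF4.simple j)) =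
      M₀.transpose * Matrix.diagonal δ₀ * M₀ := by decide +kernel
  have hpos := one_le_det (by norm_num) δ₀ hB (by decide +kernel) (by decide +kernel)
    (by decide +kernel)
  have h := exists_self_centralizing (D := chevF4) (degs := [2, 6, 8, 12]) (by simp) coxF4 (by decide +kernel) rfl
    (by simp) hrq hrW dataF4 (fun K _ _ => dataF4) ((one_mul _).symm.trans card_diagonalF4)
    (fun K _ _ => (one_mul _).symm.trans card_diagonalF4) hd
    (show Nat.totient 8 = 4 by decide) ⟨8, by simp, dvd_rfl⟩ δ (by decide +kernel) (c := 4) (by decide +kernel)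
    (k₀ := 6) (by norm_num) M₀ δ₀ (by decide +kernel) hB (fun x hx hle => by
      rw [hev, Int.natAbs_natCast]
      have h16 : x ≤ 16 := le_sixteen hpos (hle.trans (le_of_eq (by norm_num [show chevF4.rank = 4 from rfl])))
      refine ⟨fun h => by have := Nat.le_of_dvd (Nat.pos_of_ne_zero hx) h; omega, ?_,
        Or.inr (hmod 4 (by simp))⟩
      have hg0 : x.gcd (q ^ 4 + 1) ≠ 0 := fun h => hx (Nat.gcd_eq_zero_iff.mp h).1
      have hg := Nat.eq_prime_pow_of_unique_prime_dvd (n := x.gcd (q ^ 4 + 1)) (p := 2) hg0 fun {d} hd hdd =>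
        hsmall d hd ((Nat.le_of_dvd (Nat.pos_of_ne_zero hx) (hdd.trans (Nat.gcd_dvd_left _ _))).trans h16)
          (hdd.trans (Nat.gcd_dvd_right _ _))
      rw [hg]
      refine (pow_dvd_pow 2 (?_ : _ ≤ 1)).trans (dvd_of_eq (pow_one 2))
      by_contra hl
      exact hmod 4 (by simp) ((show (2 : ℕ) ^ 2 ∣ x.gcd (q ^ 4 + 1) from
        hg ▸ pow_dvd_pow 2 (show 2 ≤ (x.gcd (q ^ 4 + 1)).primeFactorsList.length by omega)).trans (Nat.gcd_dvd_right _ _)))
  rwa [hev, Int.natAbs_natCast] at h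

theorem selfCentralizingE8 :
    ∃ H : Subgroup ↥(chevE8.group F), IsCyclic ↥H ∧
      Nat.card ↥H = Fintype.card F ^ 8 + Fintype.card F ^ 7 - Fintype.card F ^ 5 - Fintype.card F ^ 4 -
        Fintype.card F ^ 3 + Fintype.card F + 1 ∧
      Subgroup.centralizer (H : Set ↥(chevE8.group F)) = H := by
  set q := Fintype.card F with hq'
  have hq : 2 ≤ q := Fintype.one_lt_card
  set m := q ^ 8 + q ^ 7 - q ^ 5 - q ^ 4 - q ^ 3 + q + 1 with hm
  have hev : ((cyclotomic 30 ℤ).eval (q : ℤ)) = (m : ℤ) := by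
    have h1 : q ^ 5 ≤ q ^ 7 := Nat.pow_le_pow_right (by omega) (by norm_num)
    have h2 : q ^ 3 ≤ q ^ 4 := Nat.pow_le_pow_right (by omega) (by norm_num)
    have h3 : 2 * q ^ 4 ≤ q ^ 8 := by
      rw [show q ^ 8 = q ^ 4 * q ^ 4 by ring]
      exact Nat.mul_le_mul_right _ (hq.trans (Nat.le_self_pow (by norm_num) q))
    rw [cyclotomic_thirty, hm]
    simp only [eval_add, eval_sub, eval_pow, eval_X, eval_one, Nat.cast_add, Nat.cast_one]
    rw [Nat.cast_sub (by omega), Nat.cast_sub (by omega), Nat.cast_sub (by omega)]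
    push_cast
    ring
  have hmod : ∀ p ∈ [2, 3, 5, 7, 11, 13], ¬ p ∣ m := by
    intro p hp hd
    have h : ((((cyclotomic 30 ℤ).eval (q : ℤ)) : ℤ) : ZMod p) = 0 := by
      rw [hev, Int.cast_natCast, ZMod.natCast_eq_zero_iff]; exact hd
    rw [cyclotomic_thirty] at h
    simp only [eval_add, eval_sub, eval_pow, eval_X, eval_one, Int.cast_add, Int.cast_sub, Int.cast_pow,
      Int.cast_natCast, Int.cast_one] at h
    simp only [List.mem_cons, List.not_mem_nil, or_false] at hp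
    revert h
    generalize (q : ZMod p) = a
    revert a
    rcases hp with rfl | rfl | rfl | rfl | rfl | rfl <;> decide
  have hsmall : ∀ p : ℕ, p.Prime → p ≤ 16 → ¬ p ∣ m := by
    intro p hp hle
    refine hmod p ?_
    interval_cases p <;> revert hp <;> norm_num
  obtain ⟨r, hrp, hrm⟩ := Nat.exists_prime_and_dvd (show m ≠ 1 by omega)
  haveI : Fact r.Prime := ⟨hrp⟩
  have hr16 : 16 < r := by
    by_contra h
    exact hsmall r hrp (by omega) hrm
  have hrW : ¬ r ∣ [2, 8, 12, 14, 18, 20, 24, 30].prod := fun h => by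
    rw [show [2, 8, 12, 14, 18, 20, 24, 30].prod = 2 ^ 14 * 3 ^ 5 * 5 ^ 2 * 7 by norm_num] at h
    rcases hrp.dvd_mul.mp h with h | h
    · rcases hrp.dvd_mul.mp h with h | h
      · rcases hrp.dvd_mul.mp h with h | h <;> have := Nat.le_of_dvd (by norm_num) (hrp.dvd_of_dvd_pow h) <;> omega
      · have := Nat.le_of_dvd (by norm_num) (hrp.dvd_of_dvd_pow h); omega
    · have := Nat.le_of_dvd (by norm_num) h; omega
  have hd : orderOf (q : ZMod r) = 30 := orderOf_eq_of_dvd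
    (fun h => by
      rcases hrp.dvd_mul.mp (show r ∣ 2 * 15 from h) with h | h <;> have := Nat.le_of_dvd (by norm_num) h <;> omega)
    (by rw [hev]; exact Int.natCast_dvd_natCast.mpr hrm)
  have hrq : ¬ r ∣ q := fun h => by
    have h0 : (q : ZMod r) = 0 := (ZMod.natCast_eq_zero_iff _ _).mpr h
    rw [h0, orderOf_zero] at hd
    exact absurd hd (by norm_num)
  let δ : Fin chevE8.rank → ℤ := fun _ => 1
  let M₀ : Matrix (Fin chevE8.rank) (Fin chevE8.rank) ℤ :=
    fun i j => ([[2, 0, -1, 0, 0, 0, 0, 0], [0, 2, 0, -1, 0, 0, 0, 0], [0, 0, 3, -2, 0, 0, 0, 0],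
      [0, 0, 0, 5, -6, 0, 0, 0], [0, 0, 0, 0, 4, -5, 0, 0], [0, 0, 0, 0, 0, 3, -4, 0],
      [0, 0, 0, 0, 0, 0, 2, -3], [0, 0, 0, 0, 0, 0, 0, 1]].getD i []).getD j 0
  let δ₀ : Fin chevE8.rank → ℤ := fun i => [30, 30, 10, 2, 3, 5, 10, 30].getD i 0
  have hB : (60 : ℤ) • (Matrix.of fun i j : Fin chevE8.rank => δ i * chevE8.cartan i (chevE8.simple j)) =
      M₀.transpose * Matrix.diagonal δ₀ * M₀ := by decide +kernel
  have hpos := one_le_det (by norm_num) δ₀ hB (by decide +kernel) (by decide +kernel)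
    (by decide +kernel)
  have h := exists_self_centralizing (D := chevE8) (degs := [2, 8, 12, 14, 18, 20, 24, 30]) (by simp) coxE8
    (by decide +kernel) rfl (by simp) hrq hrW dataE8 (fun K _ _ => dataE8) ((one_mul _).symm.trans card_diagonalE8)
    (fun K _ _ => (one_mul _).symm.trans card_diagonalE8) hd
    (show Nat.totient 30 = 8 by decide) ⟨30, by simp, dvd_rfl⟩ δ (by decide +kernel) (c := 2) (by decide +kernel)
    (k₀ := 60) (by norm_num) M₀ δ₀ (by decide +kernel) hB (fun x hx hle => by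
      rw [hev, Int.natAbs_natCast]
      have h16 : x ≤ 16 := le_sixteen hpos (hle.trans (le_of_eq (by norm_num [show chevE8.rank = 8 from rfl])))
      have hg : x.gcd m = 1 := by
        by_contra hne
        obtain ⟨p, hp, hpd⟩ := Nat.exists_prime_and_dvd hne
        exact hsmall p hp ((Nat.le_of_dvd (Nat.pos_of_ne_zero hx) (hpd.trans (Nat.gcd_dvd_left _ _))).trans h16)
          (hpd.trans (Nat.gcd_dvd_right _ _))
      exact ⟨fun h => by have := Nat.le_of_dvd (Nat.pos_of_ne_zero hx) h; omega, by rw [hg]; exact one_dvd _,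
        Or.inl hg⟩)
  rwa [hev, Int.natAbs_natCast] at h

end

end Cfsg.Agent.Chars2.SingerTorus
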