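import Cfsg.Agent.Chars2.SingerTorus.E7Roots
import Cfsg.Agent.Chars2.SingerTorus.E6Main
import Cfsg.Agent.Chars2.SingerTorus.Exceptional

/-!
The lattice of the torus of `E₇` twisted by minus a Weyl word of type `E₆`.
-/

set_option autoImplicit false
set_option linter.unusedSectionVars false

universe u

namespace Cfsg.Agent.Chars2.SingerTorus

open Cfsg.Lie Cfsg.Agent.Chev Matrix Polynomial

/-- The nodes of type `D₄` in `E₆`. -/
def e6n4 (j : Fin 4) : Fin chevE6.rank := ⟨(j : ℕ) + 1, Nat.lt_trans (Nat.succ_lt_succ j.isLt) (by decide)⟩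

/-- The block of a word on the nodes of type `D₄`. -/
def d4Block (C6 : Cert.{u} chevE6) (L : List (Fin chevE6.rank)) : Matrix (Fin 4) (Fin 4) ℤ :=
  fun i k => actMat C6 (L.reverse.map Fin.val) (e6n4 i) (e6n4 k)

/-- The word twisted by the reflection in the seventh node. -/
def twistWord (L : List (Fin chevE6.rank)) : List (Fin chevE7.rank) :=
  (⟨6, by decide⟩ : Fin chevE7.rank) :: L.map i67

theorem rev_twistWord (L : List (Fin chevE6.rank)) :
    (twistWord L).reverse.map Fin.val = L.reverse.map Fin.val ++ [6] := by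
  rw [twistWord, List.reverse_cons, List.map_append, ← List.map_reverse, map_i67]
  rfl

theorem mem_e6D4_iff : ∀ k : Fin chevE6.rank, k ∈ e6D4 ↔ ∃ j : Fin 4, e6n4 j = k := by decide +kernel

theorem e6n4_inj : Function.Injective e6n4 := by decide +kernel

section

variable (C6 : Cert.{u} chevE6) (C7 : Cert.{u} chevE7) (L L₆ : List (Fin chevE6.rank))
  (hchar : (actMat C6 (L.reverse.map Fin.val)).charpoly = cyclotomic 12 ℤ * (X ^ 2 + X + 1))
  (hpow : actMat C6 (L.reverse.map Fin.val) ^ 6 = actMat C6 (L₆.map Fin.val))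
  (hL₆ : ∀ i ∈ L₆, i ∈ e6D4)
  (hblock : ∀ i ∈ e6D4, ∀ k, actMat C6 (L₆.map Fin.val) i k = if i = k then -1 else 0)
  {b₂ b₃ : ℕ} (hb : (b₂ = 92 ∧ b₃ = 125) ∨ (b₂ = 125 ∧ b₃ = 92))
  (w1 : act chevE7 (L.map Fin.val) 63 = b₂) (w2 : act chevE7 (L.map Fin.val) b₂ = b₃)
  (w3 : act chevE7 (L.map Fin.val) b₃ = 63)
include C6 C7 hchar hpow hL₆ hblock

theorem row_supp (i : Fin 4) : ∀ k ∉ e6D4, actMat C6 (L.reverse.map Fin.val) (e6n4 i) k = 0 := by
  intro k hk
  have hlt := C6.act_lt (valMap_lt C6 L.reverse) (C6.simple_lt (e6n4 i) (e6n4 i).isLt)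
  show C6.coef (act chevE6 (L.reverse.map Fin.val) (chevE6.simple (e6n4 i))) k = 0
  rw [coef_E6 C6 hlt]
  exact node_image C6 C7 L L₆ hchar hpow hL₆ hblock (e6n4 i) ((mem_e6D4_iff _).mpr ⟨i, rfl⟩) k hk

theorem sum_supp {R : Type*} [CommRing R] (c : Fin chevE6.rank → R) (hc : ∀ k ∉ e6D4, c k = 0) :
    ∑ k, c k = ∑ j : Fin 4, c (e6n4 j) := by
  classical
  rw [← Finset.sum_subset (Finset.subset_univ e6D4) fun k _ hk => hc k hk]
  refine (Finset.sum_bij (fun j _ => e6n4 j) (fun j _ => (mem_e6D4_iff _).mpr ⟨j, rfl⟩)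
    (fun a _ b _ h => e6n4_inj h) (fun k hk => ?_) fun j _ => rfl).symm
  obtain ⟨j, hj⟩ := (mem_e6D4_iff k).mp hk
  exact ⟨j, Finset.mem_univ _, hj⟩

theorem block_pow (k : ℕ) (i : Fin 4) :
    (∀ c ∉ e6D4, (actMat C6 (L.reverse.map Fin.val) ^ k) (e6n4 i) c = 0) ∧
      ∀ l : Fin 4, (actMat C6 (L.reverse.map Fin.val) ^ k) (e6n4 i) (e6n4 l) = (d4Block C6 L ^ k) i l := by
  classical
  induction k generalizing i with
  | zero =>
    refine ⟨fun c hc => ?_, fun l => ?_⟩
    · rw [pow_zero, Matrix.one_apply_ne fun e => hc ((mem_e6D4_iff c).mpr ⟨i, e⟩)]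
    · rw [pow_zero, pow_zero, Matrix.one_apply, Matrix.one_apply]
      simp only [e6n4_inj.eq_iff]
  | succ k ih =>
    have e : ∀ c, (actMat C6 (L.reverse.map Fin.val) ^ (k + 1)) (e6n4 i) c =
        ∑ j : Fin 4, d4Block C6 L i j * (actMat C6 (L.reverse.map Fin.val) ^ k) (e6n4 j) c := fun c => by
      rw [pow_succ', Matrix.mul_apply, sum_supp C6 C7 L L₆ hchar hpow hL₆ hblock _ fun m hm => by
        rw [row_supp C6 C7 L L₆ hchar hpow hL₆ hblock i m hm, zero_mul]]
      rfl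
    refine ⟨fun c hc => ?_, fun l => ?_⟩
    · rw [e]
      exact Finset.sum_eq_zero fun j _ => by rw [(ih j).1 c hc, mul_zero]
    · rw [e, pow_succ', Matrix.mul_apply]
      exact Finset.sum_congr rfl fun j _ => by rw [(ih j).2 l]

theorem d4Block_pow_six : d4Block C6 L ^ 6 = -1 := by
  ext i l
  rw [← (block_pow C6 C7 L L₆ hchar hpow hL₆ hblock 6 i).2 l, hpow, hblock _ ((mem_e6D4_iff _).mpr ⟨i, rfl⟩),
    Matrix.neg_apply, Matrix.one_apply]
  simp only [e6n4_inj.eq_iff]
  split_ifs <;> rfl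

theorem d4Block_charpoly {r q : ℕ} [Fact r.Prime] (hr : 12 < r) (hd : orderOf (q : ZMod r) = 12)
    {v : Fin chevE6.rank → ZMod r}
    (he : (actMat C6 (L.reverse.map Fin.val)).map (Int.castRingHom (ZMod r)) *ᵥ v = (q : ZMod r) • v)
    (hreg : ∀ s < chevE6.nroots, ∑ i, (coefVec C6 s i : ZMod r) * v i ≠ 0) :
    (d4Block C6 L).charpoly = cyclotomic 12 ℤ := by
  classical
  set u : Fin 4 → ZMod r := fun j => v (e6n4 j) with hu
  have hu0 : u ≠ 0 := by
    intro h
    refine hreg _ (C6.simple_lt (e6n4 0) (e6n4 0).isLt) ?_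
    rw [Finset.sum_eq_single (e6n4 0) (fun b _ hb => by
      rw [coefVec, C6.coef_simple (e6n4 0) (e6n4 0).isLt b b.isLt, if_neg fun e => hb (Fin.ext e), Int.cast_zero,
        zero_mul]) (by simp), show v (e6n4 0) = u 0 from rfl, h, Pi.zero_apply, mul_zero]
  have heu : (d4Block C6 L).map (Int.castRingHom (ZMod r)) *ᵥ u = (q : ZMod r) • u := by
    funext i
    have h := congrFun he (e6n4 i)
    simp only [Matrix.mulVec, dotProduct, Matrix.map_apply, eq_intCast, Pi.smul_apply, smul_eq_mul] at h ⊢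
    rw [sum_supp C6 C7 L L₆ hchar hpow hL₆ hblock _ fun k hk => by
      rw [row_supp C6 C7 L L₆ hchar hpow hL₆ hblock i k hk, Int.cast_zero, zero_mul]] at h
    exact h
  have h12 : d4Block C6 L ^ 12 = 1 := by
    rw [show 12 = 6 + 6 from rfl, pow_add, d4Block_pow_six C6 C7 L L₆ hchar hpow hL₆ hblock, neg_mul_neg, one_mul]
  have hdvd := cyclotomic_dvd_charpoly (d4Block C6 L) (fun h => by have := Nat.le_of_dvd (by norm_num) h; omega)
    h12 hd (by norm_num) hu0 heu
  refine eq_of_monic_of_dvd_of_natDegree_le (cyclotomic.monic 12 ℤ) (Matrix.charpoly_monic _) hdvd ?_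
  rw [Matrix.charpoly_natDegree_eq_dim, Fintype.card_fin, natDegree_cyclotomic]
  decide

omit hchar hpow hL₆ hblock in
theorem node_row (i : Fin 4) (k : Fin chevE7.rank) :
    actMat C7 ((twistWord L).reverse.map Fin.val) (e7n4 i) k =
      corootC chevE7 (e67 (act chevE6 (L.reverse.map Fin.val) (chevE6.simple (e6n4 i)))) k := by
  show C7.coef (act chevE7 ((twistWord L).reverse.map Fin.val) (chevE7.simple (e7n4 i))) k = _
  rw [rev_twistWord, act_append,
    show act chevE7 [6] (chevE7.simple (e7n4 i)) = chevE7.simple (e7n4 i) from e7Node_refl i,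
    show chevE7.simple (e7n4 i : ℕ) = e67 (chevE6.simple (e6n4 i)) from (e67_simple (e6n4 i)).symm,
    ← e67_act C6 L.reverse (C6.simple_lt (e6n4 i) (e6n4 i).isLt),
    coef_E7 C7 (e67_lt (C6.act_lt (valMap_lt C6 L.reverse) (C6.simple_lt (e6n4 i) (e6n4 i).isLt)))]

theorem node_row_supp (i : Fin 4) (k : Fin chevE7.rank) (hk : ∀ j : Fin 4, e7n4 j ≠ k) :
    actMat C7 ((twistWord L).reverse.map Fin.val) (e7n4 i) k = 0 := by
  rw [node_row C6 C7]
  have hlt := C6.act_lt (valMap_lt C6 L.reverse) (C6.simple_lt (e6n4 i) (e6n4 i).isLt)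
  by_cases h6 : (k : ℕ) < chevE6.rank
  · rw [(e67_coroot hlt).1 ⟨k, h6⟩]
    refine node_image C6 C7 L L₆ hchar hpow hL₆ hblock _ ((mem_e6D4_iff _).mpr ⟨i, rfl⟩) _ fun h => ?_
    obtain ⟨j, hj⟩ := (mem_e6D4_iff _).mp h
    exact hk j (Fin.ext (show (j : ℕ) + 1 = k from congrArg Fin.val hj))
  · have h7 := k.isLt
    have e7 : chevE7.rank = 7 := rfl
    have e6 : chevE6.rank = 6 := rfl
    rw [show (k : ℕ) = 6 by omega]
    exact (e67_coroot hlt).2

theorem node_row_block (i j : Fin 4) :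
    actMat C7 ((twistWord L).reverse.map Fin.val) (e7n4 i) (e7n4 j) = d4Block C6 L i j := by
  have hlt := C6.act_lt (valMap_lt C6 L.reverse) (C6.simple_lt (e6n4 i) (e6n4 i).isLt)
  rw [node_row C6 C7]
  show corootC chevE7 _ (e6n4 j) = C6.coef _ (e6n4 j)
  rw [(e67_coroot hlt).1 (e6n4 j), coef_E6 C6 hlt]

include hb w1 w2 w3

omit hchar hpow hL₆ hblock in
theorem rho_inv : act chevE7 ((twistWord L).reverse.map Fin.val) b₂ = 63 ∧
    act chevE7 ((twistWord L).reverse.map Fin.val) b₃ = b₂ ∧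
      act chevE7 ((twistWord L).reverse.map Fin.val) 63 = chevE7.neg b₃ := by
  have m2 : b₂ ∈ [92, 125] := by rcases hb with ⟨rfl, -⟩ | ⟨rfl, -⟩ <;> simp
  have m3 : b₃ ∈ [92, 125] := by rcases hb with ⟨-, rfl⟩ | ⟨-, rfl⟩ <;> simp
  have hl : ∀ s, s < chevE7.nroots →
      act chevE7 (L.reverse.map Fin.val) (act chevE7 (L.map Fin.val) s) = s := fun s hs => by
    rw [List.map_reverse, act_reverse_left C7 (lt_rank_E7 C6 C7 L) hs]
  have hlt : ∀ s ∈ [92, 125], s < chevE7.nroots := by decide +kernel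
  refine ⟨?_, ?_, ?_⟩
  · rw [rev_twistWord, act_append, show act chevE7 [6] b₂ = b₂ from (e7Beta_refl b₂ m2).1, ← w1]
    exact hl _ (by decide +kernel)
  · rw [rev_twistWord, act_append, show act chevE7 [6] b₃ = b₃ from (e7Beta_refl b₃ m3).1, ← w2]
    exact hl _ (hlt _ m2)
  · rw [rev_twistWord, act_append, show act chevE7 [6] 63 = chevE7.neg 63 from by decide +kernel,
      act_neg_root C7 (lt_rank_E7 C6 C7 L.reverse) (by decide +kernel)]
    congr 1
    conv_lhs => rw [← w3]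
    exact hl _ (hlt _ m3)

/-- The determinant of `q - A`. -/
theorem det_twist (q : ℤ) (hc4 : (d4Block C6 L).charpoly = cyclotomic 12 ℤ) :
    (Matrix.scalar (Fin chevE7.rank) q - actMat C7 ((twistWord L).reverse.map Fin.val)).det =
      (cyclotomic 12 ℤ).eval q * (q ^ 3 + 1) := by
  classical
  set A := actMat C7 ((twistWord L).reverse.map Fin.val) with hA
  let bs : Fin 3 → ℕ := fun i => [63, b₂, b₃].getD i 0
  let e : Fin 4 ⊕ Fin 3 ≃ Fin chevE7.rank := finSumFinEquiv
  let row : Fin 4 ⊕ Fin 3 → ℕ := Sum.elim (fun i => chevE7.simple (e7n4 i)) bs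
  let P : Matrix (Fin 4 ⊕ Fin 3) (Fin 4 ⊕ Fin 3) ℤ := fun x y => corootC chevE7 (row x) (e y)
  let Cy : Matrix (Fin 3) (Fin 3) ℤ := fun i j => ([[0, 0, -1], [1, 0, 0], [0, 1, 0]].getD i []).getD j 0
  let Bl : Matrix (Fin 4 ⊕ Fin 3) (Fin 4 ⊕ Fin 3) ℤ := Matrix.fromBlocks (d4Block C6 L) 0 0 Cy
  have hrow : ∀ x, row x < chevE7.nroots := by
    rintro (i | i)
    · exact C7.simple_lt _ (e7n4 i).isLt
    · have : ∀ i : Fin 3, bs i < chevE7.nroots := by
        rcases hb with ⟨rfl, rfl⟩ | ⟨rfl, rfl⟩ <;> decide +kernel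
      exact this i
  have hPA : P * A.submatrix e e = Bl * P := by
    ext x y
    have hl : (P * A.submatrix e e) x y =
        corootC chevE7 (act chevE7 ((twistWord L).reverse.map Fin.val) (row x)) (e y) := by
      rw [← coef_E7 C7 (C7.act_lt (valMap_lt C7 _) (hrow x))]
      show _ = coefVec C7 _ (e y)
      rw [coefVec_act C7 (valMap_lt C7 _) (hrow x), coefVec_E7 C7 (hrow x)]
      rw [Matrix.mul_apply]
      show _ = ∑ k : Fin chevE7.rank, corootC chevE7 (row x) k * A k (e y)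
      rw [← Equiv.sum_comp e]
      rfl
    rw [hl, Matrix.mul_apply, Fintype.sum_sum_type]
    obtain ⟨r2, r3, r1⟩ := rho_inv C6 C7 L hb w1 w2 w3
    rcases x with i | i
    · simp only [Bl, Matrix.fromBlocks_apply₁₁, Matrix.fromBlocks_apply₁₂, Matrix.zero_apply, zero_mul,
        Finset.sum_const_zero, add_zero]
      show _ = ∑ j : Fin 4, d4Block C6 L i j * corootC chevE7 (chevE7.simple (e7n4 j)) (e y)
      have h1 : corootC chevE7 (act chevE7 ((twistWord L).reverse.map Fin.val) (chevE7.simple (e7n4 i))) (e y) =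
          A (e7n4 i) (e y) := (coef_E7 C7 (C7.act_lt (valMap_lt C7 _) (C7.simple_lt _ (e7n4 i).isLt)) _).symm
      rw [show row (Sum.inl i) = chevE7.simple (e7n4 i) from rfl, h1]
      have h2 : ∀ j, corootC chevE7 (chevE7.simple (e7n4 j)) (e y) = if e7n4 j = e y then 1 else 0 := fun j => by
        rw [← coef_E7 C7 (C7.simple_lt _ (e7n4 j).isLt), C7.coef_simple _ (e7n4 j).isLt _ (e y).isLt]
        simp [Fin.ext_iff, eq_comm]
      simp only [h2, mul_ite, mul_one, mul_zero]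
      have hinj : Function.Injective e7n4 := by decide +kernel
      by_cases h : ∃ j, e7n4 j = e y
      · obtain ⟨j, hj⟩ := h
        rw [Finset.sum_eq_single j (fun b _ hb => if_neg fun h => hb (hinj (h.trans hj.symm))) (by simp), if_pos hj,
          ← hj]
        exact node_row_block C6 C7 L L₆ hchar hpow hL₆ hblock i j
      · push Not at h
        rw [Finset.sum_eq_zero fun j _ => if_neg (h j)]
        exact node_row_supp C6 C7 L L₆ hchar hpow hL₆ hblock i _ h
    · simp only [Bl, Matrix.fromBlocks_apply₂₁, Matrix.fromBlocks_apply₂₂, Matrix.zero_apply, zero_mul,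
        Finset.sum_const_zero, zero_add, Fin.sum_univ_three]
      have hneg : corootC chevE7 (chevE7.neg b₃) (e y) = - corootC chevE7 b₃ (e y) :=
        C7.coroot_neg b₃ (hrow (Sum.inr 2)) (e y) (e y).isLt
      fin_cases i
      · show corootC chevE7 (act chevE7 _ 63) (e y) = _
        rw [r1, hneg]
        show _ = 0 * corootC chevE7 63 (e y) + 0 * corootC chevE7 b₂ (e y) + -1 * corootC chevE7 b₃ (e y)
        ring
      · show corootC chevE7 (act chevE7 _ b₂) (e y) = _
        rw [r2]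
        show _ = 1 * corootC chevE7 63 (e y) + 0 * corootC chevE7 b₂ (e y) + 0 * corootC chevE7 b₃ (e y)
        ring
      · show corootC chevE7 (act chevE7 _ b₃) (e y) = _
        rw [r3]
        show _ = 0 * corootC chevE7 63 (e y) + 1 * corootC chevE7 b₂ (e y) + 0 * corootC chevE7 b₃ (e y)
        ring
  have hP : P.det ≠ 0 := by
    let Q : Matrix (Fin 4 ⊕ Fin 3) (Fin 4 ⊕ Fin 3) ℤ := fun x =>
      Sum.elim (fun i => ∑ j : Fin 4, chevE7.cartan (e7n4 j) (chevE7.simple (e x)) * d4Two j i)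
        (fun i => pairInt chevE7 (bs i) (chevE7.simple (e x)))
    have hQ : Q * P = (2 : ℤ) • 1 := by
      rcases hb with ⟨rfl, rfl⟩ | ⟨rfl, rfl⟩ <;> decide +kernel
    intro h
    have h1 := congrArg Matrix.det hQ
    rw [Matrix.det_mul, h, mul_zero, Matrix.det_smul, Matrix.det_one, mul_one] at h1
    exact pow_ne_zero _ (by norm_num) h1.symm
  have h : P * (Matrix.scalar (Fin 4 ⊕ Fin 3) q - A.submatrix e e) = (Matrix.scalar (Fin 4 ⊕ Fin 3) q - Bl) * P := by
    rw [Matrix.mul_sub, Matrix.sub_mul, hPA, (Matrix.scalar_commute q (fun r => mul_comm _ r) P).eq]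
  have h' := congrArg Matrix.det h
  rw [Matrix.det_mul, Matrix.det_mul, mul_comm (Matrix.det (Matrix.scalar (Fin 4 ⊕ Fin 3) q - Bl))] at h'
  have h2 := mul_left_cancel₀ hP h'
  have e1 : Matrix.scalar (Fin 4 ⊕ Fin 3) q - A.submatrix e e =
      (Matrix.scalar (Fin chevE7.rank) q - A).submatrix e e := by
    ext x y
    simp only [Matrix.sub_apply, Matrix.submatrix_apply, Matrix.scalar_apply, Matrix.diagonal_apply,
      e.injective.eq_iff]
  rw [e1, Matrix.det_submatrix_equiv_self] at h2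
  rw [h2]
  have e2 : Matrix.scalar (Fin 4 ⊕ Fin 3) q - Bl = Matrix.fromBlocks (Matrix.scalar (Fin 4) q - d4Block C6 L) 0 0
      (Matrix.scalar (Fin 3) q - Cy) := by
    ext (x | x) (y | y) <;>
      simp only [Bl, Matrix.sub_apply, Matrix.scalar_apply, Matrix.diagonal_apply, Matrix.fromBlocks_apply₁₁,
        Matrix.fromBlocks_apply₁₂, Matrix.fromBlocks_apply₂₁, Matrix.fromBlocks_apply₂₂, Matrix.zero_apply,
        Sum.inl.injEq, Sum.inr.injEq, reduceCtorEq, if_false, sub_zero]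
  rw [e2, Matrix.det_fromBlocks_zero₂₁]
  refine congrArg₂ (· * ·) ((Matrix.eval_charpoly (d4Block C6 L) q).symm.trans (by rw [hc4])) ?_
  rw [Matrix.det_fin_three]
  simp only [Matrix.sub_apply, Matrix.scalar_apply, Matrix.diagonal_apply, Fin.ext_iff]
  simp [Cy]
  ring

end

end Cfsg.Agent.Chars2.SingerTorus
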