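import Cfsg.Agent.Chars2.SingerTorus.E6Twist
import Cfsg.Agent.Chars2.SingerTorus.E7Roots

/-!
An element of Steinberg's group of type `E₇` twisting Frobenius by minus a Weyl word of type `E₆`.
-/

set_option autoImplicit false
set_option linter.unusedSectionVars false

universe u v

namespace Cfsg.Agent.Chars2.SingerTorus

open Cfsg.Lie Cfsg.Agent.Chev Cfsg.Agent.Chars2.Homocyclic Cfsg.Agent.KnownA.Cover Matrix Polynomial
open scoped MatrixGroups

/-- An embedding of data gives a map of Steinberg's groups. -/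
theorem exists_stHom {A B : ChevalleyDatum} (CA : Cert.{u} A) (CB : Cert.{u} B) {e : Array ℕ}
    (he : embCheck A B e = true) (K : Type u) [Field K] :
    ∃ ψ : A.SteinbergGroup K →* B.SteinbergGroup K,
      (∀ r < A.nroots, ∀ t : K, ψ (A.stGen K r t) = B.stGen K (e.getD r 0) t) ∧
      ∀ i < A.rank, e.getD (A.simple i) 0 = B.simple i ∧ e.getD (A.neg (A.simple i)) 0 = B.neg (B.simple i) := by
  simp only [embCheck, Bool.and_eq_true, Bool.or_eq_true, List.all_eq_true, List.mem_range,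
    beq_iff_eq, bne_iff_ne, ne_eq, decide_eq_true_eq] at he
  obtain ⟨hroot, hsimple⟩ := he
  let f : Fin A.nroots × K → Fin B.nroots × K := fun p => (⟨e.getD (p.1 : ℕ) 0, (hroot p.1 p.1.isLt).1.1⟩, p.2)
  have hx : ∀ r < A.nroots, ∀ t : K, FreeGroup.map f (A.stX r t) = B.stX (e.getD r 0) t := by
    intro r hr t
    simp only [ChevalleyDatum.stX, dif_pos hr, dif_pos (hroot r hr).1.1, FreeGroup.map.of]; rfl
  have hw : ∀ L : List (ℕ × K), (∀ p ∈ L, p.1 < A.nroots) →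
      FreeGroup.map f (A.stWord L) = B.stWord (L.map fun p => (e.getD p.1 0, p.2)) := by
    intro L hL
    rw [ChevalleyDatum.stWord, map_list_prod, List.map_map, ChevalleyDatum.stWord, List.map_map]
    congr 1
    exact List.map_congr_left fun p hp => hx p.1 (hL p hp) p.2
  have hh : ∀ r < A.nroots, ∀ t : K, FreeGroup.map f (A.stH r t) = B.stH (e.getD r 0) t := by
    intro r hr t
    rw [ChevalleyDatum.stH, hw _ (by
      intro p hp
      simp only [ChevalleyDatum.hWord, ChevalleyDatum.nWord, List.mem_append, List.mem_cons,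
        List.not_mem_nil, or_false] at hp
      rcases hp with (rfl | rfl | rfl) | (rfl | rfl | rfl) <;>
        first | exact hr | exact CA.neg_lt r hr)]
    simp only [ChevalleyDatum.stH, ChevalleyDatum.hWord, ChevalleyDatum.nWord, List.map_append, List.map_cons,
      List.map_nil, (hroot r hr).1.2]
  have hrels : ∀ g ∈ A.steinbergRels K, FreeGroup.map f g ∈ B.steinbergRels K := by
    rintro g ((⟨r, t, v, hr, rfl⟩ | ⟨r, s, t, v, hr, hs, hne, hneg, rfl⟩) | ⟨r, t, v, hr, ht, hv, rfl⟩)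
    · exact Or.inl (Or.inl ⟨e.getD r 0, t, v, (hroot r hr).1.1, by simp only [map_mul, map_inv, hx r hr]⟩)
    · obtain ⟨⟨n1, n2⟩, hterms⟩ := ((hroot r hr).2 s hs).resolve_left (not_or.2 ⟨hne, hneg⟩)
      have hmap : (A.commWord K r s t v).map (fun p => (e.getD p.1 0, p.2)) =
          B.commWord K (e.getD r 0) (e.getD s 0) t v := by
        simp only [ChevalleyDatum.commWord]
        rw [← hterms, List.map_map, List.map_map]
        rfl
      refine Or.inl (Or.inr ⟨e.getD r 0, e.getD s 0, t, v, (hroot r hr).1.1, (hroot s hs).1.1, n1, n2, ?_⟩)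
      simp only [map_mul, map_inv, hx r hr, hx s hs]
      rw [hw _ (fun p hp => by
        obtain ⟨c, hc, rfl⟩ := List.mem_map.1 hp
        exact CA.commTerms_lt hr hs c hc), hmap]
    · exact Or.inr ⟨e.getD r 0, t, v, (hroot r hr).1.1, ht, hv, by simp only [map_mul, map_inv, hh r hr]⟩
  let g : Fin A.nroots × K → B.SteinbergGroup K := fun p => PresentedGroup.of (f p)
  have hg : ∀ x, FreeGroup.lift g x = PresentedGroup.mk (B.steinbergRels K) (FreeGroup.map f x) := fun x =>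
    DFunLike.congr_fun (show FreeGroup.lift g = (PresentedGroup.mk (B.steinbergRels K)).comp (FreeGroup.map f) from
      FreeGroup.ext_hom _ _ fun p => by simp [g, PresentedGroup.of]) x
  have hg1 : ∀ x ∈ A.steinbergRels K, FreeGroup.lift g x = 1 := fun x hx' => by
    rw [hg]; exact PresentedGroup.one_of_mem (hrels x hx')
  refine ⟨PresentedGroup.toGroup hg1, fun r hr t => ?_, fun i hi => ⟨hsimple i hi, ?_⟩⟩
  · have hext : (PresentedGroup.toGroup hg1).comp (PresentedGroup.mk (A.steinbergRels K)) = FreeGroup.lift g :=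
      FreeGroup.ext_hom _ _ fun p => by
        rw [FreeGroup.lift_apply_of]
        exact PresentedGroup.toGroup.of hg1
    have h := DFunLike.congr_fun hext (A.stX r t)
    rw [hg, hx r hr] at h
    exact h
  · rw [(hroot _ (CA.simple_lt i hi)).1.2, hsimple i hi]

theorem stMap_gen {D : ChevalleyDatum} {E : Type u} [Field E] {K : Type v} [Field K] (f : E →+* K) (r : ℕ) (t : E) :
    stMap D f (D.stGen E r t) = D.stGen K r (f t) := by
  rw [ChevalleyDatum.stGen, stMap_mk, freeMap_stX]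
  rfl

theorem stMap_wordW {D : ChevalleyDatum} {E : Type u} [Field E] {K : Type v} [Field K] (f : E →+* K)
    (M : List (Fin D.rank)) :
    stMap D f (toSt D E (wordW (K := E) M : D.SteinbergCover E)) =
      toSt D K (wordW (K := K) M : D.SteinbergCover K) := by
  induction M with
  | nil => simp [wordW]
  | cons a M ih =>
    have e1 : (wordW (K := E) (a :: M) : D.SteinbergCover E) =
        wEl D (a : ℕ) 1 * (wordW (K := E) M : D.SteinbergCover E) := by simp [wordW]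
    have e2 : (wordW (K := K) (a :: M) : D.SteinbergCover K) =
        wEl D (a : ℕ) 1 * (wordW (K := K) M : D.SteinbergCover K) := by simp [wordW]
    rw [e1, e2, map_mul, map_mul, map_mul, ih]
    simp only [wEl, map_mul, toSt_gen, stMap_gen, map_neg, map_inv₀, map_one]

/-- The parameter of a root element is determined. -/
theorem stGen_inj {D : ChevalleyDatum} {K : Type u} [Field K] (C : Cert.{u} D) {r : ℕ} (hr : r < D.nroots) {a b : K}
    (ha : a ≠ 0) (h : D.stGen K r a = D.stGen K r b) : b = a := by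
  have h1 := congrArg (fun g => (thetaSt C g : GL D.Idx K)) h
  simp only [thetaSt_gen] at h1
  exact (xu_eq C hr hr ha h1).2

/-- Conjugation of root elements by a word times a torus element. -/
theorem conj_gen {D : ChevalleyDatum} {K : Type u} [Field K] (C : Cert.{u} D) (hc : cornerCheck D = true)
    (L : List (Fin D.rank)) (cc : Fin D.rank → Kˣ) {s : ℕ} (hs : s < D.nroots) :
    ∃ c : K, c ≠ 0 ∧
      (∀ v, toSt D K (wordW (K := K) L : D.SteinbergCover K) * torusHom C hc cc * D.stGen K s v *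
          (toSt D K (wordW (K := K) L : D.SteinbergCover K) * torusHom C hc cc)⁻¹ =
        D.stGen K (act D (L.map Fin.val) s) (c * v)) ∧
      ∀ v, toSt D K (wordW (K := K) L : D.SteinbergCover K) * torusHom C hc cc * D.stGen K (D.neg s) v *
          (toSt D K (wordW (K := K) L : D.SteinbergCover K) * torusHom C hc cc)⁻¹ =
        D.stGen K (D.neg (act D (L.map Fin.val) s)) (c⁻¹ * v) := by
  obtain ⟨e, he, e1, e2⟩ := wordW_conj (K := K) C hc L hs
  set χ : K := ∏ k : Fin D.rank, ((cc k : K) ^ D.cartan k s) with hχ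
  have hχn : ∏ k : Fin D.rank, ((cc k : K) ^ D.cartan k (D.neg s)) = χ⁻¹ := by
    rw [hχ, ← Finset.prod_inv_distrib]
    exact Finset.prod_congr rfl fun k _ => by rw [C.cartan_neg k.isLt hs, _root_.zpow_neg]
  refine ⟨e * χ, mul_ne_zero he (Finset.prod_ne_zero_iff.mpr fun k _ => zpow_ne_zero _ (cc k).ne_zero),
    fun v => ?_, fun v => ?_⟩
  · rw [mul_assoc e χ v, ← toSt_gen (r := act D (L.map Fin.val) s), ← e1, map_mul, map_mul, map_inv, toSt_gen,
      ← torusHom_conj C hc cc hs, _root_.mul_inv_rev]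
    simp only [mul_assoc]
  · rw [_root_.mul_inv_rev e χ, mul_comm χ⁻¹ e⁻¹, mul_assoc e⁻¹ χ⁻¹ v,
      ← toSt_gen (r := D.neg (act D (L.map Fin.val) s)), ← e2, map_mul, map_mul, map_inv, toSt_gen, ← hχn,
      ← torusHom_conj C hc cc (C.neg_lt _ hs), _root_.mul_inv_rev]
    simp only [mul_assoc]

/-- The rank one identity behind the twist. -/
theorem twist_rank_one {G K : Type*} [Group G] [Field K] (f g : K → G)
    (hf : ∀ a b, f a * f b = f (a + b)) (hg : ∀ a b, g a * g b = g (a + b)) (z S : K) :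
    f z * g (S - z⁻¹) = f z * g (-z⁻¹) * f z * (f (-z) * g S) := by
  have h0 : f 0 = 1 := by
    have := hf 0 0
    rw [add_zero] at this
    exact mul_eq_left.mp this
  rw [mul_assoc (f z * g (-z⁻¹)), ← mul_assoc (f z) (f (-z)), hf, add_neg_cancel, h0, one_mul, mul_assoc, hg,
    neg_add_eq_sub]

/-- Elements of a larger field needed for the twist. -/
theorem exists_lang_field {F : Type u} [Field F] [Fintype F] {K : Type} [Field K] [Fintype K] (φ : K →+* K)
    (ι : F →+* K) (hφ : ∀ t, φ t = t ^ Fintype.card F) {m : ℕ} (hm : 12 ∣ m)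
    (hK : Fintype.card K = Fintype.card F ^ m) (D : K) (hD : D ≠ 0) :
    ∃ (K₂ : Type) (_ : Field K₂) (_ : Fintype K₂) (j : K →+* K₂) (φ₂ : K₂ →+* K₂),
      (∀ t, φ₂ t = t ^ Fintype.card F) ∧ (∀ t, φ₂ (j t) = j (φ t)) ∧
      (∃ m₂, 12 ∣ m₂ ∧ Fintype.card K₂ = Fintype.card F ^ m₂) ∧
      ∃ t u : K₂, t ≠ 0 ∧ φ₂ (φ₂ (φ₂ t)) = - j D * t ∧ φ₂ (φ₂ (φ₂ u)) + u = -1 := by
  classical
  set q := Fintype.card F with hqdef
  have hq : 2 ≤ q := Fintype.one_lt_card
  obtain ⟨p, hp⟩ := CharP.exists F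
  haveI := hp
  obtain ⟨k, hpr, hpk⟩ := FiniteField.card F p
  haveI : Fact p.Prime := ⟨hpr⟩
  haveI : CharP K p := charP_of_injective_ringHom ι.injective p
  set Q := q ^ 3 with hQ
  have hQ2 : 8 ≤ Q := le_trans (by norm_num) (Nat.pow_le_pow_left hq 3)
  haveI : NeZero (Q - 1) := ⟨by omega⟩
  let K₂ := FiniteField.Extension K p (Q - 1)
  letI : Fintype K₂ := Fintype.ofFinite _
  let j : K →+* K₂ := algebraMap _ _
  haveI : CharP K₂ p := charP_of_injective_ringHom j.injective p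
  let φ₂ : K₂ →+* K₂ := iterateFrobenius K₂ p k
  have hφ₂ : ∀ t, φ₂ t = t ^ q := fun t => by
    show iterateFrobenius K₂ p k t = _
    rw [iterateFrobenius_def, hqdef, hpk]
  have h3 : ∀ t, φ₂ (φ₂ (φ₂ t)) = t ^ Q := fun t => by
    rw [hφ₂, hφ₂, hφ₂, ← pow_mul, ← pow_mul]; show _ = t ^ (q ^ 3); congr 1; ring
  have hK₂ : Fintype.card K₂ = Fintype.card K ^ (Q - 1) := by
    rw [← Nat.card_eq_fintype_card, FiniteField.natCard_extension, Nat.card_eq_fintype_card]
  set n := Fintype.card K - 1 with hn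
  set n₂ := Fintype.card K₂ - 1 with hn₂
  have hn0 : 0 < n := by have := Fintype.one_lt_card (α := K); omega
  have hn20 : 0 < n₂ := by have := Fintype.one_lt_card (α := K₂); omega
  have hQn : ∀ d, d ∣ m → q ^ d - 1 ∣ n := by
    rintro d ⟨e, rfl⟩
    rw [hn, hK, pow_mul]
    exact Nat.sub_one_dvd_pow_sub_one _ e
  obtain ⟨S, hS, hSQ⟩ : ∃ S, n₂ = n * S ∧ Q - 1 ∣ S := by
    refine ⟨∑ i ∈ Finset.range (Q - 1), Fintype.card K ^ i, ?_, ?_⟩
    · have h := geom_sum_mul_add n (Q - 1)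
      rw [show n + 1 = Fintype.card K by omega] at h
      rw [hn₂, hK₂, ← h, Nat.add_sub_cancel, mul_comm]
    · have h1 : Q - 1 ∣ n := hQn 3 ((show 3 ∣ 12 by norm_num).trans hm)
      refine (ZMod.natCast_eq_zero_iff _ (Q - 1)).mp ?_
      have hc : (Fintype.card K : ZMod (Q - 1)) = 1 := by
        rw [show Fintype.card K = n + 1 by omega, Nat.cast_add, (ZMod.natCast_eq_zero_iff _ _).mpr h1, zero_add,
          Nat.cast_one]
      simp [hc, Finset.sum_const]
  obtain ⟨ω, hω⟩ := IsCyclic.exists_ofOrder_eq_natCard (α := K₂ˣ)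
  rw [Nat.card_eq_fintype_card, Fintype.card_units] at hω
  have hgen : ∀ x : K₂ˣ, ∃ a : ℕ, ω ^ a = x := by
    intro x
    have hx : x ∈ Submonoid.powers ω := by
      rw [mem_powers_iff_mem_zpowers, Subgroup.eq_top_of_card_eq (Subgroup.zpowers ω) (by
        rw [Nat.card_zpowers, hω, Nat.card_eq_fintype_card, Fintype.card_units])]
      trivial
    exact hx
  -- the multiplicative equation
  set e : K₂ˣ := Units.mk0 (- j D) (neg_ne_zero.mpr ((map_ne_zero j).mpr hD)) with he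
  obtain ⟨a, ha⟩ := hgen e
  have hen : e ^ n = 1 := Units.ext (by
    show (- j D) ^ n = 1
    rw [← map_neg, ← map_pow, hn, FiniteField.pow_card_sub_one_eq_one _ (neg_ne_zero.mpr hD), map_one])
  rw [← ha, ← pow_mul, ← orderOf_dvd_iff_pow_eq_one, hω] at hen
  have hSa : S ∣ a := by
    rw [← hn₂, hS, mul_comm n S] at hen
    exact (mul_dvd_mul_iff_right hn0.ne').mp hen
  obtain ⟨b, hb⟩ := hSQ.trans hSa
  have ht : ((ω ^ b : K₂ˣ) : K₂) ^ Q = - j D * ((ω ^ b : K₂ˣ) : K₂) := by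
    have h1 := pow_succ ((ω ^ b : K₂ˣ) : K₂) (Q - 1)
    rw [Nat.sub_add_cancel (show 1 ≤ Q by omega)] at h1
    rw [h1, ← Units.val_pow_eq_pow_val, ← pow_mul, mul_comm b, ← hb, ha]
    rfl
  -- the additive equation
  obtain ⟨N, hN⟩ : Q * Q - 1 ∣ n₂ := by
    rw [hS, hQ, ← pow_add]
    exact (hQn 6 ((show 6 ∣ 12 by norm_num).trans hm)).mul_right _
  set w : K₂ := ((ω ^ N : K₂ˣ) : K₂) with hw
  have hwo : orderOf (ω ^ N) = Q * Q - 1 := by
    have hN0 : N ≠ 0 := by rintro rfl; rw [mul_zero] at hN; omega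
    rw [orderOf_pow' ω hN0, hω, ← hn₂, Nat.gcd_eq_right (hN ▸ Dvd.intro_left _ rfl), hN,
      Nat.mul_div_cancel _ (Nat.pos_of_ne_zero hN0)]
  have hQQ : 8 * Q ≤ Q * Q := Nat.mul_le_mul_right Q hQ2
  have hwQQ : w ^ (Q * Q) = w := by
    rw [show Q * Q = (Q * Q - 1) + 1 by omega, pow_succ, hw, ← Units.val_pow_eq_pow_val, ← hwo,
      pow_orderOf_eq_one, Units.val_one, one_mul]
  have hw0 : w ^ Q + w ≠ 0 := by
    intro h
    have h1 : w ^ (Q - 1) = -1 := by
      have h2 : w * (w ^ (Q - 1) + 1) = 0 := by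
        rw [mul_add, mul_one, ← pow_succ', show Q - 1 + 1 = Q by omega, h]
      exact eq_neg_of_add_eq_zero_left ((mul_eq_zero.mp h2).resolve_left (Units.ne_zero _))
    have h2 : (ω ^ N) ^ (2 * (Q - 1)) = 1 := Units.ext (by
      rw [Units.val_pow_eq_pow_val, mul_comm, pow_mul, ← hw, h1, neg_one_sq]; rfl)
    have h3 := Nat.le_of_dvd (by omega) (orderOf_dvd_of_pow_eq_one h2)
    rw [hwo] at h3
    omega
  refine ⟨K₂, inferInstance, inferInstance, j, φ₂, hφ₂, fun t => by rw [hφ₂, hφ, map_pow],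
    ⟨m * (Q - 1), hm.mul_right _, by rw [hK₂, hK, ← pow_mul]⟩, ((ω ^ b : K₂ˣ) : K₂), -w / (w ^ Q + w),
    Units.ne_zero _, by rw [h3]; exact ht, ?_⟩
  have hfix : (w ^ Q + w) ^ Q = w ^ Q + w := by
    rw [← h3, map_add, map_add, map_add, h3, h3, ← pow_mul, hwQQ, add_comm]
  rw [h3, div_pow, hfix, ← h3 (-w), map_neg, map_neg, map_neg, h3, ← add_div, div_eq_iff hw0]
  ring

/-- Orthogonal roots of the three commute. -/
theorem beta_gen_comm {K : Type} [Field K] {b b' : ℕ} (hb : b ∈ e7Beta) (hb' : b' ∈ e7Beta) (hne : b ≠ b')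
    (t s t' s' : K) :
    Commute (chevE7.stGen K b t * chevE7.stGen K (chevE7.neg b) s)
      (chevE7.stGen K b' t' * chevE7.stGen K (chevE7.neg b') s') := by
  obtain ⟨h1, c1, c2, c3, c4, h2, h3⟩ := e7Beta_comm b hb b' hb' hne
  obtain ⟨hlt, -, -, -⟩ := e7Beta_facts b hb
  obtain ⟨hlt', -, -, -⟩ := e7Beta_facts b' hb'
  have C : Cert.{0} chevE7 := certE7
  have key : ∀ r r' : ℕ, r < chevE7.nroots → r' < chevE7.nroots → r' ≠ r → r' ≠ chevE7.neg r →
      chevE7.commTerms r r' = [] → ∀ a a' : K, Commute (chevE7.stGen K r a) (chevE7.stGen K r' a') := by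
    intro r r' hr hr' n1 n2 hc a a'
    have h := congrArg (toSt chevE7 K) (y_comm hr hr' n1 n2 a a')
    simp only [map_mul, toSt_gen] at h
    rw [show chevE7.commWord K r r' a a' = [] by simp [ChevalleyDatum.commWord, hc], wy, List.map_nil, List.prod_nil,
      map_one, mul_one] at h
    exact h.symm
  refine Commute.mul_left ?_ ?_ <;> refine Commute.mul_right ?_ ?_
  · exact key b b' hlt hlt' hne.symm h1 c1 t t'
  · exact key b (chevE7.neg b') hlt (C.neg_lt _ hlt') h3 h2 c4 t s'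
  · refine key (chevE7.neg b) b' (C.neg_lt _ hlt) hlt' h1 ?_ c3 s t'
    rw [C.neg_neg _ hlt]
    exact hne.symm
  · refine key (chevE7.neg b) (chevE7.neg b') (C.neg_lt _ hlt) (C.neg_lt _ hlt') h2 ?_ c2 s s'
    rw [C.neg_neg _ hlt]
    exact h3

set_option maxHeartbeats 1000000 in
/-- The twisting element. -/
theorem exists_twist_E7 {F : Type u} [Field F] [Fintype F] :
    ∃ (r : ℕ) (_ : Fact r.Prime), 12 < r ∧ orderOf (Fintype.card F : ZMod r) = 12 ∧
      ∃ (K : Type) (_ : Field K) (_ : Fintype K) (ι : F →+* K) (φ : K →+* K),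
        (∀ t, φ t = t ^ Fintype.card F) ∧ (∃ m, 12 ∣ m ∧ Fintype.card K = Fintype.card F ^ m) ∧
        ∃ (gt : chevE7.SteinbergGroup K) (L L₆ : List (Fin chevE6.rank)) (v : Fin chevE6.rank → ZMod r) (b₂ b₃ : ℕ),
          ((certE7 : Cert.{0} chevE7).nWordElt K (((⟨6, by decide⟩ : Fin chevE7.rank) :: L.map i67).map Fin.val))⁻¹ *
              (thetaSt certE7 (stMap chevE7 φ gt * gt⁻¹) : GL chevE7.Idx K) ∈ chevE7.diagonalSubgroup K ∧
          (actMat (certE6 : Cert.{0} chevE6) (L.reverse.map Fin.val)).charpoly =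
            cyclotomic 12 ℤ * (X ^ 2 + X + 1) ∧
          actMat (certE6 : Cert.{0} chevE6) (L.reverse.map Fin.val) ^ 6 =
            actMat (certE6 : Cert.{0} chevE6) (L₆.map Fin.val) ∧
          (∀ i ∈ L₆, i ∈ e6D4) ∧
          (∀ i ∈ e6D4, ∀ k, actMat (certE6 : Cert.{0} chevE6) (L₆.map Fin.val) i k = if i = k then -1 else 0) ∧
          v ≠ 0 ∧
          (actMat (certE6 : Cert.{0} chevE6) (L.reverse.map Fin.val)).map (Int.castRingHom (ZMod r)) *ᵥ v =
            (Fintype.card F : ZMod r) • v ∧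
          (∀ s < chevE6.nroots, ∑ i, (coefVec (certE6 : Cert.{0} chevE6) s i : ZMod r) * v i ≠ 0) ∧
          ((b₂ = 92 ∧ b₃ = 125) ∨ (b₂ = 125 ∧ b₃ = 92)) ∧
          act chevE7 (L.map Fin.val) 63 = b₂ ∧ act chevE7 (L.map Fin.val) b₂ = b₃ ∧
            act chevE7 (L.map Fin.val) b₃ = 63 := by
  classical
  obtain ⟨r, hrf, hr, hd, K, _, _, ι, φ, hφ, ⟨m, hm, hK⟩, g6, L, L₆, v, hg6, hchar, hpow, hL₆, hblock, hv, heig,
    hreg⟩ := exists_twist_E6 (F := F)
  let C6 : Cert.{0} chevE6 := certE6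
  let C7 : Cert.{0} chevE7 := certE7
  obtain ⟨b₂, b₃, hb, w1, w2, w3⟩ := beta_cycle C6 C7 L L₆ hchar hpow hL₆ hblock
  have m1 : (63 : ℕ) ∈ e7Beta := by simp [e7Beta]
  have m2 : b₂ ∈ e7Beta := by rcases hb with ⟨rfl, -⟩ | ⟨rfl, -⟩ <;> simp [e7Beta]
  have m3 : b₃ ∈ e7Beta := by rcases hb with ⟨-, rfl⟩ | ⟨-, rfl⟩ <;> simp [e7Beta]
  have n12 : (63 : ℕ) ≠ b₂ := by rcases hb with ⟨rfl, -⟩ | ⟨rfl, -⟩ <;> norm_num
  have n13 : (63 : ℕ) ≠ b₃ := by rcases hb with ⟨-, rfl⟩ | ⟨-, rfl⟩ <;> norm_num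
  have n23 : b₂ ≠ b₃ := by rcases hb with ⟨rfl, rfl⟩ | ⟨rfl, rfl⟩ <;> norm_num
  -- transport to `E₇`
  obtain ⟨ψ, hψgen, hψs⟩ := exists_stHom C6 C7 embE67 K
  set L7 := L.map i67 with hL7
  have hL7v : L7.map Fin.val = L.map Fin.val := map_i67 L
  have hψh : ∀ (i : Fin chevE6.rank) (t : K), ψ (toSt chevE6 K (wEl chevE6 i t)) = toSt chevE7 K (wEl chevE7 i t) := by
    intro i t
    simp only [wEl, map_mul, toSt_gen, hψgen _ (C6.simple_lt i i.isLt),
      hψgen _ (C6.neg_lt _ (C6.simple_lt i i.isLt)), (hψs i i.isLt).1, (hψs i i.isLt).2]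
  have hψW : ψ (toSt chevE6 K (wordW (K := K) L : chevE6.SteinbergCover K)) =
      toSt chevE7 K (wordW (K := K) L7 : chevE7.SteinbergCover K) := by
    rw [hL7]
    generalize L = M
    induction M with
    | nil => simp [wordW]
    | cons a M ih =>
      have e6 : (wordW (K := K) (a :: M) : chevE6.SteinbergCover K) =
          wEl chevE6 (a : ℕ) 1 * (wordW (K := K) M : chevE6.SteinbergCover K) := by simp [wordW]
      have e7 : (wordW (K := K) ((a :: M).map i67) : chevE7.SteinbergCover K) =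
          wEl chevE7 (a : ℕ) 1 * (wordW (K := K) (M.map i67) : chevE7.SteinbergCover K) := by simp [wordW, i67]
      rw [e6, e7, map_mul, map_mul, map_mul, ih, hψh]
  obtain ⟨c6, hc6⟩ := exists_torus_of_diag C6 cornerE6 coxE6
    (z := (toSt chevE6 K (wordW (K := K) L : chevE6.SteinbergCover K))⁻¹ * (stMap chevE6 φ g6 * g6⁻¹)) (by
      rw [map_mul (thetaSt C6), map_inv (thetaSt C6), Subgroup.coe_mul, Subgroup.coe_inv, theta_wordW C6 cornerE6]
      exact hg6)
  have hψT : ψ (torusHom C6 cornerE6 c6) ∈ torSt chevE7 K := by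
    have h : torusHom C6 cornerE6 c6 ∈ torSt chevE6 K := (range_torusHom (K := K) C6 cornerE6).le ⟨c6, rfl⟩
    generalize torusHom C6 cornerE6 c6 = x at h ⊢
    induction h using Subgroup.closure_induction with
    | mem x hx =>
      obtain ⟨i, t, hi, ht, rfl⟩ := hx
      refine Subgroup.subset_closure ⟨i, t, Nat.lt_of_lt_of_le hi (by decide), ht, ?_⟩
      rw [← toSt_hEl, ← toSt_hEl, hEl, hEl, map_mul, map_mul, map_mul]
      exact congrArg₂ (· * ·) (hψh ⟨i, hi⟩ t) (hψh ⟨i, hi⟩ (-1))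
    | one => rw [map_one]; exact one_mem _
    | mul x y _ _ hx hy => rw [map_mul]; exact mul_mem hx hy
    | inv x _ hx => rw [map_inv]; exact inv_mem hx
  rw [← range_torusHom C7 cornerE7] at hψT
  obtain ⟨c7, hc7⟩ := hψT
  have hψmap : ∀ x, stMap chevE7 φ (ψ x) = ψ (stMap chevE6 φ x) := fun x => by
    have e : (stMap chevE7 φ).comp ψ = ψ.comp (stMap chevE6 φ) := PresentedGroup.ext fun p => by
      have e1 : (PresentedGroup.of p : chevE6.SteinbergGroup K) = chevE6.stGen K p.1 p.2 := by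
        rw [ChevalleyDatum.stGen, ChevalleyDatum.stX, dif_pos p.1.isLt]; rfl
      simp only [MonoidHom.comp_apply, e1, stMap_gen, hψgen _ p.1.isLt]
    exact DFunLike.congr_fun e x
  set g7 := ψ g6 with hg7
  set dt := toSt chevE7 K (wordW (K := K) L7 : chevE7.SteinbergCover K) * torusHom C7 cornerE7 c7 with hdt
  have hσ7 : stMap chevE7 φ g7 = dt * g7 := by
    rw [hg7, hψmap, hdt, hc7, ← hψW, ← map_mul, hc6, mul_inv_cancel_left, ← map_mul, inv_mul_cancel_right]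
  -- conjugation of the three rank one subgroups
  obtain ⟨c₁, hc₁0, p1, -⟩ := conj_gen C7 cornerE7 L7 c7 (e7Beta_facts _ m1).1
  obtain ⟨c₂, hc₂0, p2, -⟩ := conj_gen C7 cornerE7 L7 c7 (e7Beta_facts _ m2).1
  obtain ⟨c₃, hc₃0, p3, -⟩ := conj_gen C7 cornerE7 L7 c7 (e7Beta_facts _ m3).1
  rw [hL7v, w1, ← hdt] at p1
  rw [hL7v, w2, ← hdt] at p2
  rw [hL7v, w3, ← hdt] at p3
  -- the larger field
  obtain ⟨K₂, _, _, j, φ₂, hφ₂, hjφ, hm₂, t, u, ht0, ht, hu⟩ := exists_lang_field φ ι hφ hm hK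
    (φ (φ c₂) * φ c₁ * c₃) (mul_ne_zero (mul_ne_zero ((map_ne_zero φ).mpr ((map_ne_zero φ).mpr hc₂0))
      ((map_ne_zero φ).mpr hc₁0)) hc₃0)
  let C72 : Cert.{0} chevE7 := certE7
  set dt' := stMap chevE7 j dt with hdt'
  set cc : Fin chevE7.rank → K₂ˣ := fun k => Units.map (j : K →* K₂) (c7 k) with hcc
  have hdd : dt' = toSt chevE7 K₂ (wordW (K := K₂) L7 : chevE7.SteinbergCover K₂) *
      torusHom C72 cornerE7 cc := by
    rw [hdt', hdt, map_mul, stMap_torusHom C7 C72 cornerE7]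
    congr 1
    exact stMap_wordW j L7
  have lift : ∀ (b b' : ℕ) (c : K), b < chevE7.nroots → c ≠ 0 → act chevE7 (L.map Fin.val) b = b' →
      (∀ v, dt * chevE7.stGen K b v * dt⁻¹ = chevE7.stGen K b' (c * v)) →
      ∀ a : K₂, dt' * chevE7.stGen K₂ b a * dt'⁻¹ = chevE7.stGen K₂ b' (j c * a) ∧
        dt' * chevE7.stGen K₂ (chevE7.neg b) a * dt'⁻¹ = chevE7.stGen K₂ (chevE7.neg b') ((j c)⁻¹ * a) := by
    intro b b' c hb hc hbb' h a
    obtain ⟨c', hc', h1, h2⟩ := conj_gen C72 cornerE7 L7 cc hb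
    rw [hL7v, hbb', ← hdd] at h1 h2
    have e1 := congrArg (stMap chevE7 j) (h 1)
    rw [map_mul, map_mul, map_inv, ← hdt', stMap_gen, stMap_gen, map_one, mul_one] at e1
    have hlt : b' < chevE7.nroots := hbb' ▸ C72.act_lt (lt_rank_E7 C6 C72 L) hb
    have e2 : c' = j c := stGen_inj C72 hlt ((map_ne_zero j).mpr hc) (e1.symm.trans ((h1 1).trans (by rw [mul_one])))
    rw [← e2]
    exact ⟨h1 a, h2 a⟩
  set σ := stMap chevE7 φ₂ with hσ
  have hσg : σ (stMap chevE7 j g7) = dt' * stMap chevE7 j g7 := by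
    rw [hσ, stMap_stMap, show φ₂.comp j = j.comp φ from RingHom.ext hjφ, ← stMap_stMap, hσ7, map_mul]
  -- the three rank one elements
  have hC1 : j c₁ ≠ 0 := (map_ne_zero j).mpr hc₁0
  have hC2 : j c₂ ≠ 0 := (map_ne_zero j).mpr hc₂0
  have hC3 : j c₃ ≠ 0 := (map_ne_zero j).mpr hc₃0
  set t₂ := φ₂ t / j c₂ with ht₂
  set t₁ := φ₂ t₂ / j c₁ with ht₁
  set s₃ := u / t with hs₃
  set s₂ := φ₂ s₃ * j c₂ with hs₂
  set s₁ := φ₂ s₂ * j c₁ with hs₁
  set h₁ := chevE7.stGen K₂ 63 t₁ * chevE7.stGen K₂ (chevE7.neg 63) s₁ with hh₁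
  set h₂ := chevE7.stGen K₂ b₂ t₂ * chevE7.stGen K₂ (chevE7.neg b₂) s₂ with hh₂
  set h₃ := chevE7.stGen K₂ b₃ t * chevE7.stGen K₂ (chevE7.neg b₃) s₃ with hh₃
  have hlt : ∀ b ∈ e7Beta, b < chevE7.nroots := fun b hb => (e7Beta_facts b hb).1
  have hP : φ₂ (φ₂ (j c₂)) * φ₂ (j c₁) = j (φ (φ c₂) * φ c₁) := by rw [hjφ, hjφ, hjφ, map_mul]
  have hP0 : j (φ (φ c₂) * φ c₁) ≠ 0 := (map_ne_zero j).mpr
    (mul_ne_zero ((map_ne_zero φ).mpr ((map_ne_zero φ).mpr hc₂0)) ((map_ne_zero φ).mpr hc₁0))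
  have hz : φ₂ t₁ = -(j c₃ * t) := by
    rw [ht₁, ht₂, map_div₀, map_div₀, map_div₀, ht, div_div, hP, map_mul, div_eq_iff hP0]
    ring
  set z := φ₂ t₁ with hzdef
  have hs : φ₂ s₁ = (j c₃)⁻¹ * s₃ - z⁻¹ := by
    have e : φ₂ s₁ = φ₂ (φ₂ (φ₂ u)) / φ₂ (φ₂ (φ₂ t)) * j (φ (φ c₂) * φ c₁) := by
      rw [← hP, hs₁, hs₂, hs₃, map_mul, map_mul, map_mul, map_div₀, map_div₀, map_div₀, mul_assoc]
    rw [e, ht, show φ₂ (φ₂ (φ₂ u)) = -1 - u from eq_sub_of_add_eq hu, hz, hs₃, map_mul]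
    field_simp
    ring
  set n := toSt chevE7 K₂ (wEl chevE7 6 z) with hn
  have h6 : chevE7.simple 6 = 63 := rfl
  have E1 : σ h₁ = n * (dt' * h₃ * dt'⁻¹) := by
    rw [hh₃, ← conj_mul, (lift b₃ 63 c₃ (hlt _ m3) hc₃0 w3 p3 _).1, (lift b₃ 63 c₃ (hlt _ m3) hc₃0 w3 p3 _).2,
      hh₁, map_mul, hσ, stMap_gen, stMap_gen, ← hzdef, hs]
    have h := twist_rank_one (chevE7.stGen K₂ 63) (chevE7.stGen K₂ (chevE7.neg 63))
      (fun a b => by rw [← toSt_gen, ← toSt_gen, ← map_mul, y_add, toSt_gen])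
      (fun a b => by rw [← toSt_gen, ← toSt_gen, ← map_mul, y_add, toSt_gen]) z ((j c₃)⁻¹ * s₃)
    rw [h, hn, wEl, map_mul, map_mul, toSt_gen, toSt_gen, h6, show -z = j c₃ * t by rw [hz, neg_neg]]
  have E2 : σ h₂ = dt' * h₁ * dt'⁻¹ := by
    rw [hh₁, ← conj_mul, (lift 63 b₂ c₁ (hlt _ m1) hc₁0 w1 p1 _).1, (lift 63 b₂ c₁ (hlt _ m1) hc₁0 w1 p1 _).2,
      hh₂, map_mul, hσ, stMap_gen, stMap_gen]
    refine congrArg₂ (· * ·) (congrArg _ ?_) (congrArg _ ?_)
    · rw [ht₁, mul_div_cancel₀ _ hC1]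
    · rw [hs₁, mul_comm (φ₂ s₂), inv_mul_cancel_left₀ hC1]
  have E3 : σ h₃ = dt' * h₂ * dt'⁻¹ := by
    rw [hh₂, ← conj_mul, (lift b₂ b₃ c₂ (hlt _ m2) hc₂0 w2 p2 _).1, (lift b₂ b₃ c₂ (hlt _ m2) hc₂0 w2 p2 _).2,
      hh₃, map_mul, hσ, stMap_gen, stMap_gen]
    refine congrArg₂ (· * ·) (congrArg _ ?_) (congrArg _ ?_)
    · rw [ht₂, mul_div_cancel₀ _ hC2]
    · rw [hs₂, mul_comm (φ₂ s₃), inv_mul_cancel_left₀ hC2]
  have hcomm : h₁ * h₂ * h₃ = h₃ * h₁ * h₂ := by
    have a : Commute h₁ h₃ := beta_gen_comm m1 m3 n13 _ _ _ _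
    have b : Commute h₂ h₃ := beta_gen_comm m2 m3 n23 _ _ _ _
    rw [(a.mul_left b).eq]; exact (mul_assoc _ _ _).symm
  set gt := h₁ * h₂ * h₃ * stMap chevE7 j g7 with hgt
  have hσgt : σ gt = n * dt' * gt := by
    rw [hgt, map_mul, map_mul, map_mul, E1, E2, E3, hσg, hcomm]
    group
  refine ⟨r, hrf, hr, hd, K₂, inferInstance, inferInstance, j.comp ι, φ₂, hφ₂, hm₂, gt, L, L₆, v, b₂, b₃, ?_,
    hchar, hpow, hL₆, hblock, hv, heig, hreg, hb, w1, w2, w3⟩
  rw [← hσ, hσgt, mul_inv_cancel_right, hn, hdd]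
  simp only [map_mul, Subgroup.coe_mul]
  rw [theta_wordW C72 cornerE7,
    show (thetaSt C72 (toSt chevE7 K₂ (wEl chevE7 6 z)) : GL chevE7.Idx K₂) = C72.nu (chevE7.simple 6) z by
      rw [← MonoidHom.comp_apply, thetaSt_comp, theta_wEl],
    C72.nu_simple_eq (show 6 < chevE7.rank by decide), List.map_cons, C72.nWordElt_cons]
  have hdz : C72.hu (chevE7.simple 6) z ∈ chevE7.diagonalSubgroup K₂ :=
    C72.hu_simple_mem_diagonal (C72.simple_lt 6 (by decide)) (by
      rw [hz, neg_ne_zero]; exact mul_ne_zero hC3 ht0)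
  set P := C72.nu (chevE7.simple 6) (1 : K₂) * C72.nWordElt K₂ (L7.map Fin.val) with hP'
  have hPm : P ∈ chevE7.monomialSubgroup K₂ :=
    mul_mem (C72.nu_mem_monomial (show 6 < chevE7.rank by decide)) (C72.nWordElt_mem (valMap_lt C72 L7))
  have := mul_mem (C72.monomial_conj_diagonal (inv_mem hPm) hdz) (theta_torus_mem C72 cornerE7 cc)
  rw [inv_inv, hP'] at this
  convert this using 1
  simp only [hP', C72]
  group

end Cfsg.Agent.Chars2.SingerTorus
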