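import Cfsg.Agent.Chars2.Homocyclic.Main
import Cfsg.Agent.Chars2.SingerTorus.Lattice
import Cfsg.Agent.Chars2.SingerTorus.Gram
import Cfsg.Agent.Chars2.SingerTorus.Torus

/-!
A cyclic self-centralising torus: the centraliser of an element of prime order `r`, where the order `d` of `q`
modulo `r` has `φ(d)` equal to the rank.
-/

set_option autoImplicit false
set_option linter.unusedSectionVars false

universe u v

namespace Cfsg.Agent.Chars2.SingerTorus

open Cfsg.Lie Cfsg.Agent.Chev Cfsg.Agent.Chars2.Homocyclic Matrix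
open scoped MatrixGroups Pointwise

section Fixed

variable {D : ChevalleyDatum} {E : Type u} [Field E] [Fintype E] {K : Type v} [Field K] [Fintype K]
variable (C₀ : Cert.{u} D) (C : Cert.{v} D) (ι : E →+* K) (φ : K →+* K)
  (hφ : ∀ t, φ t = t ^ Fintype.card E)
include C₀ C ι hφ

/-- With connected centre every fixed element is defined over the small field. -/
theorem mem_small_of_fixed' {M : CoxeterMatrix (Fin D.rank)} (hM : CoxOK D M)
    (hT : Nat.card (D.diagonalSubgroup E) = (Fintype.card E - 1) ^ D.rank)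
    {g : GL D.Idx K} (hg : g ∈ D.group K) (hfix : gmap D φ g = g) : g ∈ (D.group E).map (gmap D ι) := by
  classical
  set G₀ := (D.group E).map (gmap D ι) with hG₀
  obtain ⟨L, a, ha, h, hh, u, hu, eg⟩ := exists_canon C hM hg
  set n := C.nWordElt K (L.map Fin.val) with hn
  have hn0 : n ∈ G₀ := ⟨C₀.nWordElt E (L.map Fin.val),
    C₀.monomial_le_group (C₀.nWordElt_mem (C₀.fin_word_lt L)), gmap_nWordElt C₀ C ι _⟩
  have hnf : gmap D φ n = n := gmap_nWordElt C C φ _
  have e1 : gmap D φ a * gmap D φ h * n * gmap D φ u = a * h * n * u := by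
    have := congrArg (gmap D φ) eg
    rw [map_mul, map_mul, map_mul, hfix, hnf, eg] at this
    exact this.symm
  obtain ⟨fa, fh, fu⟩ := canon_unique C (map_pos_le φ ⟨a, ha, rfl⟩) ha (map_diagonal_le φ ⟨h, hh, rfl⟩) hh
    (map_span_le _ φ ⟨u, hu, rfl⟩) hu e1
  have hAB : (D.diagonalSubgroup E).map (gmap D ι) ≤
      D.diagonalSubgroup K ⊓ (gmap D φ).eqLocus (MonoidHom.id _) := le_inf (map_diagonal_le ι) (by
    rintro _ ⟨x, -, rfl⟩
    refine Units.ext (Matrix.ext fun i j => ?_)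
    show φ (ι ((x : Matrix D.Idx D.Idx E) i j)) = ι ((x : Matrix D.Idx D.Idx E) i j)
    rw [hφ, ← map_pow, FiniteField.pow_card])
  have hh0 : h ∈ G₀ := by
    have hmem : h ∈ D.diagonalSubgroup K ⊓ (gmap D φ).eqLocus (MonoidHom.id _) := ⟨hh, fh⟩
    rw [← Subgroup.eq_of_le_of_card_ge hAB (by
      rw [Subgroup.card_map_of_injective (gmap_injective ι), hT]
      exact Nat.le_of_dvd (pow_pos (by have := Fintype.one_lt_card (α := E); omega) _)
        (card_fixed_diag_dvd C₀ C ι φ hφ))] at hmem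
    exact Subgroup.map_mono C₀.diagonal_le_group hmem
  rw [eg]
  exact mul_mem (mul_mem (mul_mem (pos_mem_small C₀ C ι φ hφ ha fa) hh0) hn0)
    (pos_mem_small C₀ C ι φ hφ (C.span_mono (fun x hx => hx.1) hu) fu)

end Fixed

/-- The `r`-torsion of `ℤ / n`. -/
theorem exists_torsionHom {r n : ℕ} [Fact r.Prime] (hn : 0 < n) (hr : r ∣ n) :
    ∃ j : ZMod r →+ ZMod n, Function.Injective j ∧ ∀ a : ZMod n, r • a = 0 → ∃ z, j z = a := by
  obtain ⟨k, rfl⟩ := hr
  have hk : 0 < k := Nat.pos_of_mul_pos_left hn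
  let f : { g : ℤ →+ ZMod (r * k) // g r = 0 } := ⟨zmultiplesHom _ (k : ZMod (r * k)), by
    simp only [zmultiplesHom_apply, natCast_zsmul, nsmul_eq_mul, ← Nat.cast_mul, ZMod.natCast_self]⟩
  refine ⟨ZMod.lift r f, ?_, fun a ha => ?_⟩
  · rw [ZMod.lift_injective]
    intro m hm
    simp only [f, zmultiplesHom_apply, zsmul_eq_mul] at hm
    rw [show ((m : ZMod (r * k)) * (k : ZMod (r * k))) = ((m * (k : ℤ) : ℤ) : ZMod (r * k)) by push_cast; rfl,
      ZMod.intCast_zmod_eq_zero_iff_dvd, Nat.cast_mul] at hm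
    rw [ZMod.intCast_zmod_eq_zero_iff_dvd]
    exact (mul_dvd_mul_iff_right (Int.natCast_ne_zero.mpr hk.ne')).mp hm
  · haveI : NeZero (r * k) := ⟨hn.ne'⟩
    rw [← ZMod.natCast_zmod_val a, nsmul_eq_mul, ← Nat.cast_mul, ZMod.natCast_eq_zero_iff] at ha
    obtain ⟨b, hb⟩ := (mul_dvd_mul_iff_left (Fact.out : r.Prime).ne_zero).mp ha
    refine ⟨((b : ℤ) : ZMod r), ?_⟩
    rw [ZMod.lift_coe]
    simp only [f, zmultiplesHom_apply, natCast_zsmul, nsmul_eq_mul, ← Nat.cast_mul]
    rw [mul_comm b, ← hb, ZMod.natCast_zmod_val]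

theorem exists_not_dvd_cartan {D : ChevalleyDatum}
    (hreg : ∀ s : Fin D.nroots, ∃ i : Fin D.rank,
      D.cartan i s = 1 ∨ D.cartan i s = -1 ∨ D.cartan i s = 2 ∨ D.cartan i s = -2)
    {r : ℕ} (hr : r.Prime) (hr2 : r ≠ 2) : ∀ s < D.nroots, ∃ i < D.rank, ¬ (r : ℤ) ∣ D.cartan i s := by
  intro s hs
  obtain ⟨i, hi⟩ := hreg ⟨s, hs⟩
  refine ⟨i, i.isLt, fun hdv => ?_⟩
  have h3 : r ∣ (D.cartan i s).natAbs := Int.natCast_dvd.mp hdv
  have h4 := Nat.le_of_dvd (by rcases hi with h | h | h | h <;> simp_all) h3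
  have := hr.two_le
  rcases hi with h | h | h | h <;> simp_all
  all_goals omega

set_option maxHeartbeats 2000000 in
/-- The general statement. -/
theorem exists_self_centralizing {D : ChevalleyDatum} {degs : List ℕ}
    (hD : D ∈ [chevG2, chevB2, chevD4, chevF4, chevE6, chevE7, chevE8])
    {Mc : CoxeterMatrix (Fin D.rank)} (hM : CoxOK D Mc)
    (hreg : ∀ s : Fin D.nroots, ∃ i : Fin D.rank,
      D.cartan i s = 1 ∨ D.cartan i s = -1 ∨ D.cartan i s = 2 ∨ D.cartan i s = -2)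
    (hlen : degs.length = D.rank) (h2 : 2 ∈ degs)
    {F : Type u} [Field F] [Fintype F] {r : ℕ} [Fact r.Prime] (hrq : ¬ r ∣ Fintype.card F)
    (hrW : ¬ r ∣ degs.prod) (hF : OrderData D degs r F)
    (h0 : ∀ (K : Type) [Field K] [Fintype K], OrderData D degs r K)
    (hTF : Nat.card (D.diagonalSubgroup F) = (Fintype.card F - 1) ^ D.rank)
    (hTK : ∀ (K : Type) [Field K] [Fintype K],
      Nat.card (D.diagonalSubgroup K) = (Fintype.card K - 1) ^ D.rank)
    {d : ℕ} (hd : orderOf (Fintype.card F : ZMod r) = d) (hl : d.totient = D.rank) (hdd : ∃ i ∈ degs, d ∣ i)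
    (δ : Fin D.rank → ℤ) (hδ : ∀ i j : Fin D.rank, δ i * D.cartan i (D.simple j) = δ j * D.cartan j (D.simple i))
    {c : ℤ} (hc : ∀ i, 2 * δ i ≤ c) {k₀ : ℤ} (hk₀ : 0 < k₀) (M₀ : Matrix (Fin D.rank) (Fin D.rank) ℤ)
    (δ₀ : Fin D.rank → ℤ) (hδ₀ : ∀ i, 0 ≤ δ₀ i)
    (hB : k₀ • (Matrix.of fun i j : Fin D.rank => δ i * D.cartan i (D.simple j)) =
      M₀ᵀ * Matrix.diagonal δ₀ * M₀)
    (hbound : ∀ x : ℕ, x ≠ 0 →
      (x : ℤ) ^ 2 * (Matrix.of fun i j : Fin D.rank => δ i * D.cartan i (D.simple j)).det ≤ c ^ D.rank →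
      ¬ r ∣ x ∧ x.gcd ((Polynomial.cyclotomic d ℤ).eval (Fintype.card F : ℤ)).natAbs ∣ 2 ∧
        (x.gcd ((Polynomial.cyclotomic d ℤ).eval (Fintype.card F : ℤ)).natAbs = 1 ∨
          ¬ 4 ∣ ((Polynomial.cyclotomic d ℤ).eval (Fintype.card F : ℤ)).natAbs)) :
    ∃ H : Subgroup ↥(D.group F), IsCyclic ↥H ∧
      Nat.card ↥H = ((Polynomial.cyclotomic d ℤ).eval (Fintype.card F : ℤ)).natAbs ∧
      Subgroup.centralizer (H : Set ↥(D.group F)) = H := by
  classical
  have hr : r.Prime := Fact.out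
  set q := Fintype.card F with hqdef
  have hq : 2 ≤ q := Fintype.one_lt_card
  have hdeg : ∀ i ∈ degs, ¬ r ∣ i := fun i hi h => hrW (h.trans (List.dvd_prod hi))
  have hr2 : r ≠ 2 := fun h => hdeg 2 h2 (h ▸ dvd_rfl)
  have hd0 : 0 < d := hd ▸ orderOf_pos' hrq
  have hrank : 0 < D.rank := hl ▸ Nat.totient_pos.mpr hd0
  obtain ⟨C₀⟩ := nonempty_cert.{u} hD
  obtain ⟨C⟩ := nonempty_cert.{0} hD
  -- an element of order `r`
  have hrG : r ∣ Nat.card (D.group F) := by
    refine (dvd_iff_padicValNat_ne_zero Nat.card_pos.ne').mpr ?_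
    rw [val_group hF hq hrq hr2 one_ne_zero (by rw [pow_one]) hdeg (fun i => d ∣ i)
      (fun i _ => by rw [one_mul, hd]), padicValNat.one, add_zero]
    refine mul_ne_zero ?_ (mval_pos hq hrq)
    obtain ⟨i, hi, hdi⟩ := hdd
    exact (List.length_pos_of_mem (List.mem_filter.mpr ⟨hi, decide_eq_true hdi⟩)).ne'
  obtain ⟨x, hx⟩ := exists_prime_orderOf_dvd_card' r hrG
  -- the large field
  obtain ⟨p, hp⟩ := CharP.exists F
  haveI := hp
  obtain ⟨k, hpr, hpk⟩ := FiniteField.card F p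
  haveI : Fact p.Prime := ⟨hpr⟩
  have hN0 : degs.prod ≠ 0 := fun h => hrW (h ▸ dvd_zero r)
  haveI : NeZero degs.prod := ⟨hN0⟩
  let K := FiniteField.Extension F p degs.prod
  letI : Fintype K := Fintype.ofFinite _
  let ι : F →+* K := algebraMap _ _
  haveI : CharP K p := charP_of_injective_ringHom ι.injective p
  let φ : K →+* K := iterateFrobenius K p k
  have hφ : ∀ t, φ t = t ^ q := fun t => by
    show iterateFrobenius K p k t = _
    rw [iterateFrobenius_def, hqdef, hpk]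
  have hK : Fintype.card K = q ^ degs.prod := by
    rw [← Nat.card_eq_fintype_card, FiniteField.natCard_extension, Nat.card_eq_fintype_card]
  have hdN : d ∣ degs.prod := by
    obtain ⟨i, hi, hdi⟩ := hdd
    exact hdi.trans (List.dvd_prod hi)
  have hdvd : ∀ i, orderOf (q : ZMod r) ∣ degs.prod * i := fun i => hd ▸ Dvd.dvd.mul_right hdN i
  obtain ⟨eK, heK, hTK'⟩ := (h0 K).2
  have hvK : padicValNat r (Nat.card (D.group K)) = padicValNat r (Nat.card (D.diagonalSubgroup K)) := by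
    rw [val_group (h0 K) hq hrq hr2 hN0 hK hdeg (fun _ => True) (fun i _ => iff_true_intro (hdvd i)),
      val_eq_of_mul heK Nat.card_pos.ne' hTK', hK, padicValNat.pow,
      val_pow_sub_one hq hrq hr2 hN0 (by simpa using hdvd 1), ← hlen]
    simp
  have hKr : r ∣ Fintype.card K - 1 := by
    rw [hK]; exact (dvd_pow_sub_one_iff (by omega) _).mpr (by simpa using hdvd 1)
  have hKpos : 0 < Fintype.card K - 1 := by have := Fintype.one_lt_card (α := K); omega
  haveI : NeZero (Fintype.card K - 1) := ⟨hKpos.ne'⟩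
  have hreg' := exists_not_dvd_cartan hreg (Fact.out : r.Prime) hr2
  -- the element inside the torus
  let σ := gmap D φ
  set xK : GL D.Idx K := gmap D ι (x : GL D.Idx F) with hxK
  have hxKG : xK ∈ D.group K := map_group_le ι ⟨_, x.2, rfl⟩
  have hσι : ∀ z : GL D.Idx F, σ (gmap D ι z) = gmap D ι z := fun z => by
    refine Units.ext (Matrix.ext fun s t => ?_)
    show φ (ι ((z : Matrix D.Idx D.Idx F) s t)) = ι ((z : Matrix D.Idx D.Idx F) s t)
    rw [hφ, ← map_pow, hqdef, FiniteField.pow_card]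
  have hxo : orderOf (⟨xK, hxKG⟩ : ↥(D.group K)) = r := by
    rw [Subgroup.orderOf_mk, hxK, orderOf_injective _ (gmap_injective ι), Subgroup.orderOf_coe, hx]
  set TR := torusPart (F := K) C r with hTR
  have hTRK : TR ≤ D.group K := fun t ht => C.diagonal_le_group ((mem_torusPart C r).mp ht).1
  have hTRcard : Nat.card (TR.subgroupOf (D.group K)) = r ^ (Nat.card (D.group K)).factorization r := by
    rw [Nat.card_congr (Subgroup.subgroupOfEquivOfLe hTRK).toEquiv, card_torusPart, Nat.factorization_def _ hr,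
      hvK]
  let PK : Sylow r ↥(D.group K) := Sylow.ofCard (TR.subgroupOf (D.group K)) hTRcard
  have hXpg : IsPGroup r (Subgroup.zpowers (⟨xK, hxKG⟩ : ↥(D.group K))) :=
    IsPGroup.of_card (n := 1) (by rw [Nat.card_zpowers, hxo, pow_one])
  obtain ⟨Q, hQ⟩ := hXpg.exists_le_sylow
  obtain ⟨g, hg⟩ := MulAction.exists_smul_eq ↥(D.group K) Q PK
  set g' : GL D.Idx K := (g : GL D.Idx K) with hg'
  set y := g' * xK * g'⁻¹ with hy
  have hyTR : y ∈ TR := by
    have h1 : MulAut.conj g • (⟨xK, hxKG⟩ : ↥(D.group K)) ∈ ((g • Q : Sylow r _) : Subgroup ↥(D.group K)) :=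
      Subgroup.smul_mem_pointwise_smul _ _ _ (hQ (Subgroup.mem_zpowers _))
    rw [hg] at h1
    exact h1
  have hyT : y ∈ D.diagonalSubgroup K := ((mem_torusPart C r).mp hyTR).1
  have hσT : ∀ t ∈ D.diagonalSubgroup K, σ t = t ^ q := by
    intro t ht
    obtain ⟨χ, -, -, et⟩ := C.diagonal_char ht
    refine Units.ext ?_
    rw [coe_gmap, et, dMat_map, Units.val_pow_eq_pow_val, et, dMat_pow]
    exact dMat_congr fun s _ => hφ _
  have hσg : σ g' ∈ D.group K := map_group_le φ ⟨g', g.2, rfl⟩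
  let dd : ↥(D.group K) := ⟨σ g', hσg⟩ * g⁻¹
  have hdd' : σ g' = (dd : GL D.Idx K) * g' := by
    show σ g' = σ g' * g'⁻¹ * g'
    group
  have hddy : (dd : GL D.Idx K) * y * (dd : GL D.Idx K)⁻¹ = y ^ q := by
    rw [← hσT y hyT, hy, map_mul, map_mul, map_inv, hxK, hσι]
    show σ g' * g'⁻¹ * _ * (σ g' * g'⁻¹)⁻¹ = _
    group
  have hyK : y ∈ D.group K := C.diagonal_le_group hyT
  have hTRcomm : ∀ a ∈ TR, ∀ b ∈ TR, a * b = b * a := fun a ha b hb =>
    C.diagonal_comm ((mem_torusPart C r).mp ha).1 ((mem_torusPart C r).mp hb).1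
  obtain ⟨n, hnN, hn⟩ := exists_normalizer_conj PK (fun a ha b hb => Subtype.ext (hTRcomm _ ha _ hb)) dd
    {(⟨y ^ q, pow_mem hyK q⟩ : ↥(D.group K))}
    (fun a ha => by rw [Set.mem_singleton_iff.mp ha]; exact pow_mem hyTR q)
    (fun a ha => by
      rw [Set.mem_singleton_iff.mp ha]
      show (dd : GL D.Idx K)⁻¹ * y ^ q * (dd : GL D.Idx K) ∈ TR
      rw [← hddy]
      convert hyTR using 1
      group)
  set n' : GL D.Idx K := (n : GL D.Idx K) with hn'
  have hny : n' * y * n'⁻¹ = y ^ q := by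
    have h1 : n'⁻¹ * y ^ q * n' = (dd : GL D.Idx K)⁻¹ * y ^ q * dd :=
      congrArg Subtype.val (hn _ rfl)
    conv at h1 => rhs; rw [← hddy]
    rw [show (dd : GL D.Idx K)⁻¹ * ((dd : GL D.Idx K) * y * (dd : GL D.Idx K)⁻¹) * dd = y by group] at h1
    calc n' * y * n'⁻¹ = n' * (n'⁻¹ * y ^ q * n') * n'⁻¹ := by rw [h1]
      _ = y ^ q := by group
  have hnmono : n' ∈ D.monomialSubgroup K := by
    refine monomial_of_normalizes C r hM hreg' hKr n.2 fun t => ⟨fun ht => ?_, fun ht => ?_⟩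
    · exact (Subgroup.mem_normalizer_iff.mp hnN ⟨t, hTRK ht⟩).mp ht
    · have htK : t ∈ D.group K := by
        have := mul_mem (mul_mem (inv_mem n.2) (hTRK ht)) n.2
        rwa [show (n : GL D.Idx K)⁻¹ * ((n : GL D.Idx K) * t * (n : GL D.Idx K)⁻¹) * n = t by group] at this
      exact (Subgroup.mem_normalizer_iff.mp hnN ⟨t, htK⟩).mpr ht
  obtain ⟨L, h₁, hh₁, en⟩ := C.exists_word hM hnmono
  obtain ⟨P⟩ := nonempty_logCoord C (K := K)
  set A := actMat C (L.map Fin.val).reverse with hA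
  have hlin : ∀ (t : GL D.Idx K) (ht : t ∈ D.diagonalSubgroup K), n' * t * n'⁻¹ = t ^ q ↔
      A.map (Int.castRingHom (ZMod (Fintype.card K - 1))) *ᵥ (P.lg ⟨t, ht⟩).toAdd =
        (q : ZMod (Fintype.card K - 1)) • (P.lg ⟨t, ht⟩).toAdd := by
    intro t ht
    have hm : n' * t * n'⁻¹ ∈ D.diagonalSubgroup K := C.monomial_conj_diagonal hnmono ht
    have hm' : C.nWordElt K (L.map Fin.val) * h₁ * t * (C.nWordElt K (L.map Fin.val) * h₁)⁻¹ ∈
        D.diagonalSubgroup K := en ▸ hm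
    have h1 : (P.lg ⟨n' * t * n'⁻¹, hm⟩).toAdd =
        A.map (Int.castRingHom (ZMod (Fintype.card K - 1))) *ᵥ (P.lg ⟨t, ht⟩).toAdd := by
      rw [show (⟨n' * t * n'⁻¹, hm⟩ : ↥(D.diagonalSubgroup K)) = ⟨_, hm'⟩ from Subtype.ext (show n' * t * n'⁻¹ = C.nWordElt K (L.map Fin.val) * h₁ * t * (C.nWordElt K (L.map Fin.val) * h₁)⁻¹ by rw [en])]
      exact P.lg_conj (C.fin_word_lt L) hh₁ ⟨t, ht⟩ hm'
    have h3 : (P.lg ((⟨t, ht⟩ : ↥(D.diagonalSubgroup K)) ^ q)).toAdd =
        (q : ZMod (Fintype.card K - 1)) • (P.lg ⟨t, ht⟩).toAdd := by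
      rw [map_pow, toAdd_pow]
      exact (Nat.cast_smul_eq_nsmul _ _ _).symm
    rw [← h1, ← h3]
    constructor
    · intro h; congr 2; exact Subtype.ext h
    · intro h
      exact congrArg Subtype.val (P.inj (Multiplicative.toAdd.injective h))
  -- the eigenvector modulo `r`
  obtain ⟨j, hj, hjsurj⟩ := exists_torsionHom hKpos hKr
  have hyr : y ^ r = 1 := by
    have hx1 : xK ^ r = 1 := congrArg Subtype.val (orderOf_dvd_iff_pow_eq_one.mp hxo.dvd)
    rw [hy, conj_pow, hx1, mul_one, mul_inv_cancel]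
  have hlgr : r • (P.lg ⟨y, hyT⟩).toAdd = 0 := by
    rw [← toAdd_pow, ← map_pow, show (⟨y, hyT⟩ : ↥(D.diagonalSubgroup K)) ^ r = 1 from Subtype.ext hyr, map_one,
      toAdd_one]
  choose v hv using fun i => hjsurj ((P.lg ⟨y, hyT⟩).toAdd i) (congrFun hlgr i)
  have hv' : (P.lg ⟨y, hyT⟩).toAdd = fun i => j (v i) := funext fun i => (hv i).symm
  have hv0 : v ≠ 0 := by
    intro h
    have h1 : P.lg ⟨y, hyT⟩ = 1 := Multiplicative.toAdd.injective (by
      rw [hv', h]; funext i; simp)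
    have h2 : y = 1 := congrArg Subtype.val ((map_eq_one_iff _ P.inj).mp h1)
    have h3 : xK = 1 := by
      rw [hy] at h2
      exact mul_eq_left.mp (mul_inv_eq_one.mp h2)
    have h4 : orderOf (⟨xK, hxKG⟩ : ↥(D.group K)) = 1 := orderOf_eq_one_iff.mpr (Subtype.ext h3)
    rw [hxo] at h4
    exact hr.one_lt.ne' h4
  have heig : A.map (Int.castRingHom (ZMod r)) *ᵥ v = (q : ZMod r) • v := by
    have h1 := (hlin y hyT).mp hny
    rw [hv'] at h1
    funext i
    refine hj ?_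
    have h2 := congrFun h1 i
    simp only [Matrix.mulVec, dotProduct, Matrix.map_apply, eq_intCast, Pi.smul_apply, smul_eq_mul] at h2 ⊢
    rw [map_sum]
    calc ∑ k, j ((A i k : ZMod r) * v k) = ∑ k, (A i k : ZMod (Fintype.card K - 1)) * j (v k) :=
          Finset.sum_congr rfl fun k _ => by rw [← zsmul_eq_mul, ← zsmul_eq_mul, map_zsmul]
      _ = _ := h2
      _ = _ := by rw [← nsmul_eq_mul, ← nsmul_eq_mul, map_nsmul]
  obtain ⟨N, hrN, hN⟩ := exists_pow_mem_diagonal C r hvK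
  have hLr : ∀ i ∈ (L.map Fin.val).reverse, i < D.rank :=
    fun i hi => C.fin_word_lt L i (List.mem_reverse.mp hi)
  have hAN : A ^ N = 1 := actMat_pow_eq_one C (F := K) hLr (hN _ (C.nWordElt_mem hLr))
  have hchar : A.charpoly = Polynomial.cyclotomic d ℤ := charpoly_eq_cyclotomic A hrN hAN hd hl hd0 hv0 heig
  have hirr : Irreducible A.charpoly := hchar ▸ Polynomial.cyclotomic.irreducible hd0
  -- orbit matrices
  set m := ((Polynomial.cyclotomic d ℤ).eval (q : ℤ)).natAbs with hm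
  have horbit : ∀ s < D.nroots, (orbitMat A (coefVec C s)).det ≠ 0 ∧
      ¬ r ∣ (orbitMat A (coefVec C s)).det.natAbs ∧ (orbitMat A (coefVec C s)).det.natAbs.gcd m ∣ 2 ∧
        ((orbitMat A (coefVec C s)).det.natAbs.gcd m = 1 ∨ ¬ 4 ∣ m) := by
    intro s hs
    set V := orbitMat A (coefVec C s) with hV
    have hne : V.det ≠ 0 := det_orbitMat_ne_zero A hirr (fun h => by
      obtain ⟨i, hi, hne⟩ := C.exists_coef_ne hs
      exact hne (congrFun h ⟨i, hi⟩))
    refine ⟨hne, hbound _ (Int.natAbs_ne_zero.mpr hne) ?_⟩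
    rw [Int.natAbs_sq]
    refine det_sq_mul_det_le hrank.ne' _ M₀ V hk₀ δ₀ hδ₀ hB fun i => ?_
    have hrow : V i = coefVec C (act D (wordPow (L.map Fin.val).reverse i) s) := by
      rw [coefVec_act C (wordPow_lt hLr _) hs, actMat_wordPow C hLr]
      rfl
    have hlt := C.act_lt (wordPow_lt hLr (i : ℕ)) hs
    refine le_trans (le_of_eq ?_) (norm_le C δ hδ hc hlt)
    simp only [Matrix.mul_apply, Matrix.of_apply, Matrix.transpose_apply, hrow, coefVec, Finset.sum_mul]
    rw [Finset.sum_comm]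
    refine Finset.sum_congr rfl fun a _ => ?_
    rw [C.cartan_linear a a.isLt _ hlt, Finset.sum_range, Finset.mul_sum, Finset.mul_sum]
    exact Finset.sum_congr rfl fun b _ => by ring
  have hregv : ∀ s < D.nroots, ∑ i, (coefVec C s i : ZMod r) * v i ≠ 0 := by
    intro s hs h
    obtain ⟨-, hrdet, -, -⟩ := horbit s hs
    have h1 := det_mul_eq_zero _ (orbitMat_mulVec A (coefVec C s) heig h)
    rw [← RingHom.mapMatrix_apply, ← RingHom.map_det, eq_intCast] at h1
    refine hv0 (funext fun i => (mul_eq_zero.mp (h1 i)).resolve_left fun h' => hrdet ?_)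
    exact Int.natCast_dvd.mp ((ZMod.intCast_zmod_eq_zero_iff_dvd _ _).mp h')
  have hCy : ∀ z ∈ D.group K, y * z = z * y → z ∈ D.diagonalSubgroup K := fun z hz hcz =>
    mem_diagonal_of_commute P hM hrN hN j hj (y := ⟨y, hyT⟩) hv' hregv hz hcz
  -- `dd` acts on the torus as `n`
  have hh' : n'⁻¹ * (dd : GL D.Idx K) ∈ D.diagonalSubgroup K := by
    refine hCy _ (mul_mem (inv_mem n.2) dd.2) ?_
    have e2 : n'⁻¹ * y ^ q * n' = y := by rw [← hny]; group
    calc y * (n'⁻¹ * dd) = n'⁻¹ * y ^ q * n' * (n'⁻¹ * dd) := by rw [e2]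
      _ = n'⁻¹ * y ^ q * dd := by group
      _ = n'⁻¹ * ((dd : GL D.Idx K) * y * (dd : GL D.Idx K)⁻¹) * dd := by rw [hddy]
      _ = _ := by group
  have hddt : ∀ t ∈ D.diagonalSubgroup K,
      (dd : GL D.Idx K) * t * (dd : GL D.Idx K)⁻¹ = n' * t * n'⁻¹ := by
    intro t ht
    calc (dd : GL D.Idx K) * t * (dd : GL D.Idx K)⁻¹ =
        n' * ((n'⁻¹ * dd) * t * (n'⁻¹ * (dd : GL D.Idx K))⁻¹) * n'⁻¹ := by group
      _ = _ := by rw [C.diagonal_comm hh' ht, mul_inv_cancel_right]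
  -- the centraliser
  set H := Subgroup.centralizer ({x} : Set ↥(D.group F)) with hH
  have hmemH : ∀ z, z ∈ H ↔ x * z = z * x := fun z => by
    rw [hH, Subgroup.mem_centralizer_iff]; simp
  have hmemT : ∀ z : ↥H, g' * gmap D ι ((z : ↥(D.group F)) : GL D.Idx F) * g'⁻¹ ∈ D.diagonalSubgroup K := by
    intro z
    refine hCy _ (mul_mem (mul_mem g.2 (map_group_le ι ⟨_, (z : ↥(D.group F)).2, rfl⟩)) (inv_mem g.2)) ?_
    have h1 := congrArg (fun w : ↥(D.group F) => gmap D ι (w : GL D.Idx F)) ((hmemH _).mp z.2)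
    simp only [Subgroup.coe_mul, map_mul] at h1
    rw [hy, conj_mul, conj_mul, hxK, h1]
  let τ : ↥H →* ↥(D.diagonalSubgroup K) :=
    MonoidHom.mk' (fun z => ⟨_, hmemT z⟩) fun a b => Subtype.ext (by
      simp only [Subgroup.coe_mul, map_mul]; group)
  have hτ : Function.Injective τ := fun a b h => by
    have h1 := congrArg Subtype.val h
    exact Subtype.ext (Subtype.ext (gmap_injective ι (mul_left_cancel (mul_right_cancel h1))))
  have hHcomm : ∀ a b : ↥H, a * b = b * a := fun a b => hτ (by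
    rw [map_mul, map_mul]; exact Subtype.ext (C.diagonal_comm (τ a).2 (τ b).2))
  set Bq : Matrix (Fin D.rank) (Fin D.rank) ℤ := Matrix.scalar (Fin D.rank) (q : ℤ) - A with hBq
  set S := solutions (Fintype.card K - 1) Bq with hS
  have hBq' : ∀ a : Fin D.rank → ZMod (Fintype.card K - 1),
      Bq.map (Int.castRingHom (ZMod (Fintype.card K - 1))) *ᵥ a =
        (q : ZMod (Fintype.card K - 1)) • a - A.map (Int.castRingHom (ZMod (Fintype.card K - 1))) *ᵥ a := by
    intro a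
    rw [hBq, Matrix.map_sub _ (map_sub (Int.castRingHom _)), Matrix.sub_mulVec]
    congr 1
    rw [Matrix.scalar_apply, Matrix.diagonal_map (map_zero _)]
    funext i
    simp [Matrix.mulVec_diagonal]
  let Θ : ↥H →* Multiplicative (Fin D.rank → ZMod (Fintype.card K - 1)) := P.lg.comp τ
  have hΘ : Function.Injective Θ := P.inj.comp hτ
  have hrange : Θ.range = AddSubgroup.toSubgroup S := by
    ext a
    constructor
    · rintro ⟨z, rfl⟩
      show Bq.map _ *ᵥ _ = 0
      rw [hBq', sub_eq_zero, eq_comm]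
      refine (hlin _ (hmemT z)).mp ?_
      have h1 := hσT _ (hmemT z)
      rw [map_mul, map_mul, map_inv, hσι, hdd', ← hddt _ (hmemT z)] at *
      rw [← h1]; group
    · intro ha
      have ha' : Bq.map (Int.castRingHom (ZMod (Fintype.card K - 1))) *ᵥ a.toAdd = 0 := ha
      obtain ⟨t, hat⟩ := P.surjective (hTK K) a
      rw [hBq', sub_eq_zero, eq_comm, ← hat] at ha'
      have ht' := (hlin _ t.2).mpr ha'
      have htK : g'⁻¹ * (t : GL D.Idx K) * g' ∈ D.group K :=
        mul_mem (mul_mem (inv_mem g.2) (C.diagonal_le_group t.2)) g.2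
      have hfix : σ (g'⁻¹ * (t : GL D.Idx K) * g') = g'⁻¹ * (t : GL D.Idx K) * g' := by
        rw [map_mul, map_mul, map_inv, hσT _ t.2, hdd', ← ht', ← hddt _ t.2]
        group
      obtain ⟨z, hz, ez⟩ := mem_small_of_fixed' C₀ C ι φ hφ hM hTF htK hfix
      have hzH : (⟨z, hz⟩ : ↥(D.group F)) ∈ H := by
        rw [hmemH]
        refine Subtype.ext (gmap_injective ι ?_)
        rw [Subgroup.coe_mul, Subgroup.coe_mul, map_mul, map_mul, ez, ← hxK,
          show xK = g'⁻¹ * y * g' by rw [hy]; group]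
        calc g'⁻¹ * y * g' * (g'⁻¹ * (t : GL D.Idx K) * g') = g'⁻¹ * (y * t) * g' := by group
          _ = g'⁻¹ * (t * y) * g' := by rw [C.diagonal_comm hyT t.2]
          _ = _ := by group
      refine ⟨⟨_, hzH⟩, ?_⟩
      show P.lg _ = a
      rw [← hat]
      congr 1
      refine Subtype.ext ?_
      show g' * gmap D ι z * g'⁻¹ = t
      rw [ez]; group
  have hdet : Bq.det = (Polynomial.cyclotomic d ℤ).eval (q : ℤ) := by
    rw [hBq, ← Matrix.eval_charpoly, hchar]
  have hdvdK : (Polynomial.cyclotomic d ℤ).eval (q : ℤ) ∣ ((Fintype.card K - 1 : ℕ) : ℤ) := by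
    have hXd : (Polynomial.X : Polynomial ℤ) ^ d - 1 ∣ Polynomial.X ^ degs.prod - 1 := by
      obtain ⟨k', hk'⟩ := hdN
      rw [hk', pow_mul]
      simpa using sub_dvd_pow_sub_pow ((Polynomial.X : Polynomial ℤ) ^ d) 1 k'
    have h1 := Polynomial.eval_dvd (x := (q : ℤ))
      ((Polynomial.cyclotomic.dvd_X_pow_sub_one d ℤ).trans
        hXd)
    rw [Polynomial.eval_sub, Polynomial.eval_pow, Polynomial.eval_X, Polynomial.eval_one] at h1
    rw [hK, Nat.cast_sub (Nat.one_le_pow _ _ (by omega)), Nat.cast_pow, Nat.cast_one]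
    exact h1
  have hne : Bq.det ≠ 0 := fun h => by
    rw [← hdet, h] at hdvdK
    exact hKpos.ne' (by exact_mod_cast (zero_dvd_iff.mp hdvdK))
  have hcard : Nat.card ↥H = m := by
    rw [Nat.card_congr (MonoidHom.ofInjective hΘ).toEquiv, hrange]
    show Nat.card S = m
    rw [card_solutions _ Bq hne (hdet ▸ hdvdK), hdet]
  refine ⟨H, ?_, hcard, ?_⟩
  · letI : CommGroup ↥H := { (inferInstance : Group ↥H) with mul_comm := hHcomm }
    set w := coefVec C (D.simple (⟨0, hrank⟩ : Fin D.rank)) with hw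
    obtain ⟨-, -, hg2, hg4⟩ := horbit _ (C.simple_lt (⟨0, hrank⟩ : Fin D.rank) hrank)
    let ψ₀ : (Fin D.rank → ZMod (Fintype.card K - 1)) →+ ZMod (Fintype.card K - 1) :=
      AddMonoidHom.mk' (fun a => ∑ i, (w i : ZMod (Fintype.card K - 1)) * a i) fun a b => by
        simp [mul_add, Finset.sum_add_distrib]
    let ψ : ↥H →* Multiplicative (ZMod (Fintype.card K - 1)) := ψ₀.toMultiplicative.comp Θ
    have hkey : ∀ z, ψ z = 1 → ∀ e : ℕ, (orbitMat A w).det.natAbs.gcd m ∣ e → z ^ e = 1 := by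
      intro z hz e he
      have h1 : ∑ i, (w i : ZMod (Fintype.card K - 1)) * (Θ z).toAdd i = 0 := hz
      have h2 := det_mul_eq_zero _ (orbitMat_mulVec A w ((hlin _ (hmemT z)).mp (by
        have h5 := hσT _ (hmemT z)
        rw [map_mul, map_mul, map_inv, hσι, hdd', ← hddt _ (hmemT z)] at *
        rw [← h5]; group)) h1)
      rw [← RingHom.mapMatrix_apply, ← RingHom.map_det, eq_intCast] at h2
      have h3 : (Θ z) ^ (orbitMat A w).det.natAbs = 1 := by
        refine Multiplicative.toAdd.injective (funext fun i => ?_)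
        rw [toAdd_pow, toAdd_one, Pi.smul_apply, Pi.zero_apply, nsmul_eq_mul]
        rcases Int.natAbs_eq (orbitMat A w).det with h' | h'
        · have h4 := h2 i; rw [h', Int.cast_natCast] at h4; exact h4
        · have h4 := h2 i
          rw [h', Int.cast_neg, Int.cast_natCast, neg_mul, neg_eq_zero] at h4
          exact h4
      have h4 : orderOf z ∣ (orbitMat A w).det.natAbs.gcd m := by
        refine Nat.dvd_gcd ?_ (hcard ▸ orderOf_dvd_natCard z)
        exact orderOf_dvd_of_pow_eq_one (hΘ (by rw [map_pow, h3, map_one]))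
      exact orderOf_dvd_iff_pow_eq_one.mp (h4.trans he)
    refine isCyclic_of_hom ψ (fun z hz => hkey z hz 2 hg2) ?_
    rcases hg4 with h1 | h1
    · refine Or.inl ((MonoidHom.ker_eq_bot_iff ψ).mpr ((injective_iff_map_eq_one ψ).mpr fun z hz => ?_))
      simpa using hkey z hz 1 (by rw [h1])
    · exact Or.inr (hcard ▸ h1)
  · refine le_antisymm (fun z hz => ?_) fun z hz => ?_
    · rw [hmemH]
      exact Subgroup.mem_centralizer_iff.mp hz x ((hmemH x).mpr rfl)
    · rw [Subgroup.mem_centralizer_iff]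
      intro a ha
      exact congrArg Subtype.val (hHcomm ⟨a, ha⟩ ⟨z, hz⟩)

end Cfsg.Agent.Chars2.SingerTorus
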